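import Cfsg.Prelude.Def_JComponents
import Cfsg.Prelude.Def_Involutions
import Cfsg.Agent.H24.PGroupBasic
import Cfsg.Agent.H28.StronglyEmbedded
import Cfsg.Agent.H34.Thompson
import Cfsg.Agent.H74.PGroupAction
import Cfsg.Agent.H74.SylowChain

/-!
Elementary facts on `J(T)`-components and straddling subgroups.
-/

set_option autoImplicit false

namespace Cfsg.Agent.H74

open Subgroup
open scoped Pointwise commutatorElement

variable {G : Type*} [Group G]

/-- A subgroup normalizing `J` and normalized by `K` and `J` normalizes an odd-generated `K = [K, J]`. -/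
theorem normalizes_odd_generated [Finite G] {K J Q : Subgroup G} (hK : closure {g : G | g ∈ K ∧ Odd (orderOf g)} = K)
    (hKJ : ⁅K, J⁆ = K) (hJ : IsPGroup 2 J) (hQ1 : K ⊔ J ≤ normalizer (Q : Set G))
    (hQ2 : Q ≤ normalizer (J : Set G)) : Q ≤ normalizer (K : Set G) := by
  have hJK : J ≤ normalizer (K : Set G) := by
    have := normalizer_commutator_ge_right (H₁ := K) (H₂ := J)
    rwa [hKJ] at this
  set X := K ⊔ J with hX
  have hXK : X ≤ normalizer (K : Set G) := sup_le le_normalizer hJK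
  have key : ∀ q ∈ Q, ∀ k ∈ K, q * k * q⁻¹ ∈ X := by
    intro q hq
    have hle : K ≤ X.comap (MulAut.conj q).toMonoidHom := by
      rw [← hKJ, commutator_le]
      intro k hk j hj
      rw [mem_comap, map_commutatorElement]
      simp only [MulEquiv.coe_toMonoidHom, MulAut.conj_apply]
      set q'' := k⁻¹ * (q * k * q⁻¹) with hq''
      set j' := q * j * q⁻¹ with hj'
      have hj'J : j' ∈ J := (mem_normalizer_iff.mp (hQ2 hq) j).mp hj
      have hq''Q : q'' ∈ Q := by
        have h1 : k⁻¹ * q * k⁻¹⁻¹ ∈ Q :=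
          (mem_normalizer_iff.mp (hQ1 (mem_sup_left (inv_mem hk))) q).mp hq
        have := mul_mem h1 (inv_mem hq)
        simpa [hq'', mul_assoc] using this
      have e : ⁅q * k * q⁻¹, j'⁆ = k * ⁅q'', j'⁆ * k⁻¹ * ⁅k, j'⁆ := by
        rw [hq'']; simp only [commutatorElement_def]; group
      rw [e]
      have h1 : ⁅q'', j'⁆ ∈ J := by
        rw [commutatorElement_def]
        exact mul_mem ((mem_normalizer_iff.mp (hQ2 hq''Q) j').mp hj'J) (inv_mem hj'J)
      exact mul_mem (mul_mem (mul_mem (mem_sup_left hk) (mem_sup_right h1)) (inv_mem (mem_sup_left hk)))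
        (mem_sup_left (hKJ ▸ commutator_mem_commutator hk hj'J))
    exact fun k hk => hle hk
  intro q hq
  refine mem_normalizer_of_conj_mem fun k hk => ?_
  have hle : K ≤ K.comap (MulAut.conj q).toMonoidHom := by
    conv_lhs => rw [← hK]
    rw [closure_le]
    rintro g ⟨hgK, hgo⟩
    show q * g * q⁻¹ ∈ K
    set y := q * g * q⁻¹ with hy
    have hyX : y ∈ X := key q hq g hgK
    rw [← SetLike.mem_coe, hX, coe_mul_of_right_le_normalizer_left K J hJK] at hyX
    obtain ⟨k', hk', j, hj, hkj⟩ := hyX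
    -- the image of `y` in `X / K` is a `2`-element of odd order
    have hjK : j ∈ K := by
      obtain ⟨i, hi⟩ := hJ ⟨j, hj⟩
      have hj2 : j ^ 2 ^ i = 1 := by simpa using congrArg Subtype.val hi
      set φ := QuotientGroup.mk' (K.subgroupOf (normalizer (K : Set G)))
      have hyN : y ∈ normalizer (K : Set G) := by
        rw [← hkj]; exact mul_mem (le_normalizer hk') (hJK hj)
      have h1 : φ ⟨y, hyN⟩ = φ ⟨j, hJK hj⟩ := by
        refine (QuotientGroup.eq.mpr ?_)
        rw [mem_subgroupOf]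
        simp only [coe_mul, coe_inv, ← hkj]
        have h2 := (mem_normalizer_iff.mp (hJK (inv_mem hj)) k'⁻¹).mp (inv_mem hk')
        simpa [mul_assoc] using h2
      have h2 : orderOf (φ ⟨j, hJK hj⟩) = 1 := by
        refine Nat.eq_one_of_dvd_coprimes (Nat.Coprime.pow_left i (hgo.coprime_two_left)) ?_ ?_
        · exact orderOf_dvd_of_pow_eq_one (by rw [← map_pow, ← map_one φ]; congr 1; exact Subtype.ext (by simpa using hj2))
        · rw [← h1]
          refine (orderOf_map_dvd φ _).trans (dvd_of_eq ?_)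
          rw [Subgroup.orderOf_mk, hy]
          exact MulEquiv.orderOf_eq (MulAut.conj q) g
      rw [orderOf_eq_one_iff] at h2
      exact mem_subgroupOf.mp ((QuotientGroup.eq_one_iff _).mp h2)
    rw [← hkj]
    exact mul_mem hk' hjK
  exact hle hk

/-- Strong embedding is the absence of straddling subgroups. -/
theorem stronglyEmbedded_iff_no_straddling [Finite G] (hO : Cfsg.pCore 2 G = ⊥) (S : Sylow 2 G)
    (M : Subgroup G) (hM : Cfsg.IsTwoLocal M)
    (hMJ : normalizer (Cfsg.thompsonSubgroupOf 2 (S : Subgroup G) : Set G) ≤ M) :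
    Cfsg.IsStronglyEmbedded M ↔ Cfsg.straddlingTwoSubgroups M = ∅ := by
  haveI : Fact (Nat.Prime 2) := ⟨Nat.prime_two⟩
  obtain ⟨R, hR, hR1, hMR⟩ := hM
  constructor
  · intro hse
    refine Set.eq_empty_iff_forall_notMem.mpr ?_
    rintro T ⟨hT, hT1, hTM, L, ⟨D, hD, hD1, hLD⟩, hTL, hLM⟩
    apply hLM
    subst hLD
    -- `D` meets `M` nontrivially
    have hsup : IsPGroup 2 (D ⊔ T : Subgroup G) := hD.to_sup_of_normal_left' hT hTL
    obtain ⟨z, hzD, hz⟩ : ∃ z ∈ D, z ≠ 1 ∧ ∀ t ∈ T, t * z = z * t := by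
      haveI : Nontrivial D := nontrivial_iff_ne_bot D |>.mpr hD1
      haveI : Finite D := inferInstance
      haveI hDn : (D.subgroupOf (D ⊔ T)).Normal :=
        (normal_subgroupOf_iff_le_normalizer le_sup_left).mpr (sup_le le_normalizer hTL)
      haveI : Nontrivial (D.subgroupOf (D ⊔ T)) :=
        (subgroupOfEquivOfLe (le_sup_left : D ≤ D ⊔ T)).toEquiv.nontrivial
      haveI : Nontrivial ↥((D.subgroupOf (D ⊔ T)) ⊓ center ↥(D ⊔ T)) :=
        nontrivial_iff_ne_bot _ |>.mpr (H24.inf_center_ne_bot hsup (nontrivial_iff_ne_bot _ |>.mp inferInstance))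
      obtain ⟨w, hw⟩ := exists_ne (1 : ↥((D.subgroupOf (D ⊔ T)) ⊓ center ↥(D ⊔ T)))
      refine ⟨((w : ↥(D ⊔ T)) : G), mem_subgroupOf.mp w.2.1, fun h => hw (Subtype.ext (Subtype.ext h)), fun t ht => ?_⟩
      exact congrArg Subtype.val (mem_center_iff.mp w.2.2 ⟨t, mem_sup_right ht⟩)
    have hzM : z ∈ M := H28.normalizer_le_of_isStronglyEmbedded hse hTM hT hT1
      (centralizer_le_normalizer _ (mem_centralizer_iff.mpr hz.2))
    have hDM : D ≤ M := by
      by_contra hDM
      have hlt : D ⊓ M < D := lt_of_le_of_ne inf_le_left fun h => hDM (inf_eq_left.mp h)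
      obtain ⟨n, hn, hnD⟩ := SetLike.exists_of_lt (H22.lt_inf_normalizer_of_lt hD hlt)
      refine hnD ⟨hn.1, H28.normalizer_le_of_isStronglyEmbedded hse inf_le_right (hD.to_le inf_le_left) ?_ hn.2⟩
      intro h
      have : z ∈ D ⊓ M := ⟨hzD, hzM⟩
      rw [h, mem_bot] at this
      exact hz.1 this
    exact H28.normalizer_le_of_isStronglyEmbedded hse hDM hD hD1
  · intro hemp
    have key : ∀ X : Subgroup G, IsPGroup 2 X → X ≠ ⊥ → X ≤ M → normalizer (X : Set G) ≤ M := by
      intro X hX hX1 hXM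
      by_contra h
      exact (Set.eq_empty_iff_forall_notMem.mp hemp) X ⟨hX, hX1, hXM, _, ⟨X, hX, hX1, rfl⟩, le_normalizer, h⟩
    have hMne : M ≠ ⊤ := by
      intro h
      have hn : R.Normal := normalizer_eq_top_iff.mp (hMR ▸ h)
      exact hR1 (le_bot_iff.mp (hO ▸ le_sSup ⟨hn, hR⟩))
    have hSM : (S : Subgroup G) ≤ M :=
      le_trans (le_normalizer.trans (H34.normalizer_le_normalizer_thompson (S : Subgroup G))) hMJ
    refine H28.isStronglyEmbedded_of_normalizer_le hMne (S.subtype hSM) ?_ fun X hXS hX1 => ?_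
    · intro h
      have hRM : R ≤ M := hMR ▸ le_normalizer
      have hS0 : (S : Subgroup G) = ⊥ := by
        have h' : (S : Subgroup G).subgroupOf M = ⊥ := by rw [← Sylow.coe_subtype S hSM]; exact h
        simpa [disjoint_iff, inf_eq_left.mpr hSM] using subgroupOf_eq_bot.mp h'
      obtain ⟨g, hg⟩ := hR.exists_le_sylow
      obtain ⟨c, hc⟩ := MulAction.exists_smul_eq G S g
      have : (g : Subgroup G) = ⊥ := by
        rw [← hc, map_conj_eq_smul, hS0, Subgroup.map_bot]
      exact hR1 (le_bot_iff.mp (this ▸ hg))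
    · refine key _ ((((S.subtype hSM).isPGroup').to_le hXS).map _) ?_ (map_subtype_le X)
      exact fun h => hX1 ((map_eq_bot_iff_of_injective X M.subtype_injective).mp h)

end Cfsg.Agent.H74
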