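import Cfsg.Agent.H74.JComplement

/-!
Both containers are `S₄` or `S₄ × C₂`.
-/

set_option autoImplicit false

namespace Cfsg.Agent.H74.JB

open Subgroup Cfsg
open scoped commutatorElement Pointwise

variable {G : Type*} [Group G] [Finite G]

/-- The data of a non-commuting pair of planes. -/
theorem Plane.near_data (hZN : ZN G) {T K L K' L' : Subgroup G} (h : Plane T K L) (h' : Plane T K' L')
    (hne : L ≠ L') :
    ∃ z y : G, z ∈ wOf K ∧ z ≠ 1 ∧ z ∈ omegaCenterOf (thompsonSubgroupOf 2 T) ∧ y ∈ T ∧ y ∉ pR T K ∧ y * y = 1 ∧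
      (∀ t ∈ T, y * t * y⁻¹ = t ∨ y * t * y⁻¹ = z * t) ∧
      (∀ t, t ∈ pR T K' ↔ t ∈ T ∧ t * y = y * t) := by
  have hnc := h.not_commute hZN h' hne
  push Not at hnc
  obtain ⟨u, hu, v, hv, huv⟩ := hnc
  have huT : u ∈ T := (h.w_le hZN hu).1
  have hvT : v ∈ T := (h'.w_le hZN hv).1
  have hNW : ∀ t ∈ T, ∀ x ∈ wOf K, t * x * t⁻¹ ∈ wOf K := fun t ht x hx =>
    (mem_normalizer_iff.mp (normalizer_le_normalizer_wOf K (h.norm ht)) x).mp hx
  have hNW' : ∀ t ∈ T, ∀ x ∈ wOf K', t * x * t⁻¹ ∈ wOf K' := fun t ht x hx =>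
    (mem_normalizer_iff.mp (normalizer_le_normalizer_wOf K' (h'.norm ht)) x).mp hx
  set z := u * v * u⁻¹ * v⁻¹ with hz
  have hzW : z ∈ wOf K := by
    rw [hz, show u * v * u⁻¹ * v⁻¹ = u * (v * u⁻¹ * v⁻¹) by group]
    exact mul_mem hu (hNW v hvT _ (inv_mem hu))
  have hzW' : z ∈ wOf K' := mul_mem (hNW' u huT v hv) (inv_mem hv)
  have hz1 : z ≠ 1 := fun e => huv (mul_inv_eq_iff_eq_mul.mp (mul_inv_eq_one.mp e))
  have hzz : z * z = 1 := h.comp.2.2.2.2.2 z hzW
  have hW'c : ∀ a ∈ wOf K', ∀ b ∈ wOf K', a * b = b * a := fun a ha b hb => by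
    have h1 := h'.comp.2.2.2.2.2 _ (mul_mem ha hb)
    calc a * b = (a * b)⁻¹ := (inv_eq_of_mul_eq_one_left h1).symm
      _ = b⁻¹ * a⁻¹ := mul_inv_rev _ _
      _ = b * a := by
        rw [inv_eq_of_mul_eq_one_left (h'.comp.2.2.2.2.2 a ha), inv_eq_of_mul_eq_one_left (h'.comp.2.2.2.2.2 b hb)]
  have hmeet : ∀ x, x ∈ wOf K → x ∈ wOf K' → x = 1 ∨ x = z := by
    intro x hx hx'
    by_contra hh
    push Not at hh
    refine huv (hW'c u ?_ v hv)
    rcases four_cases h.comp.2.2.2.2.1.le hzW hx hz1 hh.1 (Ne.symm hh.2) hzz hu with e | e | e | e <;> rw [e]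
    · exact one_mem _
    · exact hzW'
    · exact hx'
    · exact mul_mem hzW' hx'
  have hzc : ∀ t ∈ T, t * z = z * t := fun t ht => by
    rcases hmeet _ (hNW t ht z hzW) (hNW' t ht z hzW') with e | e
    · exact absurd (conj_eq_one_iff.mp e) hz1
    · exact mul_inv_eq_iff_eq_mul.mp e
  have hzT : z ∈ T := (h.w_le hZN hzW).1
  have hvz : v ≠ z := fun e => huv (e ▸ hzc u huT)
  have hv1 : v ≠ 1 := fun e => huv (by rw [e, one_mul, mul_one])
  refine ⟨z, v, hzW, hz1, mem_z0_of_central hzT hzz hzc, hvT, fun hvR => huv (hvR.2 u hu),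
    h'.comp.2.2.2.2.2 v hv, fun t ht => ?_, fun t => ⟨fun ht => ⟨ht.1, (ht.2 v hv).symm⟩, fun ⟨ht, htv⟩ => ⟨ht, ?_⟩⟩⟩
  · rcases four_cases h'.comp.2.2.2.2.1.le hzW' hv hz1 hv1 hvz.symm hzz (hNW' t ht v hv) with e | e | e | e
    · exact absurd (conj_eq_one_iff.mp e) hv1
    · exfalso
      exact hvz (mul_left_cancel (mul_right_cancel (e.trans (by rw [hzc t ht, mul_inv_cancel_right] :
        z = t * z * t⁻¹))))
    · exact Or.inl (mul_inv_eq_iff_eq_mul.mpr (mul_inv_eq_iff_eq_mul.mp e).symm)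
    · refine Or.inr (mul_inv_eq_iff_eq_mul.mpr ?_)
      have e1 : t * v = z * v * t := mul_inv_eq_iff_eq_mul.mp e
      calc v * t = (z * z) * (v * t) := by rw [hzz, one_mul]
        _ = z * (z * v * t) := by group
        _ = z * (t * v) := by rw [e1]
        _ = _ := by group
  · intro x hx
    rcases four_cases h'.comp.2.2.2.2.1.le hzW' hv hz1 hv1 hvz.symm hzz hx with e | e | e | e <;> rw [e]
    · rw [one_mul, mul_one]
    · exact (hzc t ht).symm
    · exact htv.symm
    · rw [mul_assoc, ← htv, ← mul_assoc, ← hzc t ht, mul_assoc]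

set_option maxHeartbeats 800000 in
/-- The container is `S₄ × C₀(K)`. -/
theorem Plane.container_iso (hZN : ZN G) {T K L K' L' : Subgroup G} (h : Plane T K L) (h' : Plane T K' L')
    (hne : L ≠ L') (hC2 : Nat.card ↥(cZero T K) ≤ 2) :
    Nonempty (↥L ≃* Equiv.Perm (Fin 4) × ↥(cZero T K)) := by
  haveI : Fact (Nat.Prime 2) := ⟨Nat.prime_two⟩
  obtain ⟨z, y, hzW, hz1, hzZ, hy, hyR, hyy, hzy, hR'iff⟩ := h.near_data hZN h' hne
  obtain ⟨k, hkK, hk3, hkT, hyk, hkfix, hsplit, hEy⟩ := h.complement hZN hzW hz1 hy hyR hyy hzy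
  obtain ⟨d, hd, -, -, -, hRT, hQR, hPR, -, hprod, -, -, -, -⟩ := Plane.facts hZN h
  obtain ⟨-, -, -, -, -, hRT', -, hPR', -, -, -, -, -, -⟩ := Plane.facts hZN h'
  obtain ⟨hVe, -, hVR, -, -, hZV⟩ := Plane.module hZN h
  haveI := hVe.1
  set R := pR T K with hR
  set R' := pR T K' with hR'
  set W := wOf K with hW
  have hWR : W ≤ R := h.w_le hZN
  have hzz : z * z = 1 := h.comp.2.2.2.2.2 z hzW
  have hWc : ∀ r ∈ R, ∀ w ∈ W, w * r = r * w := fun r hr w hw => hr.2 w hw
  have hzC : z ∉ cZero T K := fun hh => hz1 (mem_bot.mp ((z0_split h.two h.comp).2.2.1.le ⟨hh, hzW⟩))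
  have hdich : ∀ t ∈ T, t ∈ R ∨ y * t ∈ R := fun t ht => (em (t ∈ R)).imp id (fun hn => hprod y hy t ht hyR hn)
  -- squares in `O₂` of both parabolics agree, so there are none
  have hsqR : ∀ r ∈ R, ∃ r' ∈ R', r' * r' = r * r := by
    intro r hr
    obtain ⟨v, hv, hrv⟩ := hsplit r hr
    refine ⟨r * v, (hR'iff _).mpr ⟨hRT hrv.1, (hEy _ hrv).symm⟩, ?_⟩
    calc r * v * (r * v) = r * (v * r) * v := by group
      _ = r * r * (v * v) := by rw [hWc r hr v hv]; group
      _ = r * r := by rw [h.comp.2.2.2.2.2 v hv, mul_one]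
  have hsqR' : ∀ r ∈ R', ∃ r₁ ∈ R, r₁ * r₁ = r * r := by
    intro r hr
    obtain ⟨hrT, hry⟩ := (hR'iff r).mp hr
    rcases hdich r hrT with hr1 | hr1
    · exact ⟨r, hr1, rfl⟩
    · refine ⟨y * r, hr1, ?_⟩
      rw [mul_assoc, ← mul_assoc r, hry, mul_assoc, ← mul_assoc, hyy, one_mul]
  set D := Subgroup.closure ((fun r => r * r) '' (R : Set G)) with hD
  have hDR' : D = Subgroup.closure ((fun r => r * r) '' (R' : Set G)) := by
    rw [hD]
    congr 1
    ext x
    constructor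
    · rintro ⟨r, hr, rfl⟩
      exact hsqR r hr
    · rintro ⟨r, hr, rfl⟩
      exact hsqR' r hr
  have hDnorm : ∀ X : Subgroup G, D = Subgroup.closure ((fun r => r * r) '' (X : Set G)) →
      normalizer (X : Set G) ≤ normalizer (D : Set G) := by
    intro X hX x hx
    refine mem_normalizer_of_conj_mem fun e he => ?_
    have hle : D ≤ D.comap (MulAut.conj x).toMonoidHom := by
      conv_lhs => rw [hX]
      refine (Subgroup.closure_le _).mpr ?_
      rintro _ ⟨r, hr, rfl⟩
      show x * (r * r) * x⁻¹ ∈ D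
      rw [hX]
      exact Subgroup.subset_closure ⟨x * r * x⁻¹, (mem_normalizer_iff.mp hx r).mp hr, by group⟩
    exact hle he
  have hDbot : D = ⊥ := by
    by_contra h0
    have hD2 : IsPGroup 2 D := h.two.to_le ((Subgroup.closure_le _).mpr (by
      rintro _ ⟨r, hr, rfl⟩
      exact mul_mem (hRT hr) (hRT hr)))
    have h1 := hPR.trans (hDnorm R rfl)
    have h2 := hPR'.trans (hDnorm R' hDR')
    refine hne (h.cont.eq_of_le h'.cont ?_).symm
    exact ((sup_le_sup_left (H34.thompsonSubgroupOf_le _) K').trans h2).trans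
      (Plane.normalizer_le hZN h hD2 h0 (le_sup_left.trans h1) (le_sup_right.trans h1))
  have hRe : ∀ r ∈ R, r * r = 1 := fun r hr =>
    mem_bot.mp (hDbot ▸ (Subgroup.subset_closure ⟨r, hr, rfl⟩ : r * r ∈ D))
  have hRc : ∀ a ∈ R, ∀ b ∈ R, a * b = b * a := by
    intro a ha b hb
    calc a * b = (a * b)⁻¹ := (inv_eq_of_mul_eq_one_left (hRe _ (mul_mem ha hb))).symm
      _ = b⁻¹ * a⁻¹ := mul_inv_rev _ _
      _ = b * a := by rw [inv_eq_of_mul_eq_one_left (hRe a ha), inv_eq_of_mul_eq_one_left (hRe b hb)]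
  -- `R` is the module
  have hRV : R ≤ pV T K := by
    intro r hr
    obtain ⟨v, hv, hrv⟩ := hsplit r hr
    have hcent : ∀ t ∈ T, t * (r * v) = r * v * t := by
      intro t ht
      rcases hdich t ht with h1 | h1
      · exact hRc t h1 _ hrv.1
      · have c1 : Commute (r * v) (y * t) := hRc _ hrv.1 _ h1
        have c2 : Commute (r * v) y := (hEy _ hrv).symm
        have c3 := (c2.mul_right c1).eq
        rw [← mul_assoc y y t, hyy, one_mul] at c3
        exact c3.symm
    have heZ := mem_z0_of_central (hRT hrv.1) (hRe _ hrv.1) hcent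
    have heC : r * v ∈ cZero T K := by
      by_contra hne'
      have hc := cZero_centralizer (z0_mul_mem h.two h.comp heZ hzZ hne' hzC)
      have hek : k * (r * v * z) = r * v * z * k := mem_centralizer_singleton_iff.mp (hc (mem_sup_left hkK))
      have hek' : r * v * k = k * (r * v) := mem_centralizer_singleton_iff.mp hrv.2
      refine hz1 (hkfix z hzW (mul_inv_eq_iff_eq_mul.mpr (mul_left_cancel (a := r * v) ?_)))
      rw [← mul_assoc, hek', mul_assoc, hek, mul_assoc]
    have := mul_mem (mem_sup_left heC : r * v ∈ cZero T K ⊔ W) (inv_mem (mem_sup_right hv : v ∈ cZero T K ⊔ W))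
    rwa [mul_inv_cancel_right] at this
  -- the two-core of the container
  have hKL : K ≤ L := le_sup_left.trans h.cont.le
  have hOT := (overgroup_facts h.ne h.ovg).2.1
  have hOR : pCoreOf 2 L = R := by
    have hle : pCoreOf 2 L ≤ R := by
      refine le_inf hOT fun o ho w hw => ?_
      obtain ⟨P, hP⟩ := exists_sylow_map h.ovg.1
      have hJ := jHyp hZN h.ne h.ovg hP
      obtain ⟨hc, -, hWm⟩ := isComp_of_isJComponent hZN h.ne h.ovg hP h.comp hKL
      obtain ⟨-, -, -, hwK, -⟩ := JC.comp_basic hJ hc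
      rw [← hWm] at hw
      obtain ⟨v, hv, rfl⟩ := hw
      rw [hwK] at hv
      obtain ⟨o', ho', rfl⟩ := ho
      exact (congrArg Subtype.val ((H34.omegaOne_le _ (JC.v_le_o hJ (commutator_le_left _ _ hv))).2 o' ho')).symm
    exact le_antisymm hle fun r hr => h.ovg.2.2 fun o ho => hRc o (hle ho) r hr
  have hLR : L ≤ normalizer (R : Set G) := hOR ▸ H72.le_normalizer_pCoreOf 2 L
  have hCR : centralizer (R : Set G) ≤ R := hOR ▸ h.ovg.2.2
  have hW4 : Nat.card ↥W = 4 := h.comp.2.2.2.2.1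
  have hVcard : Nat.card ↥R ≤ 8 := by
    have hCW : W ≤ normalizer (cZero T K : Set G) := fun w hw => by
      refine (centralizer_le_normalizer _ : centralizer (cZero T K : Set G) ≤ _) fun c hc => ?_
      exact hRc c (hVR (mem_sup_left hc)) w (hWR hw)
    have hsub : ∀ x : ↥R, ∃ p : ↥(cZero T K) × ↥W, (p.1 : G) * p.2 = x := fun x => by
      have hx : (x : G) ∈ ((cZero T K ⊔ W : Subgroup G) : Set G) := hRV x.2
      rw [coe_mul_of_right_le_normalizer_left _ _ hCW] at hx
      obtain ⟨a, ha, b, hb, hab⟩ := hx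
      exact ⟨(⟨a, ha⟩, ⟨b, hb⟩), hab⟩
    choose f hf using hsub
    refine (Nat.card_le_card_of_injective f fun a b e => Subtype.ext (by rw [← hf a, ← hf b, e])).trans ?_
    rw [Nat.card_prod, hW4]
    omega
  have hLK : L ≤ normalizer (K : Set G) := by
    intro g hg
    obtain ⟨h1, h2⟩ := comp_conj_overgroup hZN h.ne h.ovg h.comp hKL hg
    refine mem_normalizer_iff_map_conj_eq.mpr ?_
    set X := K.map (MulAut.conj g).toMonoidHom with hX
    by_contra hXK
    have hXR : wOf X ≤ R := fun x hx => ⟨comp_core_le hZN h.ne h.ovg h1 h2 ((wOf_facts h1).2.2.1 hx),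
      (comp_cross hZN h.ne h.ovg h1 h2 h.comp hKL hXK) (H72.pCoreOf_le 2 X ((wOf_facts h1).2.2.1 hx))⟩
    have hdis := (comp_eq_or_disjoint hZN h.ne h.ovg h1 h2 h.comp hKL).resolve_left hXK
    have h3 := H34.card_mul_card_le (wOf X) W
    rw [hdis, card_bot, h1.2.2.2.2.1, hW4, mul_one] at h3
    have h4 : Nat.card ↥(wOf X ⊔ W) ≤ Nat.card ↥R := card_le_of_le (sup_le hXR hWR)
    omega
  have hLW : L ≤ normalizer (W : Set G) := hLK.trans (normalizer_le_normalizer_wOf K)
  have hCW : L ⊓ centralizer (W : Set G) ≤ R := by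
    have hRL : R ≤ L := hRT.trans h.ovg.1.1
    have hWi : ∀ a ∈ R, ∀ b ∈ R, a ∉ W → b ∉ W → b * a⁻¹ ∈ W := by
      intro a ha b hb haW hbW
      have h8 : (W.subgroupOf R).index ≤ 2 := by
        have h1 := (W.subgroupOf R).card_mul_index
        rw [Nat.card_congr (subgroupOfEquivOfLe hWR).toEquiv, hW4] at h1
        omega
      have h2 : (W.subgroupOf R).index = 2 := by
        rcases (show (W.subgroupOf R).index = 0 ∨ (W.subgroupOf R).index = 1 ∨ (W.subgroupOf R).index = 2 by omega)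
          with e | e | e
        · exact absurd e index_ne_zero_of_finite
        · exact absurd ((index_eq_one.mp e).ge (mem_top (⟨a, ha⟩ : ↥R))) haW
        · exact e
      have := (mul_mem_iff_of_index_two h2 (a := ⟨b, hb⟩) (b := (⟨a, ha⟩ : ↥R)⁻¹)).mpr
        (iff_of_false hbW fun hh => haW (inv_mem_iff.mp hh))
      exact this
    have hsq : ∀ m ∈ L ⊓ centralizer (W : Set G), m * m ∈ R := by
      intro m hm
      refine hCR fun r hr => ?_
      have hmW : ∀ w ∈ W, m * w * m⁻¹ = w := fun w hw => by rw [← hm.2 w hw, mul_inv_cancel_right]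
      have hd' : m * r * m⁻¹ * r⁻¹ ∈ W := by
        by_cases hrW : r ∈ W
        · rw [hmW r hrW, mul_inv_cancel]; exact one_mem _
        · refine hWi r hr _ ((mem_normalizer_iff.mp (hLR hm.1) r).mp hr) hrW fun hh => hrW ?_
          have : m * (m * r * m⁻¹) * m⁻¹ = m * r * m⁻¹ := hmW _ hh
          have e : m * r * m⁻¹ = r := mul_left_cancel (mul_right_cancel this)
          rwa [← e]
      set w := m * r * m⁻¹ * r⁻¹ with hw
      have e : m * m * r * (m * m)⁻¹ = r := by
        calc m * m * r * (m * m)⁻¹ = m * (w * r) * m⁻¹ := by rw [hw]; group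
          _ = (m * w * m⁻¹) * (m * r * m⁻¹) := by group
          _ = w * (w * r) := by rw [hmW w hd', hw]; group
          _ = r := by rw [← mul_assoc, h.comp.2.2.2.2.2 w hd', one_mul]
      exact (mul_inv_eq_iff_eq_mul.mp e).symm
    refine le_trans (H72.le_pCoreOf inf_le_left ?_ ?_) hOR.le
    · intro g hg
      refine mem_normalizer_of_conj_mem fun m hm => ⟨L.mul_mem (L.mul_mem hg hm.1) (L.inv_mem hg), fun w hw => ?_⟩
      obtain ⟨w', hw', rfl⟩ := (mem_normalizer_iff_map_conj_eq.mp (hLW hg)).ge hw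
      show g * w' * g⁻¹ * (g * m * g⁻¹) = g * m * g⁻¹ * (g * w' * g⁻¹)
      calc g * w' * g⁻¹ * (g * m * g⁻¹) = g * (w' * m) * g⁻¹ := by group
        _ = g * (m * w') * g⁻¹ := by rw [hm.2 w' hw']
        _ = _ := by group
    · rintro ⟨m, hm⟩
      refine ⟨2, Subtype.ext ?_⟩
      show m ^ 2 ^ 2 = 1
      rw [show m ^ 2 ^ 2 = m * m * (m * m) by rw [show (2 : ℕ) ^ 2 = 2 + 2 by norm_num, pow_add, pow_two]]
      exact hRe _ (hsq m hm)
  -- the complement of `C₀(K)`
  set E := cZero T K with hE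
  have hER : E ≤ R := le_sup_left.trans hVR
  have hKW : K ≤ normalizer (W : Set G) := le_normalizer.trans (normalizer_le_normalizer_wOf K)
  have hHK : zpowers y ≤ normalizer (zpowers k : Set G) := zpowers_le.mpr (mem_normalizer_of_conj_mem fun x hx => by
    obtain ⟨i, rfl⟩ := mem_zpowers_iff.mp hx
    rw [← conj_zpow, hyk]
    exact zpow_mem (inv_mem (mem_zpowers k)) i)
  set H := zpowers k ⊔ zpowers y with hH
  have hHW : H ≤ normalizer (W : Set G) := sup_le (zpowers_le.mpr (hKW hkK))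
    (zpowers_le.mpr (normalizer_le_normalizer_wOf K (h.norm hy)))
  set N := W ⊔ H with hN
  have hHR : ∀ x ∈ H, x ∈ R → x = 1 := by
    intro x hx hxR
    rw [← SetLike.mem_coe, hH, coe_mul_of_right_le_normalizer_left _ _ hHK] at hx
    obtain ⟨a, ha, b, hb, rfl⟩ := hx
    obtain ⟨i, rfl⟩ := mem_zpowers_iff.mp ha
    have hk3' : ∀ i : ℤ, k ^ i ∈ T → k ^ i = 1 := by
      intro i hi
      have hi3 : k ^ (3 : ℤ) = 1 := by rw [zpow_ofNat]; exact hk3
      rcases (show i % 3 = 0 ∨ i % 3 = 1 ∨ i % 3 = 2 by omega) with e | e | e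
      · rw [← Int.mul_ediv_add_emod i 3, zpow_add, zpow_mul, hi3, one_zpow, one_mul, e, zpow_zero]
      · rw [← Int.mul_ediv_add_emod i 3, zpow_add, zpow_mul, hi3, one_zpow, one_mul, e, zpow_one] at hi
        exact absurd hi hkT
      · rw [← Int.mul_ediv_add_emod i 3, zpow_add, zpow_mul, hi3, one_zpow, one_mul, e, zpow_ofNat] at hi
        refine absurd ?_ hkT
        have h2 := inv_mem hi
        rwa [show (k ^ 2)⁻¹ = k by
          refine inv_eq_of_mul_eq_one_left ?_
          rw [← pow_succ']; exact hk3] at h2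
    rcases eq_of_mem_zpowers hyy hb with rfl | rfl
    · show k ^ i * 1 = 1
      replace hxR : k ^ i * 1 ∈ R := hxR
      rw [mul_one] at hxR ⊢
      exact hk3' i (hRT hxR)
    · exfalso
      have h1 := mul_mem (hRT hxR) (inv_mem hy)
      rw [mul_inv_cancel_right] at h1
      rw [hk3' i h1] at hxR
      exact hyR (by simpa using hxR)
  have hNR : N ⊓ R ≤ W := by
    rintro x ⟨hxN, hxR⟩
    replace hxN : x ∈ ((W ⊔ H : Subgroup G) : Set G) := hxN
    rw [coe_mul_of_right_le_normalizer_left _ _ hHW] at hxN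
    obtain ⟨w, hw, u, hu, rfl⟩ := hxN
    have huR : u ∈ R := by
      have := mul_mem (inv_mem (hWR hw)) hxR
      rwa [inv_mul_cancel_left] at this
    rw [hHR u hu huR]
    simpa using hw
  have hTL : T ≤ L := h.ovg.1.1
  have hNL : N ≤ L := sup_le (hWR.trans (hRT.trans hTL)) (sup_le (zpowers_le.mpr (hKL hkK)) (zpowers_le.mpr (hTL hy)))
  have hEL : E ≤ L := hER.trans (hRT.trans hTL)
  have hkN : k ∈ N := mem_sup_right (mem_sup_left (mem_zpowers k))
  have hyN : y ∈ N := mem_sup_right (mem_sup_right (mem_zpowers y))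
  -- `L` is generated by `N` and `C₀`
  have hRNE : R ≤ N ⊔ E := hRV.trans (sup_le le_sup_right (le_sup_left.trans le_sup_left))
  have hLNE : L ≤ N ⊔ E := by
    intro g hg
    set z₁ := k * z * k⁻¹ with hz₁
    have hz₁W : z₁ ∈ W := (mem_normalizer_iff.mp (hKW hkK) z).mp hzW
    have hz₁z : z ≠ z₁ := fun e => hz1 (hkfix z hzW e.symm)
    have hz₁1 : z₁ ≠ 1 := fun e => hz1 (conj_eq_one_iff.mp e)
    set z₂ := k * z₁ * k⁻¹ with hz₂
    have hz₂W : z₂ ∈ W := (mem_normalizer_iff.mp (hKW hkK) z₁).mp hz₁W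
    have hz₂3 : k * z₂ * k⁻¹ = z := by
      calc k * z₂ * k⁻¹ = k ^ 3 * z * (k ^ 3)⁻¹ := by rw [hz₂, hz₁, pow_three']; group
        _ = z := by rw [hk3]; group
    have hz₂e : z₂ = z * z₁ := by
      rcases four_cases h.comp.2.2.2.2.1.le hzW hz₁W hz1 hz₁1 hz₁z hzz hz₂W with e | e | e | e
      · exact absurd (conj_eq_one_iff.mp e) hz₁1
      · refine absurd (hkfix z hzW ?_) hz1
        calc k * z * k⁻¹ = k * z₂ * k⁻¹ := by rw [e]
          _ = z := hz₂3
      · exact absurd (hkfix z₁ hz₁W e) hz₁1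
      · exact e
    obtain ⟨n, hn, hnz⟩ : ∃ n ∈ N, n * g * z * (n * g)⁻¹ = z := by
      have hgz : g * z * g⁻¹ ∈ W := (mem_normalizer_iff.mp (hLW hg) z).mp hzW
      rcases four_cases h.comp.2.2.2.2.1.le hzW hz₁W hz1 hz₁1 hz₁z hzz hgz with e | e | e | e
      · exact absurd (conj_eq_one_iff.mp e) hz1
      · exact ⟨1, one_mem N, by simpa using e⟩
      · refine ⟨k * k, mul_mem hkN hkN, ?_⟩
        calc k * k * g * z * (k * k * g)⁻¹ = k * (k * (g * z * g⁻¹) * k⁻¹) * k⁻¹ := by group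
          _ = k * z₂ * k⁻¹ := by rw [e, hz₂]
          _ = z := hz₂3
      · refine ⟨k, hkN, ?_⟩
        calc k * g * z * (k * g)⁻¹ = k * (g * z * g⁻¹) * k⁻¹ := by group
          _ = z := by rw [e, ← hz₂e]; exact hz₂3
    set m := n * g with hm
    have hmL : m ∈ L := mul_mem (hNL hn) hg
    obtain ⟨u, hu, huy⟩ : ∃ u ∈ W, y * u * y⁻¹ ≠ u := by
      by_contra hh
      push Not at hh
      exact hyR ⟨hy, fun u hu => (mul_inv_eq_iff_eq_mul.mp (hh u hu)).symm⟩
    have huT : u ∈ T := hRT (hWR hu)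
    have huy' : y * u * y⁻¹ = z * u := (hzy u huT).resolve_left huy
    have hu1 : u ≠ 1 := fun e => huy (by rw [e]; group)
    have huz : z ≠ u := fun e => by
      refine huy ?_
      rw [← e]
      rcases hzy z (hRT (hWR hzW)) with e' | e'
      · exact e'
      · rw [hzz] at e'
        exact absurd (conj_eq_one_iff.mp e') hz1
    have hfixW : ∀ a : G, a * z * a⁻¹ = z → a * u * a⁻¹ = u → ∀ w ∈ W, w * a = a * w := by
      intro a ha1 ha2 w hw
      refine (mul_inv_eq_iff_eq_mul.mp ?_).symm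
      rcases four_cases h.comp.2.2.2.2.1.le hzW hu hz1 hu1 huz hzz hw with e | e | e | e <;> rw [e]
      · group
      · exact ha1
      · exact ha2
      · calc a * (z * u) * a⁻¹ = (a * z * a⁻¹) * (a * u * a⁻¹) := by group
          _ = _ := by rw [ha1, ha2]
    have hm' : ∃ n' ∈ N, n' * m ∈ R := by
      have hmu : m * u * m⁻¹ ∈ W := (mem_normalizer_iff.mp (hLW hmL) u).mp hu
      rcases four_cases h.comp.2.2.2.2.1.le hzW hu hz1 hu1 huz hzz hmu with e | e | e | e
      · exact absurd (conj_eq_one_iff.mp e) hu1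
      · exact absurd (mul_left_cancel (mul_right_cancel (e.trans hnz.symm))) huz.symm
      · exact ⟨1, one_mem N, by rw [one_mul]; exact hCW ⟨hmL, hfixW m hnz e⟩⟩
      · have hyz : y * z * y⁻¹ = z := by
          rcases hzy z (hRT (hWR hzW)) with e' | e'
          · exact e'
          · rw [hzz] at e'; exact absurd (conj_eq_one_iff.mp e') hz1
        refine ⟨y, hyN, hCW ⟨mul_mem (hTL hy) hmL, hfixW _ ?_ ?_⟩⟩
        · calc y * m * z * (y * m)⁻¹ = y * (m * z * m⁻¹) * y⁻¹ := by group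
            _ = z := by rw [hnz, hyz]
        · calc y * m * u * (y * m)⁻¹ = y * (m * u * m⁻¹) * y⁻¹ := by group
            _ = (y * z * y⁻¹) * (y * u * y⁻¹) := by rw [e]; group
            _ = u := by rw [hyz, huy', ← mul_assoc, hzz, one_mul]
    obtain ⟨n', hn', hr⟩ := hm'
    have := mul_mem (mul_mem (inv_mem (mem_sup_left hn : n ∈ N ⊔ E)) (inv_mem (mem_sup_left hn' : n' ∈ N ⊔ E)))
      (hRNE hr)
    rwa [show n⁻¹ * n'⁻¹ * (n' * m) = g by rw [hm]; group] at this
  -- the isomorphism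
  have hEc : E ≤ centralizer ((N : Subgroup G) : Set G) := by
    intro e he n hn
    have hle : N ≤ centralizer ({e} : Set G) := by
      refine sup_le (fun w hw => mem_centralizer_singleton_iff.mpr (hWc e (hER he) w hw)) (sup_le ?_ ?_) <;>
        rw [zpowers_le] <;> refine mem_centralizer_singleton_iff.mpr ?_
      · exact mem_centralizer_singleton_iff.mp (cZero_centralizer he (mem_sup_left hkK))
      · exact (mem_centralizer_iff.mp (h.cen hy) e he.1).symm
    exact mem_centralizer_singleton_iff.mp (hle hn)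
  have hNE : N ⊓ E = ⊥ := (eq_bot_iff_forall _).mpr fun x hx =>
    mem_bot.mp ((z0_split h.two h.comp).2.2.1.le ⟨hx.2, hNR ⟨hx.1, hER hx.2⟩⟩)
  let f : ↥N × ↥E →* ↥L :=
    { toFun := fun p => ⟨(p.1 : G) * p.2, mul_mem (hNL p.1.2) (hEL p.2.2)⟩
      map_one' := Subtype.ext (by simp)
      map_mul' := fun p q => Subtype.ext (by
        show (p.1 : G) * q.1 * ((p.2 : G) * q.2) = (p.1 : G) * p.2 * (q.1 * q.2)
        have hc : (q.1 : G) * p.2 = p.2 * q.1 := hEc p.2.2 _ q.1.2
        rw [mul_assoc (p.1 : G) q.1, ← mul_assoc (q.1 : G), hc]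
        group) }
  have hinj : Function.Injective f := by
    refine (injective_iff_map_eq_one f).mpr fun p hp => ?_
    have hp' : (p.1 : G) * p.2 = 1 := congrArg Subtype.val hp
    have h1 : (p.1 : G) ∈ N ⊓ E := ⟨p.1.2, by rw [eq_inv_of_mul_eq_one_left hp']; exact E.inv_mem p.2.2⟩
    rw [hNE, mem_bot] at h1
    rw [h1, one_mul] at hp'
    exact Prod.ext (Subtype.ext h1) (Subtype.ext hp')
  have hsurj : Function.Surjective f := fun x => by
    have hx : (x : G) ∈ ((N ⊔ E : Subgroup G) : Set G) := hLNE x.2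
    rw [coe_mul_of_right_le_normalizer_left _ _ (hEc.trans (centralizer_le_normalizer _))] at hx
    obtain ⟨a, ha, b, hb, hab⟩ := hx
    exact ⟨(⟨a, ha⟩, ⟨b, hb⟩), Subtype.ext hab⟩
  -- the order of `N`
  have hN24 : Nat.card ↥N = 24 := by
    have h1 : Nat.card ↥H = 6 := by
      have hy1 : y ≠ 1 := fun e => hyR (e ▸ one_mem _)
      have hk1 : k ≠ 1 := fun e => hkT (e ▸ one_mem _)
      haveI : Fact (Nat.Prime 3) := ⟨Nat.prime_three⟩
      have ok : Nat.card ↥(zpowers k) = 3 := by rw [Nat.card_zpowers]; exact orderOf_eq_prime hk3 hk1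
      have oy : Nat.card ↥(zpowers y) = 2 := by
        rw [Nat.card_zpowers]; exact orderOf_eq_prime (by rwa [pow_two]) hy1
      refine le_antisymm ?_ ?_
      · have hsub : ∀ x : ↥H, ∃ p : ↥(zpowers k) × ↥(zpowers y), (p.1 : G) * p.2 = x := fun x => by
          have hx : (x : G) ∈ ((zpowers k ⊔ zpowers y : Subgroup G) : Set G) := x.2
          rw [coe_mul_of_right_le_normalizer_left _ _ hHK] at hx
          obtain ⟨a, ha, b, hb, hab⟩ := hx
          exact ⟨(⟨a, ha⟩, ⟨b, hb⟩), hab⟩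
        choose f hf using hsub
        refine (Nat.card_le_card_of_injective f fun a b e => Subtype.ext (by rw [← hf a, ← hf b, e])).trans ?_
        rw [Nat.card_prod, ok, oy]
      · have h2 := H34.card_mul_card_le (zpowers k) (zpowers y)
        have hbot : zpowers k ⊓ zpowers y = ⊥ := (eq_bot_iff_forall _).mpr fun x hx => by
          rcases eq_of_mem_zpowers hyy hx.2 with e | e
          · exact e
          · exfalso
            obtain ⟨i, hi⟩ := mem_zpowers_iff.mp (e ▸ hx.1)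
            have h5 : k ^ i * y⁻¹ = 1 := by rw [hi, mul_inv_cancel]
            have h6 : (k ^ i) ^ 3 = 1 := by rw [← zpow_natCast, ← zpow_mul, mul_comm, zpow_mul, zpow_natCast, hk3, one_zpow]
            rw [hi] at h6
            exact hy1 (by rwa [pow_three, hyy, mul_one] at h6)
        rw [hbot, card_bot, mul_one, ok, oy] at h2
        exact h2
    refine le_antisymm ?_ ?_
    · have hsub : ∀ x : ↥N, ∃ p : ↥W × ↥H, (p.1 : G) * p.2 = x := fun x => by
        have hx : (x : G) ∈ ((W ⊔ H : Subgroup G) : Set G) := x.2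
        rw [coe_mul_of_right_le_normalizer_left _ _ hHW] at hx
        obtain ⟨a, ha, b, hb, hab⟩ := hx
        exact ⟨(⟨a, ha⟩, ⟨b, hb⟩), hab⟩
      choose f hf using hsub
      refine (Nat.card_le_card_of_injective f fun a b e => Subtype.ext (by rw [← hf a, ← hf b, e])).trans ?_
      rw [Nat.card_prod, h1, hW4]
    · have h2 := H34.card_mul_card_le W H
      have hbot : W ⊓ H = ⊥ := (eq_bot_iff_forall _).mpr fun x hx => hHR x hx.2 (hWR hx.1)
      rw [hbot, card_bot, mul_one, h1, hW4] at h2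
      exact h2
  haveI : (W.subgroupOf N).Normal := normal_subgroupOf_of_le_normalizer (hNL.trans hLW)
  obtain ⟨e⟩ := H91.Sims.nonempty_mulEquiv_perm_four hN24 (W.subgroupOf N)
    (by rw [Nat.card_congr (subgroupOfEquivOfLe (le_sup_left : W ≤ N)).toEquiv]; exact h.comp.2.2.2.2.1)
    (fun x hx => hNR ⟨x.2, hCW ⟨hNL x.2, fun w hw =>
      congrArg Subtype.val (hx ⟨w, mem_sup_left hw⟩ hw)⟩⟩)
  exact ⟨(MulEquiv.ofBijective f ⟨hinj, hsurj⟩).symm.trans (e.prodCongr (MulEquiv.refl _))⟩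

end Cfsg.Agent.H74.JB
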