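import Cfsg.Prelude.Def_Transfer
import Cfsg.Agent.H34.Conj
import Cfsg.Agent.H34.Thompson
import Cfsg.Agent.H74.Isolated
import Mathlib.Data.ZMod.Basic
import Mathlib.Algebra.Group.TypeTags.Finite

/-!
An inverted element of order three, acting without fixed points, moves at most a four-group.
-/

set_option autoImplicit false

namespace Cfsg.Agent.H74

open Subgroup Cfsg

/-- An elementary abelian two-group has at most as many maps to the group of order two as elements. -/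
theorem card_hom_two_le (F : Type*) [Group F] [Finite F] (hF : ∀ x : F, x ^ 2 = 1) :
    Nat.card (F →* Multiplicative (ZMod 2)) ≤ Nat.card F := by
  induction hn : Nat.card F using Nat.strong_induction_on generalizing F with
  | _ n ih =>
    subst hn
    haveI : Finite (F →* Multiplicative (ZMod 2)) := Finite.of_injective _ DFunLike.coe_injective
    by_cases h : ∀ φ : F →* Multiplicative (ZMod 2), φ = 1
    · haveI : Subsingleton (F →* Multiplicative (ZMod 2)) := ⟨fun a b => (h a).trans (h b).symm⟩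
      exact (Finite.card_le_one_iff_subsingleton.mpr inferInstance).trans Nat.card_pos
    push Not at h
    obtain ⟨φ, hφ⟩ := h
    obtain ⟨x, hx⟩ : ∃ x, φ x ≠ 1 := by
      by_contra hno
      push Not at hno
      exact hφ (MonoidHom.ext hno)
    have hrange : φ.range = ⊤ := by
      refine eq_top_iff.mpr fun z _ => ?_
      have h2 : ∀ u v : Multiplicative (ZMod 2), u ≠ 1 → v = 1 ∨ v = u := by decide
      rcases h2 (φ x) z hx with rfl | rfl
      · exact one_mem _
      · exact ⟨x, rfl⟩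
    have hindex : φ.ker.index = 2 := by
      rw [Subgroup.index_ker, hrange, Subgroup.card_top, Nat.card_eq_fintype_card]
      rfl
    have hcard := φ.ker.card_mul_index
    rw [hindex] at hcard
    have hpos : 0 < Nat.card φ.ker := Nat.card_pos
    haveI : Finite (φ.ker →* Multiplicative (ZMod 2)) := Finite.of_injective _ DFunLike.coe_injective
    have hinj : Function.Injective fun χ : F →* Multiplicative (ZMod 2) =>
        (χ.comp φ.ker.subtype, χ x) := by
      intro χ χ' he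
      obtain ⟨h1, h2⟩ := Prod.mk.inj he
      refine MonoidHom.ext fun y => ?_
      by_cases hy : y ∈ φ.ker
      · exact DFunLike.congr_fun h1 ⟨y, hy⟩
      · have hxk : x ∉ φ.ker := fun h' => hx h'
        have hyx : y * x ∈ φ.ker := (mul_mem_iff_of_index_two hindex).mpr (by simp [hy, hxk])
        have h3 : χ (y * x) = χ' (y * x) := DFunLike.congr_fun h1 ⟨y * x, hyx⟩
        rw [map_mul, map_mul, h2] at h3
        exact mul_right_cancel h3
    refine (Nat.card_le_card_of_injective _ hinj).trans ?_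
    rw [Nat.card_prod, show Nat.card (Multiplicative (ZMod 2)) = 2 from Nat.card_eq_fintype_card.trans rfl]
    have := ih (Nat.card φ.ker) (by omega) φ.ker (fun y => Subtype.ext (hF y)) rfl
    omega

variable {G : Type*} [Group G] [Finite G]

/-- An abelian group of automorphisms of an elementary abelian two-group with one fixed involution. -/
theorem card_le_half {F E : Subgroup G} (hF : IsElementaryAbelian 2 F) (hE : E ≤ normalizer (F : Set G))
    (hEc : ∀ e ∈ E, ∀ e' ∈ E, e * e' = e' * e) (hfix : Nat.card ↥(F ⊓ centralizer (E : Set G)) = 2)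
    (h2E : IsPGroup 2 E) :
    2 * Nat.card E ≤ Nat.card F * Nat.card ↥(E ⊓ centralizer (F : Set G)) := by
  haveI := hF.1
  set P := F ⊓ centralizer (E : Set G) with hP
  obtain ⟨w0, hw0P, hw0⟩ : ∃ w ∈ P, w ≠ 1 := by
    by_contra hno
    push Not at hno
    rw [(eq_bot_iff_forall P).mpr hno, card_bot] at hfix
    omega
  have hP2 : ∀ y ∈ P, y = 1 ∨ y = w0 := by
    intro y hy
    have h1 : zpowers w0 = P := by
      refine eq_of_le_of_card_ge (zpowers_le.mpr hw0P) (le_of_eq ?_)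
      rw [hfix, Nat.card_zpowers, orderOf_eq_prime (hF.2 w0 hw0P.1) hw0]
    rw [← h1] at hy
    obtain ⟨i, rfl⟩ := mem_zpowers_iff.mp hy
    have hsq : w0 ^ (2 : ℤ) = 1 := by rw [zpow_ofNat]; exact hF.2 w0 hw0P.1
    obtain ⟨j, rfl | rfl⟩ := Int.even_or_odd' i
    · left; rw [zpow_mul, hsq, one_zpow]
    · right; rw [zpow_add, zpow_mul, hsq, one_zpow, one_mul, zpow_one]
  -- a complement of the fixed involution
  obtain ⟨H, ⟨hHF, hHw⟩, hHmax⟩ := Set.Finite.exists_maximalFor (fun H : Subgroup G => Nat.card H)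
    {H : Subgroup G | H ≤ F ∧ w0 ∉ H} (Set.toFinite _) ⟨⊥, bot_le, by simpa using hw0⟩
  have hcov : ∀ x ∈ F, x ∈ H ∨ x * w0 ∈ H := by
    intro x hx
    by_contra hno
    push Not at hno
    have hle : zpowers x ≤ normalizer (H : Set G) :=
      (zpowers_le.mpr hx).trans ((Subgroup.le_centralizer F).trans
        ((centralizer_le hHF).trans (centralizer_le_normalizer _)))
    have hnot : w0 ∉ H ⊔ zpowers x := by
      rw [← SetLike.mem_coe, coe_mul_of_right_le_normalizer_left _ _ hle]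
      rintro ⟨h, hh, z, hz, he⟩
      obtain ⟨i, rfl⟩ := mem_zpowers_iff.mp hz
      have hsq : x ^ (2 : ℤ) = 1 := by rw [zpow_ofNat]; exact hF.2 x hx
      have he' : h * x ^ i = w0 := he
      obtain ⟨j, rfl | rfl⟩ := Int.even_or_odd' i
      · rw [zpow_mul, hsq, one_zpow, mul_one] at he'
        exact hHw (he' ▸ hh)
      · rw [zpow_add, zpow_mul, hsq, one_zpow, one_mul, zpow_one] at he'
        refine hno.2 ?_
        rw [setLike_mul_comm (s := F) hx hw0P.1, ← he', mul_assoc, ← pow_two, hF.2 x hx, mul_one]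
        exact hh
    have hsup : H ⊔ zpowers x ≤ F := sup_le hHF (zpowers_le.mpr hx)
    have heq : H = H ⊔ zpowers x := eq_of_le_of_card_ge le_sup_left
      (hHmax ⟨hsup, hnot⟩ (card_le_of_le le_sup_left))
    exact hno.1 (heq ▸ mem_sup_right (mem_zpowers x))
  have hHlt : 2 * Nat.card H ≤ Nat.card F := by
    have hne : H.relIndex F ≠ 1 := fun h1 => hHw (relIndex_eq_one.mp h1 hw0P.1)
    have h2 := (H.subgroupOf F).card_mul_index
    rw [Nat.card_congr (subgroupOfEquivOfLe hHF).toEquiv] at h2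
    have : 0 < H.relIndex F := Nat.pos_of_ne_zero (fun h => by
      rw [relIndex] at h; rw [h] at h2; have := Nat.card_pos (α := F); omega)
    rw [← h2, mul_comm 2]
    exact Nat.mul_le_mul_left _ (by rw [relIndex] at this hne; omega)
  classical
  -- the functional and its translates
  have hφmul : ∀ x ∈ F, ∀ y ∈ F, (x * y ∈ H ↔ (x ∈ H ↔ y ∈ H)) := by
    intro x hx y hy
    constructor
    · intro hxy
      exact ⟨fun h => by simpa using mul_mem (inv_mem h) hxy, fun h => by simpa using mul_mem hxy (inv_mem h)⟩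
    · intro hiff
      by_cases hxH : x ∈ H
      · exact mul_mem hxH (hiff.mp hxH)
      · have h1 := (hcov x hx).resolve_left hxH
        have h2 := (hcov y hy).resolve_left (fun h => hxH (hiff.mpr h))
        have := mul_mem h1 h2
        rwa [mul_assoc, ← mul_assoc w0 y, setLike_mul_comm (s := F) hw0P.1 hy, mul_assoc y w0, ← pow_two,
          hF.2 w0 hw0P.1, mul_one] at this
  let φ : ↥F →* Multiplicative (ZMod 2) :=
    MonoidHom.mk' (fun x => if (x : G) ∈ H then 1 else Multiplicative.ofAdd 1) fun x y => by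
      simp only [Subgroup.coe_mul, hφmul _ x.2 _ y.2]
      by_cases hx : (x : G) ∈ H <;> by_cases hy : (y : G) ∈ H <;> simp [hx, hy] <;> decide
  have hφ : ∀ x y : ↥F, φ x = φ y → ((x : G) ∈ H ↔ (y : G) ∈ H) := by
    intro x y h
    simp only [φ, MonoidHom.mk'_apply] at h
    by_cases hx : (x : G) ∈ H <;> by_cases hy : (y : G) ∈ H <;> simp [hx, hy] at h ⊢ <;>
      exact absurd h (by decide)
  have hconj : ∀ e ∈ E, ∀ x : ↥F, e * (x : G) * e⁻¹ ∈ F := fun e he x =>
    (mem_normalizer_iff.mp (hE he) _).mp x.2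
  let ψ : ↥E → (↥H →* Multiplicative (ZMod 2)) := fun e =>
    φ.comp (MonoidHom.mk' (fun x : ↥H => (⟨(e : G) * x * (e : G)⁻¹, hconj e e.2 ⟨x, hHF x.2⟩⟩ : ↥F)) fun x y =>
      Subtype.ext (by simp [mul_assoc]))
  have hfix0 : ∀ e ∈ E, e * w0 * e⁻¹ = w0 := fun e he => by
    rw [hw0P.2 e he, mul_inv_cancel_right]
  have hfull : ∀ e e' : ↥E, ψ e = ψ e' → ∀ x ∈ F,
      ((e : G) * x * (e : G)⁻¹ ∈ H ↔ (e' : G) * x * (e' : G)⁻¹ ∈ H) := by
    intro e e' he x hx
    have key : ∀ y ∈ H, ((e : G) * y * (e : G)⁻¹ ∈ H ↔ (e' : G) * y * (e' : G)⁻¹ ∈ H) := fun y hy =>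
      hφ ⟨_, hconj e e.2 ⟨y, hHF hy⟩⟩ ⟨_, hconj e' e'.2 ⟨y, hHF hy⟩⟩ (DFunLike.congr_fun he ⟨y, hy⟩)
    rcases hcov x hx with h | h
    · exact key x h
    · have h3 := key _ h
      have e1 : ∀ d ∈ E, d * (x * w0) * d⁻¹ = d * x * d⁻¹ * w0 := fun d hd => by
        calc d * (x * w0) * d⁻¹ = d * x * d⁻¹ * (d * w0 * d⁻¹) := by group
          _ = _ := by rw [hfix0 d hd]
      rw [e1 e e.2, e1 e' e'.2, hφmul _ (hconj e e.2 ⟨x, hx⟩) _ hw0P.1,
        hφmul _ (hconj e' e'.2 ⟨x, hx⟩) _ hw0P.1] at h3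
      tauto
  have hker : ∀ e e' : ↥E, ψ e = ψ e' → (e : G)⁻¹ * e' ∈ centralizer (F : Set G) := by
    intro e e' he
    set d := (e : G)⁻¹ * e' with hd
    have hdE : d ∈ E := mul_mem (inv_mem e.2) e'.2
    -- the largest invariant subgroup inside the complement is trivial
    let Sg : Subgroup G := (⨅ g : ↥E, H.comap (MulAut.conj (g : G)).toMonoidHom) ⊓ F
    have hSbot : Sg = ⊥ := by
      by_contra hne
      have hSn : E ≤ normalizer (Sg : Set G) := by
        intro g hg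
        refine mem_normalizer_of_conj_mem fun s hs => ?_
        refine ⟨mem_iInf.mpr fun g' => ?_, (mem_normalizer_iff.mp (hE hg) _).mp hs.2⟩
        have h1 := mem_iInf.mp hs.1 ⟨g' * g, mul_mem g'.2 hg⟩
        simpa [mul_assoc] using h1
      have h2S : IsPGroup 2 Sg := (H34.IsPGroup_of_isElementaryAbelian hF).to_le inf_le_right
      haveI : Fact (Nat.Prime 2) := ⟨Nat.prime_two⟩
      obtain ⟨s, hs, hs1⟩ : ∃ s ∈ Sg ⊓ centralizer (E : Set G), s ≠ 1 := by
        let act : MulAction ↥E ↥Sg :=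
          { smul := fun g s => ⟨(g : G) * s * (g : G)⁻¹, (mem_normalizer_iff.mp (hSn g.2) _).mp s.2⟩
            one_smul := fun s => Subtype.ext (by show (1 : G) * s * (1 : G)⁻¹ = s; group)
            mul_smul := fun g g' s => Subtype.ext (by
              show ((g : G) * g') * s * ((g : G) * g')⁻¹ = (g : G) * ((g' : G) * s * (g' : G)⁻¹) * (g : G)⁻¹
              group) }
        letI := act
        have hdvd : 2 ∣ Nat.card ↥Sg := by
          haveI := Subgroup.nontrivial_iff_ne_bot Sg |>.mpr hne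
          exact h2S.card_eq_or_dvd.resolve_left Finite.one_lt_card.ne'
        have hone : (1 : ↥Sg) ∈ MulAction.fixedPoints ↥E ↥Sg := fun g => Subtype.ext (by
          show (g : G) * 1 * (g : G)⁻¹ = 1; group)
        obtain ⟨s, hs, hs1⟩ := h2E.exists_fixed_point_of_prime_dvd_card_of_fixed_point ↥Sg hdvd hone
        refine ⟨s, ⟨s.2, fun g hg => ?_⟩, fun h => hs1 (Subtype.ext h.symm)⟩
        exact mul_inv_eq_iff_eq_mul.mp (congrArg Subtype.val (hs ⟨g, hg⟩))
      have h1 := mem_iInf.mp hs.1.1 1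
      rcases hP2 s ⟨hs.1.2, hs.2⟩ with h | h
      · exact hs1 h
      · exact hHw (by simpa [h] using h1)
    intro x hx
    have hdx : d * x * d⁻¹ ∈ F := (mem_normalizer_iff.mp (hE hdE) _).mp hx
    have hS : d * x * d⁻¹ * x⁻¹ ∈ Sg := by
      refine ⟨mem_iInf.mpr fun g => ?_, (mul_mem hdx (inv_mem hx) : d * x * d⁻¹ * x⁻¹ ∈ F)⟩
      show (g : G) * (d * x * d⁻¹ * x⁻¹) * (g : G)⁻¹ ∈ H
      have hxg : ∀ (u : G), u ∈ F → (g : G) * u * (g : G)⁻¹ ∈ F := fun u hu => hconj g g.2 ⟨u, hu⟩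
      have hgd : (g : G) * d = e'.1 * ((e : G)⁻¹ * g) := by
        rw [hd, ← mul_assoc, hEc _ (mul_mem g.2 (inv_mem e.2)) (e' : G) e'.2, hEc _ g.2 _ (inv_mem e.2)]
      have h3 : ((g : G) * x * (g : G)⁻¹ ∈ H ↔ (g : G) * (d * x * d⁻¹) * (g : G)⁻¹ ∈ H) := by
        have hy : (e : G)⁻¹ * g * x * ((e : G)⁻¹ * g)⁻¹ ∈ F :=
          hconj _ (mul_mem (inv_mem e.2) g.2) ⟨x, hx⟩
        have := hfull e e' he _ hy
        convert this using 2
        · group
        · calc (g : G) * (d * x * d⁻¹) * (g : G)⁻¹ = ((g : G) * d) * x * ((g : G) * d)⁻¹ := by group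
            _ = _ := by rw [hgd]; group
      have e2 : (g : G) * (d * x * d⁻¹ * x⁻¹) * (g : G)⁻¹ =
          ((g : G) * (d * x * d⁻¹) * (g : G)⁻¹) * ((g : G) * x * (g : G)⁻¹)⁻¹ := by group
      rw [e2, hφmul _ (hxg _ hdx) _ (inv_mem (hxg _ hx)), inv_mem_iff]
      exact h3.symm
    rw [hSbot, mem_bot, mul_inv_eq_one, mul_inv_eq_iff_eq_mul] at hS
    exact hS.symm
  -- counting
  set K := (E ⊓ centralizer (F : Set G)).subgroupOf E with hK
  haveI : Finite (↥H →* Multiplicative (ZMod 2)) := Finite.of_injective _ DFunLike.coe_injective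
  have hidx : K.index ≤ Nat.card H := by
    refine le_trans ?_ (card_hom_two_le ↥H fun x => Subtype.ext (hF.2 x (hHF x.2)))
    refine Nat.card_le_card_of_injective (fun q : ↥E ⧸ K => ψ q.out) fun q q' h => ?_
    have hm : q.out⁻¹ * q'.out ∈ K :=
      mem_subgroupOf.mpr ⟨(mul_mem (inv_mem q.out.2) q'.out.2 : (q.out : G)⁻¹ * q'.out ∈ E), hker _ _ h⟩
    have h1 := QuotientGroup.eq.mpr hm
    rwa [QuotientGroup.out_eq', QuotientGroup.out_eq'] at h1
  rw [← Nat.card_congr (subgroupOfEquivOfLe (inf_le_left : E ⊓ centralizer (F : Set G) ≤ E)).toEquiv,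
    ← hK, ← K.card_mul_index]
  calc 2 * (Nat.card K * K.index) = Nat.card K * (2 * K.index) := by ring
    _ ≤ Nat.card K * Nat.card F := Nat.mul_le_mul_left _ ((Nat.mul_le_mul_left 2 hidx).trans hHlt)
    _ = _ := mul_comm _ _

omit [Finite G] in
/-- Products of fixed points with their translates are distinct. -/
theorem fixed_prod_inj {W : Subgroup G} {k a : G} (hk3 : k ^ 3 = 1) (hak : a * k * a⁻¹ = k⁻¹)
    (hfpf : ∀ w ∈ W, k * w = w * k → w = 1) {x x' y y' : G}
    (hx : x ∈ centralizer ({a} : Set G)) (hx' : x' ∈ centralizer ({a} : Set G))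
    (hy : y ∈ W ⊓ centralizer ({a} : Set G)) (hy' : y' ∈ W ⊓ centralizer ({a} : Set G))
    (h : x * (k * y * k⁻¹) = x' * (k * y' * k⁻¹)) : x = x' ∧ y = y' := by
  have hC : ∀ w ∈ centralizer ({a} : Set G), a * w * a⁻¹ = w := fun w hw => by
    rw [← mem_centralizer_singleton_iff.mp hw, mul_inv_cancel_right]
  set z := y' * y⁻¹ with hz
  have hzY : z ∈ W ⊓ centralizer ({a} : Set G) := mul_mem hy' (inv_mem hy)
  have h2 : x'⁻¹ * x = k * z * k⁻¹ := by
    calc x'⁻¹ * x = x'⁻¹ * (x * (k * y * k⁻¹)) * (k * y * k⁻¹)⁻¹ := by group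
      _ = _ := by rw [h, hz]; group
  have h3 : a * (k * z * k⁻¹) * a⁻¹ = k * z * k⁻¹ := h2 ▸ hC _ (mul_mem (inv_mem hx') hx)
  have h4 : a * (k * z * k⁻¹) * a⁻¹ = k⁻¹ * z * k := by
    calc a * (k * z * k⁻¹) * a⁻¹ = (a * k * a⁻¹) * (a * z * a⁻¹) * (a * k * a⁻¹)⁻¹ := by group
      _ = _ := by rw [hak, hC z hzY.2, inv_inv]
  have hk2 : k * k = k⁻¹ := eq_inv_of_mul_eq_one_left (by rw [← hk3, pow_three'])
  have hc : Commute k⁻¹ z := by
    show k⁻¹ * z = z * k⁻¹
    rw [← hk2]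
    calc k * k * z = k * (k * z * k⁻¹) * k := by group
      _ = k * (k⁻¹ * z * k) * k := by rw [h3.symm.trans h4]
      _ = z * (k * k) := by group
  have hyy : y' = y := mul_inv_eq_one.mp (hfpf z hzY.1 (Commute.inv_left_iff.mp hc).eq)
  rw [hyy] at h
  exact ⟨mul_right_cancel h, hyy.symm⟩

/-- If an involution of a maximal elementary abelian subgroup `D` inverts a fixed-point-free element of order
three on `W`, and `D` essentially commutes with it, then `W` has order at most four. -/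
theorem four_bound {W D : Subgroup G} {k a : G} (hW : IsElementaryAbelian 2 W)
    (hD : D ∈ maxElementaryAbelianSubgroups 2 G) (ha : a ∈ D)
    (hkW : k ∈ normalizer (W : Set G)) (hk3 : k ^ 3 = 1) (hak : a * k * a⁻¹ = k⁻¹)
    (hfpf : ∀ w ∈ W, k * w = w * k → w = 1) (hDW : D ≤ normalizer (W : Set G))
    (hD2 : ∀ d ∈ D, (∀ w ∈ W, d * (k * w * k⁻¹) * d⁻¹ = k * (d * w * d⁻¹) * k⁻¹) ∨
      (∀ w ∈ W, (d * a) * (k * w * k⁻¹) * (d * a)⁻¹ = k * ((d * a) * w * (d * a)⁻¹) * k⁻¹)) :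
    Nat.card W ≤ 4 := by
  haveI := hW.1
  haveI := hD.1.1
  set Ca := centralizer ({a} : Set G) with hCa
  have haW := hDW ha
  have haa : a * a = 1 := by rw [← pow_two]; exact hD.1.2 a ha
  have hmemCa : ∀ w, a * w * a⁻¹ = w → w ∈ Ca := fun w h =>
    mem_centralizer_singleton_iff.mpr (mul_inv_eq_iff_eq_mul.mp h).symm
  have hCaeq : ∀ w ∈ Ca, a * w * a⁻¹ = w := fun w hw => by
    rw [← mem_centralizer_singleton_iff.mp hw, mul_inv_cancel_right]
  -- invariant subgroups have square order of their fixed points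
  have sq : ∀ Y : Subgroup G, Y ≤ W → (∀ y ∈ Y, k * y * k⁻¹ ∈ Y) → (∀ y ∈ Y, a * y * a⁻¹ ∈ Y) →
      Nat.card ↥(Y ⊓ Ca) ^ 2 ≤ Nat.card Y ∧ Nat.card Y ≤ Nat.card ↥(Y ⊓ Ca) ^ 2 := by
    intro Y hYW hkY haY
    constructor
    · rw [pow_two, ← Nat.card_prod]
      refine Nat.card_le_card_of_injective
        (fun p : ↥(Y ⊓ Ca) × ↥(Y ⊓ Ca) => (⟨(p.1 : G) * (k * (p.2 : G) * k⁻¹),
          mul_mem p.1.2.1 (hkY _ p.2.2.1)⟩ : ↥Y)) ?_
      intro p q hpq
      obtain ⟨h1, h2⟩ := fixed_prod_inj hk3 hak hfpf p.1.2.2 q.1.2.2 ⟨hYW p.2.2.1, p.2.2.2⟩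
        ⟨hYW q.2.2.1, q.2.2.2⟩ (congrArg Subtype.val hpq)
      exact Prod.ext (Subtype.ext h1) (Subtype.ext h2)
    · let ψ : ↥Y →* ↥Y := MonoidHom.mk'
        (fun w => (⟨(w : G) * (a * (w : G) * a⁻¹), mul_mem w.2 (haY _ w.2)⟩ : ↥Y)) fun u v => Subtype.ext (by
          simp only [Subgroup.coe_mul]
          rw [show a * ((u : G) * v) * a⁻¹ = (a * u * a⁻¹) * (a * v * a⁻¹) by group]
          calc (u : G) * v * (a * u * a⁻¹ * (a * v * a⁻¹)) = u * ((v : G) * (a * u * a⁻¹)) * (a * v * a⁻¹) := by group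
            _ = _ := by rw [setLike_mul_comm (s := W) (hYW v.2) (hYW (haY _ u.2))]; group)
      have hsub : ∀ f : Subgroup ↥Y, (∀ x ∈ f, (x : G) ∈ Ca) → Nat.card f ≤ Nat.card ↥(Y ⊓ Ca) := fun f hf =>
        Nat.card_le_card_of_injective (fun x => (⟨(x.1 : G), x.1.2, hf x.1 x.2⟩ : ↥(Y ⊓ Ca)))
          fun x y h => Subtype.ext (Subtype.ext (congrArg (fun t : ↥(Y ⊓ Ca) => (t : G)) h))
      rw [← ψ.ker.card_mul_index, Subgroup.index_ker, pow_two]
      refine Nat.mul_le_mul (hsub _ fun x hx => hmemCa _ ?_) (hsub _ ?_)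
      · have h1 : (x : G) * (a * (x : G) * a⁻¹) = 1 := congrArg Subtype.val (MonoidHom.mem_ker.mp hx)
        have h2 : (x : G) * x = 1 := by rw [← pow_two]; exact hW.2 _ (hYW x.2)
        exact mul_left_cancel (h1.trans h2.symm)
      · rintro _ ⟨w, rfl⟩
        refine hmemCa _ ?_
        show a * ((w : G) * (a * (w : G) * a⁻¹)) * a⁻¹ = (w : G) * (a * (w : G) * a⁻¹)
        calc a * ((w : G) * (a * (w : G) * a⁻¹)) * a⁻¹
            = (a * (w : G) * a⁻¹) * ((a * a) * (w : G) * (a * a)⁻¹) := by group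
          _ = _ := by rw [haa, one_mul, inv_one, mul_one]; exact setLike_mul_comm (s := W) (hYW (haY _ w.2)) (hYW w.2)
  -- the part of `D` commuting with `k` on `W`
  let M2 : Subgroup G :=
    { carrier := {y | y ∈ normalizer (W : Set G) ∧ ∀ w ∈ W, y * (k * w * k⁻¹) * y⁻¹ = k * (y * w * y⁻¹) * k⁻¹}
      mul_mem' := by
        rintro x y ⟨hx, hx'⟩ ⟨hy, hy'⟩
        refine ⟨mul_mem hx hy, fun w hw => ?_⟩
        calc x * y * (k * w * k⁻¹) * (x * y)⁻¹ = x * (y * (k * w * k⁻¹) * y⁻¹) * x⁻¹ := by group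
          _ = x * (k * (y * w * y⁻¹) * k⁻¹) * x⁻¹ := by rw [hy' w hw]
          _ = k * (x * (y * w * y⁻¹) * x⁻¹) * k⁻¹ := hx' _ ((mem_normalizer_iff.mp hy w).mp hw)
          _ = _ := by group
      one_mem' := ⟨one_mem _, fun w _ => by group⟩
      inv_mem' := by
        rintro x ⟨hx, hx'⟩
        refine ⟨inv_mem hx, fun w hw => ?_⟩
        have := hx' _ ((mem_normalizer_iff.mp (inv_mem hx) w).mp hw)
        rw [show x * (x⁻¹ * w * x⁻¹⁻¹) * x⁻¹ = w by group] at this
        rw [← this]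
        group }
  set D2 := D ⊓ M2 with hD2def
  set F := W ⊓ Ca with hF
  have hFW : F ≤ W := inf_le_left
  have hsplit : ∀ d ∈ D, d ∈ D2 ∨ d * a ∈ D2 := fun d hd => (hD2 d hd).imp (fun h => ⟨hd, hDW hd, h⟩)
    (fun h => ⟨mul_mem hd ha, mul_mem (hDW hd) haW, h⟩)
  have hidx : Nat.card D ≤ 2 * Nat.card D2 := by
    have hda : ∀ d ∈ D, d * a * a = d := fun d _ => by rw [mul_assoc, haa, mul_one]
    classical
    rw [mul_comm, ← show Nat.card Bool = 2 by simp, ← Nat.card_prod]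
    refine Nat.card_le_card_of_injective (fun d : ↥D => if h : (d : G) ∈ D2 then ((⟨d, h⟩ : ↥D2), true)
      else ((⟨(d : G) * a, (hsplit d d.2).resolve_left h⟩ : ↥D2), false)) fun d d' h => ?_
    simp only at h
    split_ifs at h with h1 h1
    · exact Subtype.ext (congrArg (fun p : ↥D2 × Bool => (p.1 : G)) h)
    · simp at h
    · simp at h
    · exact Subtype.ext (mul_right_cancel (congrArg (fun p : ↥D2 × Bool => (p.1 : G)) h))
  set Y := W ⊓ centralizer (D2 : Set G) with hY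
  have hkY : ∀ y ∈ Y, k * y * k⁻¹ ∈ Y := fun y hy => ⟨(mem_normalizer_iff.mp hkW y).mp hy.1, fun d hd => by
    refine mul_inv_eq_iff_eq_mul.mp ((hd.2.2 y hy.1).trans ?_)
    rw [hy.2 d hd, mul_inv_cancel_right]⟩
  have haY : ∀ y ∈ Y, a * y * a⁻¹ ∈ Y := fun y hy => ⟨(mem_normalizer_iff.mp haW y).mp hy.1, fun d hd => by
    have hda : d * a = a * d := setLike_mul_comm (s := D) hd.1 ha
    calc d * (a * y * a⁻¹) = a * (d * y) * a⁻¹ := by rw [← mul_assoc, ← mul_assoc, hda]; group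
      _ = a * y * (d * a⁻¹) := by rw [hy.2 d hd]; group
      _ = _ := by rw [setLike_mul_comm (s := D) hd.1 (inv_mem ha), ← mul_assoc]⟩
  have hYe : IsElementaryAbelian 2 Y := H34.isElementaryAbelian_mono hW inf_le_left
  have hD2e : IsElementaryAbelian 2 D2 := H34.isElementaryAbelian_mono hD.1 inf_le_left
  have hf0 : Nat.card ↥(Y ⊓ Ca) ≤ 2 := by
    have h1 := H34.isElementaryAbelian_sup hD2e hYe (le_centralizer_iff.mp inf_le_right)
    have h2 := H34.card_mul_card_le D2 Y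
    have h3 := hD.2 _ h1
    have h4 : Nat.card ↥(D2 ⊓ Y) ≤ Nat.card ↥(Y ⊓ Ca) := by
      refine card_le_of_le (le_inf inf_le_right fun y hy => mem_centralizer_singleton_iff.mpr ?_)
      exact setLike_mul_comm (s := D) hy.1.1 ha
    have h5 := (sq Y inf_le_left hkY haY).1
    have h6 : Nat.card D2 * Nat.card Y ≤ Nat.card D2 * (2 * Nat.card ↥(Y ⊓ Ca)) :=
      h2.trans ((Nat.mul_le_mul (h3.trans hidx) h4).trans (le_of_eq (by ring)))
    have h7 := h5.trans (Nat.le_of_mul_le_mul_left h6 Nat.card_pos)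
    rw [pow_two] at h7
    exact Nat.le_of_mul_le_mul_right h7 Nat.card_pos
  have hfixF : F ⊓ centralizer (D2 : Set G) = Y ⊓ Ca := inf_right_comm _ _ _
  have hWsq := sq W le_rfl (fun y hy => (mem_normalizer_iff.mp hkW y).mp hy)
    (fun y hy => (mem_normalizer_iff.mp haW y).mp hy)
  suffices hF2 : Nat.card F ≤ 2 by nlinarith [hWsq.2]
  by_contra hlt
  push Not at hlt
  have hFe : IsElementaryAbelian 2 F := H34.isElementaryAbelian_mono hW inf_le_left
  have hD2F : D2 ≤ normalizer (F : Set G) := fun d hd => by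
    refine mem_normalizer_of_conj_mem fun w hw => ⟨(mem_normalizer_iff.mp (hDW hd.1) w).mp hw.1, hmemCa _ ?_⟩
    calc a * (d * w * d⁻¹) * a⁻¹ = (a * d) * w * (a * d)⁻¹ := by group
      _ = d * (a * w * a⁻¹) * d⁻¹ := by rw [setLike_mul_comm (s := D) ha hd.1]; group
      _ = _ := by rw [hCaeq w hw.2]
  have hfix2 : Nat.card ↥(F ⊓ centralizer (D2 : Set G)) = 2 := by
    refine le_antisymm (hfixF ▸ hf0) ?_
    have hne : F ≠ ⊥ := fun h => by rw [h, card_bot] at hlt; omega
    haveI : Fact (Nat.Prime 2) := ⟨Nat.prime_two⟩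
    let act : MulAction ↥D2 ↥F :=
      { smul := fun g s => ⟨(g : G) * s * (g : G)⁻¹, (mem_normalizer_iff.mp (hD2F g.2) _).mp s.2⟩
        one_smul := fun s => Subtype.ext (by show (1 : G) * s * (1 : G)⁻¹ = s; group)
        mul_smul := fun g g' s => Subtype.ext (by
          show ((g : G) * g') * s * ((g : G) * g')⁻¹ = (g : G) * ((g' : G) * s * (g' : G)⁻¹) * (g : G)⁻¹
          group) }
    letI := act
    haveI := Subgroup.nontrivial_iff_ne_bot F |>.mpr hne
    have hone : (1 : ↥F) ∈ MulAction.fixedPoints ↥D2 ↥F := fun g => Subtype.ext (by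
      show (g : G) * 1 * (g : G)⁻¹ = 1; group)
    obtain ⟨s, hs, hs1⟩ := (H34.IsPGroup_of_isElementaryAbelian hD2e).exists_fixed_point_of_prime_dvd_card_of_fixed_point
      ↥F ((H34.IsPGroup_of_isElementaryAbelian hFe).card_eq_or_dvd.resolve_left Finite.one_lt_card.ne') hone
    have hsC : (s : G) ∈ F ⊓ centralizer (D2 : Set G) :=
      ⟨s.2, fun g hg => mul_inv_eq_iff_eq_mul.mp (congrArg Subtype.val (hs ⟨g, hg⟩))⟩
    by_contra h1
    have h2 : Nat.card ↥(F ⊓ centralizer (D2 : Set G)) = 1 := by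
      have := Nat.card_pos (α := ↥(F ⊓ centralizer (D2 : Set G)))
      omega
    have := Subgroup.card_eq_one.mp h2
    rw [this, mem_bot] at hsC
    exact hs1 (Subtype.ext hsC.symm)
  have hhalf := card_le_half hFe hD2F (fun e he e' he' => setLike_mul_comm (s := D) he.1 he'.1) hfix2
    (H34.IsPGroup_of_isElementaryAbelian hD2e)
  -- elements of `D2` fixing `F` fix `W`
  have hD1 : D2 ⊓ centralizer (F : Set G) ≤ D ⊓ centralizer (W : Set G) := by
    intro d hd
    refine ⟨hd.1.1, fun w hw => ?_⟩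
    have hbij : Function.Surjective (fun p : ↥F × ↥F => (⟨(p.1 : G) * (k * (p.2 : G) * k⁻¹),
        mul_mem (hFW p.1.2) ((mem_normalizer_iff.mp hkW _).mp (hFW p.2.2))⟩ : ↥W)) := by
      refine (Function.Injective.bijective_of_nat_card_le ?_ ?_).2
      · intro p q hpq
        obtain ⟨h1, h2⟩ := fixed_prod_inj hk3 hak hfpf p.1.2.2 q.1.2.2 p.2.2 q.2.2 (congrArg Subtype.val hpq)
        exact Prod.ext (Subtype.ext h1) (Subtype.ext h2)
      · rw [Nat.card_prod, ← pow_two]
        exact hWsq.2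
    obtain ⟨p, hp⟩ := hbij ⟨w, hw⟩
    have hp' : (p.1 : G) * (k * (p.2 : G) * k⁻¹) = w := congrArg Subtype.val hp
    have h1 : ∀ f ∈ F, d * f * d⁻¹ = f := fun f hf => by rw [← hd.2 f hf, mul_inv_cancel_right]
    refine (mul_inv_eq_iff_eq_mul.mp ?_).symm
    rw [← hp', show d * ((p.1 : G) * (k * (p.2 : G) * k⁻¹)) * d⁻¹ =
      (d * (p.1 : G) * d⁻¹) * (d * (k * (p.2 : G) * k⁻¹) * d⁻¹) by group, h1 _ p.1.2,
      hd.1.2.2 _ (hFW p.2.2), h1 _ p.2.2]
  set D1 := D ⊓ centralizer (W : Set G) with hD1def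
  have h1 := H34.card_mul_card_le D1 W
  have h2 := hD.2 _ (H34.isElementaryAbelian_sup (H34.isElementaryAbelian_mono hD.1 inf_le_left) hW inf_le_right)
  have h4 : Nat.card ↥(D1 ⊓ W) ≤ 2 := by
    refine le_trans (card_le_of_le (K := F ⊓ centralizer (D2 : Set G)) ?_) (hfixF ▸ hf0)
    intro x hx
    exact ⟨⟨hx.2, mem_centralizer_singleton_iff.mpr (setLike_mul_comm (s := D) hx.1.1 ha)⟩,
      fun g hg => setLike_mul_comm (s := D) hg.1 hx.1.1⟩
  have h3 := card_le_of_le hD1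
  have h5 := hWsq.1
  have hpos : 0 < Nat.card D1 := Nat.card_pos
  have h8 : Nat.card D1 * Nat.card W ≤ Nat.card D1 * (2 * Nat.card F) :=
    calc Nat.card D1 * Nat.card W ≤ Nat.card ↥(D1 ⊔ W) * Nat.card ↥(D1 ⊓ W) := h1
      _ ≤ (2 * Nat.card D2) * 2 := Nat.mul_le_mul (h2.trans hidx) h4
      _ ≤ (Nat.card F * Nat.card ↥(D2 ⊓ centralizer (F : Set G))) * 2 := Nat.mul_le_mul_right _ hhalf
      _ ≤ (Nat.card F * Nat.card D1) * 2 := Nat.mul_le_mul_right _ (Nat.mul_le_mul_left _ h3)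
      _ = _ := by ring
  have h9 : Nat.card W ≤ 2 * Nat.card F := Nat.le_of_mul_le_mul_left h8 hpos
  rw [pow_two] at h5
  have hle : Nat.card F ≤ 2 := Nat.le_of_mul_le_mul_right (h5.trans h9) Nat.card_pos
  omega

end Cfsg.Agent.H74
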