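import Cfsg.Agent.H74.JCore
import Cfsg.Agent.H74.FourBound

/-!
Existence and uniqueness of the components inside an overgroup.
-/

set_option autoImplicit false

namespace Cfsg.Agent.H74.JC

open Subgroup Cfsg
open scoped commutatorElement Pointwise

variable {Γ : Type*} [Group Γ] [Finite Γ] [h2 : Fact (Nat.Prime 2)]

set_option quotPrecheck false
local notation "gV" => H34.omegaZ 2 Γ
local notation "gC" => centralizer ((H34.omegaZ 2 Γ : Subgroup Γ) : Set Γ)
local notation "gM" => thompsonSubgroup 2 Γ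
local notation "gO" => pCore 2 Γ
local notation "cW" A:max => ⁅(H34.holV gV).range, H34.compOf 2 ((gM).map (H34.holHom gV)) A⁆
local notation "cD" A:max => ⁅H34.coreOf 2 ((gM).map (H34.holHom gV)), A⁆

omit [Finite Γ] h2 in
/-- An odd element of `KO`, with `O` a two-group normalizing `K`, lies in `K`. -/
theorem odd_mem_of_mem_sup {K O : Subgroup Γ} (hO : IsPGroup 2 O) (hN : O ≤ normalizer (K : Set Γ))
    {g : Γ} (hg : g ∈ K ⊔ O) (ho : Odd (orderOf g)) : g ∈ K := by
  rw [← SetLike.mem_coe, coe_mul_of_right_le_normalizer_left K O hN] at hg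
  obtain ⟨k, hk, o, hoO, he⟩ := hg
  have he' : k * o = g := he
  set X := normalizer (K : Set Γ)
  haveI : (K.subgroupOf X).Normal := normal_in_normalizer
  set φ := QuotientGroup.mk' (K.subgroupOf X)
  have hgX : g ∈ X := he' ▸ mul_mem (le_normalizer hk) (hN hoO)
  have h1 : φ ⟨g, hgX⟩ = φ ⟨o, hN hoO⟩ := by
    refine QuotientGroup.eq.mpr ?_
    rw [mem_subgroupOf]
    simp only [coe_mul, coe_inv, ← he']
    have h2' := (mem_normalizer_iff.mp (hN (inv_mem hoO)) k⁻¹).mp (inv_mem hk)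
    simpa [mul_assoc] using h2'
  obtain ⟨i, hi⟩ := hO ⟨o, hoO⟩
  have ho2 : o ^ 2 ^ i = 1 := by simpa using congrArg Subtype.val hi
  have h3 : φ ⟨o, hN hoO⟩ = 1 := by
    refine orderOf_eq_one_iff.mp (Nat.eq_one_of_dvd_coprimes (Nat.Coprime.pow_left i ho.coprime_two_left) ?_ ?_)
    · exact orderOf_dvd_of_pow_eq_one (by rw [← map_pow, ← map_one φ]; congr 1; exact Subtype.ext (by simpa using ho2))
    · rw [← h1]
      refine (orderOf_map_dvd φ _).trans (dvd_of_eq ?_)
      rw [Subgroup.orderOf_mk]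
  rw [← he']
  exact mul_mem hk (mem_subgroupOf.mp ((QuotientGroup.eq_one_iff _).mp h3))

variable {T : Sylow 2 Γ} (h : JHyp T)
include h

/-- The two-core normalizes each component. -/
theorem comp_o_normalizer {K : Subgroup Γ} (hK : IsComp T K) : gO ≤ normalizer (K : Set Γ) := by
  haveI : (gO).Normal := H19.pCore_normal 2 Γ
  obtain ⟨x, hx⟩ := hK.comm
  refine normalizes_odd_generated hK.gen hx ((x • T).isPGroup'.to_le (H34.thompsonSubgroupOf_le _)) ?_ ?_
  · exact le_normalizer_of_normal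
  · exact ((H19.pCore_le_sylow (x • T)).trans le_normalizer).trans (H34.normalizer_le_normalizer_thompson _)

omit h in
/-- Transvection groups with the same plane have the same odd part. -/
theorem core_eq (h : JHyp T) {A A' : Subgroup (H34.Hol gV)}
    (hA : H34.IsTransvectionGroup 2 (H34.holV gV).range ((gM).map (H34.holHom gV)) A)
    (hA' : H34.IsTransvectionGroup 2 (H34.holV gV).range ((gM).map (H34.holHom gV)) A')
    (hW : (cW A) = (cW A')) : (cD A) = (cD A') := by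
  have S := setup h
  have hE := (S.comp_eq_or_disjoint hA hA').1 hW
  have key : ∀ {B B'}, H34.IsTransvectionGroup 2 (H34.holV gV).range ((gM).map (H34.holHom gV)) B →
      H34.IsTransvectionGroup 2 (H34.holV gV).range ((gM).map (H34.holHom gV)) B' →
      H34.compOf 2 ((gM).map (H34.holHom gV)) B = H34.compOf 2 ((gM).map (H34.holHom gV)) B' →
      (cD B) ≤ (cD B') := by
    intro B B' hB hB' hE d hd
    refine ff_odd_mem S hB' (hE ▸ (mem_sup_left hd : d ∈ H34.compOf 2 ((gM).map (H34.holHom gV)) B))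
      (by decide : Odd 3) ?_
    have := pow_card_eq_one' (x := (⟨d, hd⟩ : ↥(cD B)))
    rw [(ff_card S hB).2.1] at this
    simpa using congrArg Subtype.val this
  exact le_antisymm (key hA hA' hE) (key hA' hA hE.symm)

omit h in
/-- Components are determined by their planes. -/
theorem comp_unique (h : JHyp T) {K K' : Subgroup Γ} (hK : IsComp T K) (hK' : IsComp T K')
    (hW : wOf K = wOf K') : K = K' := by
  suffices hle : ∀ {K K'}, IsComp T K → IsComp T K' → wOf K = wOf K' → K ≤ K' from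
    le_antisymm (hle hK hK' hW) (hle hK' hK hW.symm)
  intro K K' hK hK' hW
  obtain ⟨hKM, -, -, hwK, -, A, hA, hmap, hAW⟩ := comp_basic h hK
  obtain ⟨hKM', -, -, hwK', -, A', hA', hmap', hAW'⟩ := comp_basic h hK'
  have hWW : (cW A) = (cW A') := by rw [← hAW, ← hAW', ← hwK, ← hwK', hW]
  have S := setup h
  have hgen := gen h
  set f := H34.holHom gV with hf
  haveI : (gO).Normal := H19.pCore_normal 2 Γ
  obtain ⟨b, hbJ, B, hB, hbB, hb1, hWB⟩ := exists_transvection h 1 hA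
  have hbM : b ∈ gM := j_le_m (T := T) 1 hbJ
  set π := QuotientGroup.mk' gO with hπ
  have hinv : ∀ {K₀ : Subgroup Γ}, IsComp T K₀ → ∀ z ∈ K₀, f z ∈ (cD A) → π (b * z * b⁻¹) = (π z)⁻¹ := by
    intro K₀ hK₀ z hz hfz
    rw [← map_inv]
    refine QuotientGroup.eq.mpr ?_
    have hbz : b * z * b⁻¹ ∈ K₀ := (mem_normalizer_iff.mp (comp_normal h hK₀ hbM) z).mp hz
    refine comp_ker h hK₀ (mul_mem (inv_mem hbz) (inv_mem hz)) ?_
    rw [← H34.holHom_ker gV, MonoidHom.mem_ker, map_mul, map_inv, map_inv, map_mul, map_mul, map_inv,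
      ff_invert S hgen hA hB hWB hbB hb1 hfz, inv_inv, mul_inv_cancel]
  rw [← hK.gen, closure_le]
  rintro g ⟨hg, ho⟩
  obtain ⟨k', hk', hfk⟩ : f g ∈ K'.map f := by
    rw [hmap', ← core_eq h hA hA' hWW, ← hmap]
    exact ⟨g, hg, rfl⟩
  set c := g⁻¹ * k' with hc
  have hcC : c ∈ (gC : Subgroup Γ) := by
    rw [← H34.holHom_ker gV, MonoidHom.mem_ker, hc, map_mul, map_inv, hfk, inv_mul_cancel]
  have hfg : f g ∈ (cD A) := hmap ▸ ⟨g, hg, rfl⟩
  have h1 := hinv hK g hg hfg
  have h1' := hinv hK' k' hk' (hfk ▸ hfg)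
  have hcomm : ∀ y ∈ gM, π c * π y = π y * π c := fun y hy => central_mod h hcC hy
  have hc2 : π c * π c = 1 := by
    have e1 : π k' = π g * π c := by rw [← map_mul, hc, mul_inv_cancel_left]
    have e2 : π (b * k' * b⁻¹) = π (b * g * b⁻¹) * π c := by
      simp only [map_mul, map_inv, e1]
      calc π b * (π g * π c) * (π b)⁻¹ = π b * π g * (π c * (π b)⁻¹) := by group
        _ = π b * π g * ((π b)⁻¹ * π c) := by rw [(Commute.inv_right (hcomm b hbM : Commute (π c) (π b))).eq]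
        _ = _ := by group
    rw [h1', h1, e1, mul_inv_rev, ← (Commute.inv_inv (hcomm g (hKM hg) : Commute (π c) (π g))).symm.eq] at e2
    exact mul_eq_one_iff_eq_inv.mpr (mul_left_cancel e2).symm
  have hcO : c ∈ gO := mem_o_of_sq h hcC ((QuotientGroup.eq_one_iff _).mp (by
    show π (c ^ 2) = 1
    rw [map_pow, pow_two, hc2]))
  refine odd_mem_of_mem_sup (H19.pCore_isPGroup 2) (comp_o_normalizer h hK') ?_ ho
  have : g = k' * c⁻¹ := by rw [hc]; group
  rw [this]
  exact mul_mem (mem_sup_left hk') (mem_sup_right (inv_mem hcO))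

/-- Distinct components have disjoint planes. -/
theorem comp_inf {K K' : Subgroup Γ} (hK : IsComp T K) (hK' : IsComp T K') (hne : K ≠ K') :
    wOf K ⊓ wOf K' = ⊥ := by
  obtain ⟨-, -, -, hwK, -, A, hA, -, hAW⟩ := comp_basic h hK
  obtain ⟨-, -, -, hwK', -, A', hA', -, hAW'⟩ := comp_basic h hK'
  have S := setup h
  have hU : ∀ {L : Subgroup Γ}, ⁅gV, L⁆ ≤ gV := fun {L} => commutator_le_left gV L
  have hne' : (cW A) ≠ (cW A') := by
    intro he
    rw [← hAW, ← hAW'] at he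
    have he' := map_injective SemidirectProduct.inl_injective he
    refine hne (comp_unique h hK hK' ?_)
    rw [hwK, hwK']
    have h1 := congrArg (Subgroup.map (gV).subtype) he'
    rwa [subgroupOf_map_subtype, subgroupOf_map_subtype, inf_eq_left.mpr hU, inf_eq_left.mpr hU] at h1
  have h2' := (S.comp_eq_or_disjoint hA hA').2 hne'
  rw [eq_bot_iff, hwK, hwK']
  rintro x ⟨hx, hx'⟩
  have hxV : x ∈ gV := hU hx
  have : H34.holV gV ⟨x, hxV⟩ ∈ (cW A) ⊓ (cW A') :=
    ⟨hAW ▸ ⟨⟨x, hxV⟩, hx, rfl⟩, hAW' ▸ ⟨⟨x, hxV⟩, hx', rfl⟩⟩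
  rw [h2', mem_bot, ← map_one (H34.holV gV)] at this
  exact mem_bot.mpr (congrArg Subtype.val (SemidirectProduct.inl_injective this))

/-- Every transvection comes from a component. -/
theorem comp_exists {A : Subgroup (H34.Hol gV)}
    (hA : H34.IsTransvectionGroup 2 (H34.holV gV).range ((gM).map (H34.holHom gV)) A) :
    ∃ K, IsComp T K ∧ ⁅K, thompsonSubgroupOf 2 (T : Subgroup Γ)⁆ = K ∧ K.map (H34.holHom gV) = (cD A) := by
  set f := H34.holHom gV with hf
  set Hh := (gM).map f with hHh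
  have S := setup h
  have hgen := gen h
  set J := thompsonSubgroupOf 2 (T : Subgroup Γ) with hJ
  haveI : (gO).Normal := H19.pCore_normal 2 Γ
  obtain ⟨b₀, hb₀J, B₀, hB₀, hb₀B, hb₀1, hWB₀⟩ := exists_transvection h 1 hA
  rw [one_smul] at hb₀J
  obtain ⟨D, hDT, hD, a, haD, B, hB, hWB, haB, ha1⟩ : ∃ D, D ≤ (T : Subgroup Γ) ∧
      D ∈ maxElementaryAbelianSubgroups 2 Γ ∧ ∃ a ∈ D, ∃ B, H34.IsTransvectionGroup 2 (H34.holV gV).range Hh B ∧
        (cW A) = (cW B) ∧ f a ∈ B ∧ f a ≠ 1 := by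
    by_contra hno
    have hJc : J ≤ (centralizer ((cW A : Subgroup _) : Set _)).comap f := by
      rw [hJ, H34.thompsonSubgroupOf_sylow]
      refine sSup_le fun D hD => ?_
      rw [← map_le_iff_le_comap]
      have hDM : D ≤ gM := le_sSup hD.2
      refine (S.generated_by_transvections (map_mono hDM) (H34.hol_bestOffender (v_elem h) S hDM hD.2)).trans
        (sSup_le fun B hB => ?_)
      refine le_trans le_sup_right ((ff_cross S hgen hA hB.1 fun hWB => ?_).trans inf_le_right)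
      obtain ⟨z, hzB, hz1⟩ : ∃ z ∈ B, z ≠ 1 := by
        by_contra hh
        push Not at hh
        have := hB.1.2.1
        rw [(eq_bot_iff_forall B).mpr hh, card_bot] at this
        omega
      obtain ⟨a, ha, rfl⟩ := hB.2 hzB
      exact hno ⟨D, hD.1, hD.2, a, ha, B, hB.1, hWB, hzB, hz1⟩
    have hbc : f b₀ ∈ centralizer ((cW A : Subgroup _) : Set _) := hJc hb₀J
    have hbE : f b₀ ∈ H34.compOf 2 Hh A := (S.comp_eq_or_disjoint hA hB₀).1 hWB₀ ▸ mem_sup_right hb₀B
    have h1 : f b₀ ∈ H34.compOf 2 Hh A ⊓ centralizer ((cW A : Subgroup _) : Set _) := ⟨hbE, hbc⟩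
    rw [(S.compFacts hA).faithful] at h1
    exact hb₀1 (mem_bot.mp h1)
  have haM : a ∈ gM := (le_sSup hD : D ≤ gM) haD
  have haa : a * a = 1 := by rw [← pow_two]; exact hD.1.2 a haD
  have haJ : a ∈ J := by rw [hJ, H34.thompsonSubgroupOf_sylow]; exact (le_sSup (show D ∈ {B | B ≤ (T : Subgroup Γ) ∧ B ∈ maxElementaryAbelianSubgroups 2 Γ} from ⟨hDT, hD⟩) : D ≤ _) haD
  -- an element of order three inverted by `a`
  obtain ⟨d, hd, hd1⟩ : ∃ d ∈ (cD A), d ≠ 1 := by
    by_contra hh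
    push Not at hh
    have := (ff_card S hA).2.1
    rw [(eq_bot_iff_forall _).mpr hh, card_bot] at this
    omega
  have hd3 : d ^ 3 = 1 := by
    have := pow_card_eq_one' (x := (⟨d, hd⟩ : ↥(cD A)))
    rw [(ff_card S hA).2.1] at this
    simpa using congrArg Subtype.val this
  obtain ⟨y, hy, hfy⟩ : d ∈ Hh := (S.compFacts hA).le (mem_sup_left hd)
  set k₀ := a * y * a⁻¹ * y⁻¹ with hk₀
  have hak₀ : a * k₀ * a⁻¹ = k₀⁻¹ := by
    have hai : a⁻¹ = a := inv_eq_of_mul_eq_one_left haa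
    rw [hk₀]
    simp only [mul_inv_rev, inv_inv, hai]
    calc a * (a * y * a * y⁻¹) * a = (a * a) * (y * a * y⁻¹ * a) := by group
      _ = _ := by rw [haa, one_mul]; group
  have hfk₀ : f k₀ = d := by
    rw [hk₀, map_mul, map_mul, map_mul, map_inv, map_inv, hfy, ff_invert S hgen hA hB hWB haB ha1 hd,
      ← mul_inv_rev, ← pow_two, inv_eq_iff_mul_eq_one, ← pow_succ]
    exact hd3
  have hk₀M : k₀ ∈ gM := mul_mem (mul_mem (mul_mem haM hy) (inv_mem haM)) (inv_mem hy)
  set π := QuotientGroup.mk' gO with hπ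
  have hk₀3 : k₀ ^ 3 ∈ gO := by
    have hC : k₀ ^ 3 ∈ (gC : Subgroup Γ) := by
      rw [← H34.holHom_ker gV, MonoidHom.mem_ker, map_pow, hfk₀, hd3]
    refine mem_o_of_sq h hC ((QuotientGroup.eq_one_iff _).mp ?_)
    show π ((k₀ ^ 3) ^ 2) = 1
    have h1 := central_mod h hC haM
    have h2' : π a * π (k₀ ^ 3) * (π a)⁻¹ = (π (k₀ ^ 3))⁻¹ := by
      rw [← map_inv π a, ← map_mul, ← map_mul, ← conj_pow, hak₀, inv_pow, map_inv]
    rw [← h1, mul_inv_cancel_right] at h2'
    rw [map_pow, pow_two]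
    exact mul_eq_one_iff_eq_inv.mpr h2'
  obtain ⟨i, hi⟩ := H19.pCore_isPGroup (G := Γ) 2 ⟨_, hk₀3⟩
  have hi' : (k₀ ^ 3) ^ 2 ^ i = 1 := by simpa using congrArg Subtype.val hi
  set k := k₀ ^ 2 ^ i with hkdef
  have hk3 : k ^ 3 = 1 := by rw [hkdef, ← pow_mul, mul_comm, pow_mul]; exact hi'
  have hak : a * k * a⁻¹ = k⁻¹ := by rw [hkdef, ← conj_pow, hak₀, inv_pow]
  have hfkD : f k ∈ (cD A) := by rw [hkdef, map_pow, hfk₀]; exact pow_mem hd _
  have hk1 : f k ≠ 1 := by
    rw [hkdef, map_pow, hfk₀]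
    intro h'
    exact hd1 (orderOf_eq_one_iff.mp (Nat.eq_one_of_dvd_coprimes (Nat.Coprime.pow_left i (by decide : Nat.Coprime 2 3))
      (orderOf_dvd_of_pow_eq_one h') (orderOf_dvd_of_pow_eq_one hd3)))
  have hkM : k ∈ gM := pow_mem hk₀M _
  have hkne : k ≠ 1 := fun h' => hk1 (by rw [h', map_one])
  have hko : orderOf k = 3 := by
    haveI : Fact (Nat.Prime 3) := ⟨Nat.prime_three⟩
    exact orderOf_eq_prime hk3 hkne
  have hkodd : Odd (orderOf k) := hko ▸ (by decide)
  have hY := plane_normal h hA hB hWB hkM haM hfkD hk1 haB ha1 (by rw [hak, map_inv])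
  -- the subgroup generated by `k` and the two-core
  set X := zpowers k ⊔ gO with hX
  have hπX : ∀ g, g ∈ X ↔ π g ∈ zpowers (π k) := by
    intro g
    rw [← MonoidHom.map_zpowers]
    change g ∈ X ↔ g ∈ ((zpowers k).map π).comap π
    rw [comap_map_eq, hπ, QuotientGroup.ker_mk']
  have hXN : gM ≤ normalizer (X : Set Γ) := fun u hu => mem_normalizer_of_conj_mem fun g hg => by
    rw [hπX] at hg ⊢
    obtain ⟨j, hj⟩ := mem_zpowers_iff.mp hg
    have h1 : π (u * g * u⁻¹) = π (u * k * u⁻¹) ^ j := by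
      simp only [map_mul, map_inv, conj_zpow, hj]
    rw [h1]
    exact zpow_mem (hY u hu) j
  set K := closure {g : Γ | g ∈ X ∧ Odd (orderOf g)} with hK
  have hKX : K ≤ X := (closure_le _).mpr fun g hg => hg.1
  have hkK : k ∈ K := subset_closure ⟨mem_sup_left (mem_zpowers k), hkodd⟩
  have hgenK : closure {g : Γ | g ∈ K ∧ Odd (orderOf g)} = K :=
    le_antisymm ((closure_le _).mpr fun g hg => hg.1)
      (closure_mono fun g hg => ⟨subset_closure hg, hg.2⟩)
  have hNX : normalizer (X : Set Γ) ≤ normalizer (K : Set Γ) := fun u hu => by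
    refine mem_normalizer_of_conj_mem fun g hg => ?_
    have hle : K ≤ K.comap (MulAut.conj u).toMonoidHom := by
      conv_lhs => rw [hK]
      rw [closure_le]
      rintro w ⟨hw, hwo⟩
      exact subset_closure ⟨(mem_normalizer_iff.mp hu w).mp hw,
        (MulEquiv.orderOf_eq (MulAut.conj u) w).symm ▸ hwo⟩
    exact hle hg
  have hMK : gM ≤ normalizer (K : Set Γ) := hXN.trans hNX
  have hOK : gO ≤ normalizer (K : Set Γ) := le_trans (le_sup_right.trans le_normalizer) hNX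
  have hJM : J ≤ gM := by simpa using j_le_m (T := T) 1
  have hKJ : ⁅K, J⁆ ≤ K := commutator_le.mpr fun g hg j hj => by
    rw [commutatorElement_def, mul_assoc g, mul_assoc g]
    exact mul_mem hg ((mem_normalizer_iff.mp (hMK (hJM hj)) _).mp (inv_mem hg))
  have hON'' : gO ≤ normalizer ((⁅K, J⁆ : Subgroup Γ) : Set Γ) := by
    intro u hu
    rw [mem_normalizer_iff_map_conj_eq, map_commutator, mem_normalizer_iff_map_conj_eq.mp (hOK hu),
      mem_normalizer_iff_map_conj_eq.mp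
        ((((H19.pCore_le_sylow T).trans le_normalizer).trans (H34.normalizer_le_normalizer_thompson _)) hu)]
  have hkc : k ∈ ⁅K, J⁆ := by
    have h1 : ⁅k, a⁆ = k * k := by
      rw [commutatorElement_def, mul_assoc k, mul_assoc k]
      congr 1
      calc a * k⁻¹ * a⁻¹ = (a * k * a⁻¹)⁻¹ := by group
        _ = _ := by rw [hak, inv_inv]
    have h2' := pow_mem (commutator_mem_commutator (H₁ := K) (H₂ := J) hkK haJ) 2
    rw [h1, ← pow_two, ← pow_mul, show 2 * 2 = 3 + 1 from rfl, pow_succ, hk3, one_mul] at h2'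
    exact h2'
  have hcomm : ⁅K, J⁆ = K := by
    refine le_antisymm hKJ ?_
    conv_lhs => rw [hK]
    rw [closure_le]
    rintro g ⟨hg, ho⟩
    exact odd_mem_of_mem_sup (H19.pCore_isPGroup 2) hON''
      ((sup_le (zpowers_le.mpr (mem_sup_left hkc)) le_sup_right : X ≤ ⁅K, J⁆ ⊔ gO) hg) ho
  -- its two-core
  have hKπ : K.map π = zpowers (π k) := by
    refine le_antisymm ?_ (zpowers_le.mpr ⟨k, hkK, rfl⟩)
    rintro _ ⟨g, hg, rfl⟩
    exact (hπX g).mp (hKX hg)
  have hπk : orderOf (π k) = 3 := by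
    haveI : Fact (Nat.Prime 3) := ⟨Nat.prime_three⟩
    refine orderOf_eq_prime (by rw [← map_pow, hk3, map_one]) fun h' => hk1 ?_
    rw [← MonoidHom.mem_ker, H34.holHom_ker]
    exact o_le_c h ((QuotientGroup.eq_one_iff _).mp h')
  have hrel : (K ⊓ gO).relIndex K = 3 := by
    rw [inf_relIndex_left, show gO = π.ker from (QuotientGroup.ker_mk' _).symm, relIndex_ker, hKπ,
      Nat.card_zpowers, hπk]
  have hQ : pCoreOf 2 K = K ⊓ gO := by
    have hle : K ⊓ gO ≤ pCoreOf 2 K :=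
      H72.le_pCoreOf inf_le_left (le_trans (le_inf le_normalizer le_normalizer_of_normal)
        inf_normalizer_le_normalizer_inf) ((H19.pCore_isPGroup (G := Γ) 2).to_le inf_le_right)
    have h1 := relIndex_mul_relIndex (K ⊓ gO) (pCoreOf 2 K) K hle (H72.pCoreOf_le 2 K)
    rw [hrel] at h1
    rcases (Nat.dvd_prime Nat.prime_three).mp ⟨_, h1.symm⟩ with h2' | h2'
    · exact le_antisymm (relIndex_eq_one.mp h2') hle
    · rw [h2'] at h1
      have h3 : (pCoreOf 2 K).relIndex K = 1 := by omega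
      obtain ⟨j, hj⟩ := H72.pCoreOf_isPGroup 2 K ⟨k, relIndex_eq_one.mp h3 hkK⟩
      have hj' : k ^ 2 ^ j = 1 := by simpa using congrArg Subtype.val hj
      exact absurd (orderOf_eq_one_iff.mp (Nat.eq_one_of_dvd_coprimes (Nat.Coprime.pow_left j (by decide : Nat.Coprime 2 3))
        (orderOf_dvd_of_pow_eq_one hj') (orderOf_dvd_of_pow_eq_one hk3))) hkne
  have hdec : ∀ g ∈ K, ∃ n : ℕ, ∃ q ∈ pCoreOf 2 K, g = k ^ n * q := by
    intro g hg
    obtain ⟨n, hn⟩ : ∃ n : ℕ, π k ^ n = π g := by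
      have := (hπX g).mp (hKX hg)
      rwa [← mem_powers_iff_mem_zpowers, Submonoid.mem_powers_iff] at this
    refine ⟨n, (k ^ n)⁻¹ * g, ?_, by group⟩
    rw [hQ]
    exact ⟨(mul_mem (inv_mem (pow_mem hkK n)) hg : (k ^ n)⁻¹ * g ∈ K), QuotientGroup.eq.mp (show π (k ^ n) = π g by rw [map_pow]; exact hn)⟩
  -- the four-group
  set U := omegaCenterOf (pCoreOf 2 K) with hU
  have hUQ : U ≤ pCoreOf 2 K := (H34.omegaOne_le _).trans inf_le_left
  haveI : IsMulCommutative ↥(pCoreOf 2 K ⊓ centralizer ((pCoreOf 2 K : Subgroup Γ) : Set Γ)) :=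
    le_centralizer_iff_isMulCommutative.mp fun x hx y hy => hx.2 y hy.1
  have hUe : IsElementaryAbelian 2 U := H34.omegaOne_isElementaryAbelian
  haveI := hUe.1
  have hUc : ∀ u ∈ U, ∀ q ∈ pCoreOf 2 K, q * u = u * q := fun u hu q hq => (H34.omegaOne_le _ hu).2 q hq
  have hUn : ∀ {g}, g ∈ normalizer (K : Set Γ) → ∀ u ∈ U, g * u * g⁻¹ ∈ U := by
    intro g hg u hu
    have h1 : U.map (MulAut.conj g).toMonoidHom = U := by
      rw [hU, omegaCenterOf, H34.map_omegaOne _ (MulAut.conj g).injective, map_inf _ _ _ (MulAut.conj g).injective]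
      have hQn : (pCoreOf 2 K).map (MulAut.conj g).toMonoidHom = pCoreOf 2 K :=
        mem_normalizer_iff_map_conj_eq.mp (by
          rw [hQ]; exact inf_normalizer_le_normalizer_inf ⟨hg, le_normalizer_of_normal (mem_top g)⟩)
      congr 1
      rw [hQn]
      congr 1
      exact mem_normalizer_iff_map_conj_eq.mp (H20.le_normalizer_centralizer
        (le_refl (normalizer ((pCoreOf 2 K : Subgroup Γ) : Set Γ))) (mem_normalizer_iff_map_conj_eq.mpr hQn))
    rw [← h1]
    exact ⟨u, hu, rfl⟩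
  have hkN : k ∈ normalizer (K : Set Γ) := le_normalizer hkK
  let ν : ↥U →* ↥U := MonoidHom.mk'
    (fun u => (⟨(u : Γ) * (k * (u : Γ)⁻¹ * k⁻¹), mul_mem u.2 (hUn hkN _ (inv_mem u.2))⟩ : ↥U)) fun u v => Subtype.ext (by
      simp only [Subgroup.coe_mul]
      have hcm : (v : Γ) * (k * (u : Γ)⁻¹ * k⁻¹) = k * (u : Γ)⁻¹ * k⁻¹ * v :=
        setLike_mul_comm (s := U) v.2 (hUn hkN _ (inv_mem u.2))
      calc (u : Γ) * v * (k * ((u : Γ) * v)⁻¹ * k⁻¹) = u * v * (k * (v : Γ)⁻¹ * k⁻¹) * (k * (u : Γ)⁻¹ * k⁻¹) := by group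
        _ = u * (v * (k * (u : Γ)⁻¹ * k⁻¹)) * (k * (v : Γ)⁻¹ * k⁻¹) := by
          rw [mul_assoc ((u : Γ) * v), setLike_mul_comm (s := U) (hUn hkN _ (inv_mem v.2)) (hUn hkN _ (inv_mem u.2)),
            ← mul_assoc, mul_assoc (u : Γ)]
        _ = _ := by rw [hcm]; group)
  set W := ν.range.map U.subtype with hWdef
  have hWU : W ≤ U := map_subtype_le _
  have hwW : wOf K ≤ W := by
    refine commutator_le.mpr fun u hu g hg => ?_
    obtain ⟨n, q, hq, rfl⟩ := hdec g hg
    clear hg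
    have hqu : ∀ v ∈ U, q * v * q⁻¹ = v := fun v hv => by rw [hUc v hv q hq, mul_inv_cancel_right]
    have : ⁅u, k ^ n * q⁆ = ⁅u, k ^ n⁆ := by
      calc ⁅u, k ^ n * q⁆ = u * k ^ n * (q * u⁻¹ * q⁻¹) * (k ^ n)⁻¹ := by rw [commutatorElement_def]; group
        _ = _ := by rw [hqu _ (inv_mem hu), commutatorElement_def]
    rw [this]
    clear this
    induction n generalizing u with
    | zero => simp
    | succ n ih =>
      have e : ⁅u, k ^ (n + 1)⁆ = ((u : Γ) * (k * u⁻¹ * k⁻¹)) * ⁅k * u * k⁻¹, k ^ n⁆ := by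
        rw [commutatorElement_def, commutatorElement_def, pow_succ]; group
      rw [e]
      exact mul_mem ⟨ν ⟨u, hu⟩, ⟨_, rfl⟩, rfl⟩ (ih _ (hUn hkN u hu))
  have hWw : W ≤ wOf K := by
    rintro _ ⟨_, ⟨u, rfl⟩, rfl⟩
    have := commutator_mem_commutator (H₁ := U) (H₂ := K) u.2 hkK
    simpa [ν, commutatorElement_def, mul_assoc, wOf, hU] using this
  have hwe : wOf K = W := le_antisymm hwW hWw
  have hWN : ∀ {g}, g ∈ normalizer (K : Set Γ) → g ∈ normalizer (W : Set Γ) := by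
    intro g hg
    refine mem_normalizer_of_conj_mem fun w hw => ?_
    rw [← hwe] at hw ⊢
    have h1 : (wOf K).map (MulAut.conj g).toMonoidHom ≤ wOf K := by
      have eK : K.map (MulAut.conj g).toMonoidHom = K := mem_normalizer_iff_map_conj_eq.mp hg
      rw [wOf, map_commutator, eK]
      refine commutator_mono ?_ le_rfl
      rintro _ ⟨u, hu, rfl⟩
      exact hUn hg u hu
    exact h1 ⟨w, hw, rfl⟩
  have hcard : Nat.card ↥W ≤ 4 := by
    refine four_bound (H34.isElementaryAbelian_mono hUe hWU) hD haD (hWN hkN) hk3 hak ?_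
      (fun x hx => hWN (hMK ((le_sSup hD : D ≤ gM) hx))) ?_
    · rintro _ ⟨_, ⟨u, rfl⟩, rfl⟩ hc
      set w := (U.subtype (ν u)) with hw
      have hwk : k * w * k⁻¹ = w := by rw [hc, mul_inv_cancel_right]
      have hwk2 : k ^ 2 * w * (k ^ 2)⁻¹ = w := by
        calc k ^ 2 * w * (k ^ 2)⁻¹ = k * (k * w * k⁻¹) * k⁻¹ := by rw [pow_two]; group
          _ = _ := by rw [hwk, hwk]
      have hwdef : w = (u : Γ) * (k * (u : Γ)⁻¹ * k⁻¹) := rfl
      have h1 : w * (k * w * k⁻¹) * (k ^ 2 * w * (k ^ 2)⁻¹) = 1 := by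
        rw [hwdef]
        calc (u : Γ) * (k * (u : Γ)⁻¹ * k⁻¹) * (k * ((u : Γ) * (k * (u : Γ)⁻¹ * k⁻¹)) * k⁻¹) *
              (k ^ 2 * ((u : Γ) * (k * (u : Γ)⁻¹ * k⁻¹)) * (k ^ 2)⁻¹)
            = (u : Γ) * (k ^ 3 * (u : Γ)⁻¹ * (k ^ 3)⁻¹) := by rw [pow_two, pow_three']; group
          _ = 1 := by rw [hk3]; group
      rw [hwk, hwk2] at h1
      have hw2 : w * w = 1 := by rw [← pow_two]; exact hUe.2 w (ν u).2
      rwa [hw2, one_mul] at h1
    · intro x hx
      have hxM : x ∈ gM := (le_sSup hD : D ≤ gM) hx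
      have hgood : ∀ z ∈ gM, π (z * k * z⁻¹) = π k → ∀ w ∈ W, z * (k * w * k⁻¹) * z⁻¹ = k * (z * w * z⁻¹) * k⁻¹ := by
        intro z hz he w hw
        have hq : k⁻¹ * (z * k * z⁻¹) ∈ pCoreOf 2 K := by
          rw [hQ]
          exact ⟨(mul_mem (inv_mem hkK) ((mem_normalizer_iff.mp (hMK hz) k).mp hkK) : k⁻¹ * (z * k * z⁻¹) ∈ K), QuotientGroup.eq.mp he.symm⟩
        have hzw : z * w * z⁻¹ ∈ U := hWU ((mem_normalizer_iff.mp (hWN (hMK hz)) w).mp hw)
        calc z * (k * w * k⁻¹) * z⁻¹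
            = k * ((k⁻¹ * (z * k * z⁻¹)) * (z * w * z⁻¹)) * (k⁻¹ * (z * k * z⁻¹))⁻¹ * k⁻¹ := by group
          _ = _ := by rw [hUc _ hzw _ hq]; group
      have h3 := hY x hxM
      rw [← mem_powers_iff_mem_zpowers, Submonoid.mem_powers_iff] at h3
      obtain ⟨n, hn⟩ := h3
      rw [pow_eq_pow_mod n (show π k ^ 3 = 1 by rw [← map_pow, hk3, map_one])] at hn
      have : n % 3 = 0 ∨ n % 3 = 1 ∨ n % 3 = 2 := by omega
      rcases this with h' | h' | h' <;> rw [h'] at hn
      · exfalso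
        rw [pow_zero, eq_comm, map_mul, map_mul, map_inv, mul_inv_eq_one] at hn
        have : π k = 1 := mul_left_cancel (hn.trans (mul_one (π x)).symm)
        rw [this, orderOf_one] at hπk
        omega
      · rw [pow_one] at hn
        exact Or.inl (hgood x hxM hn.symm)
      · refine Or.inr (hgood (x * a) (mul_mem hxM haM) ?_)
        have e : x * a * k * (x * a)⁻¹ = x * (a * k * a⁻¹) * x⁻¹ := by group
        rw [e, hak, ← conj_inv, map_inv, ← hn, inv_eq_iff_mul_eq_one, ← pow_succ, ← map_pow, hk3, map_one]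
  refine ⟨K, ⟨hgenK, ⟨1, by rw [one_smul]; exact hcomm⟩, ?_, hwe ▸ hcard⟩, hcomm, ?_⟩
  · rw [hQ]; exact hrel
  · refine le_antisymm ?_ ?_
    · rintro _ ⟨g, hg, rfl⟩
      obtain ⟨n, q, hq, rfl⟩ := hdec g hg
      rw [hQ] at hq
      have hq1 : f q = 1 := by rw [← MonoidHom.mem_ker, H34.holHom_ker]; exact o_le_c h hq.2
      rw [map_mul, map_pow, hq1, mul_one]
      exact pow_mem hfkD _
    · rw [← zpowers_eq_of_card3 (ff_card S hA).2.1 hfkD hk1, zpowers_le]
      exact ⟨k, hkK, rfl⟩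

/-- A component is a component for `J(T)` itself. -/
theorem comp_comm {K : Subgroup Γ} (hK : IsComp T K) : ⁅K, thompsonSubgroupOf 2 (T : Subgroup Γ)⁆ = K := by
  obtain ⟨-, -, -, hwK, -, A, hA, hmap, hAW⟩ := comp_basic h hK
  obtain ⟨K', hK', hc, hmap'⟩ := comp_exists h hA
  obtain ⟨-, -, -, hwK', -, A', hA', hmap'', hAW'⟩ := comp_basic h hK'
  have S := setup h
  have hgen := gen h
  have hWW : (cW A') = (cW A) := by
    by_contra hne
    have h1 := (ff_cross S hgen hA hA' (Ne.symm hne)).trans inf_le_right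
    obtain ⟨d, hd, hd1⟩ : ∃ d ∈ (cD A'), d ≠ 1 := by
      by_contra hh
      push Not at hh
      have := (ff_card S hA').2.1
      rw [(eq_bot_iff_forall _).mpr hh, card_bot] at this
      omega
    obtain ⟨w, hw, hw1⟩ : ∃ w ∈ (cW A), w ≠ 1 := by
      by_contra hh
      push Not at hh
      have := (ff_card S hA).2.2.2
      rw [(eq_bot_iff_forall _).mpr hh, card_bot] at this
      omega
    have hd' : d ∈ (cD A) := by rw [← hmap', hmap'']; exact hd
    exact hw1 (ff_fpf S hA hd' hd1 hw (mem_centralizer_iff.mp (h1 (mem_sup_left hd)) w hw).symm)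
  rw [← hAW', ← hAW] at hWW
  have he' := map_injective SemidirectProduct.inl_injective hWW
  have h1 := congrArg (Subgroup.map (gV).subtype) he'
  rw [subgroupOf_map_subtype, subgroupOf_map_subtype, inf_eq_left.mpr (commutator_le_left gV K'),
    inf_eq_left.mpr (commutator_le_left gV K)] at h1
  rw [← comp_unique h hK' hK (by rw [hwK', hwK, h1])]
  exact hc

omit [Finite Γ] h2 h in
/-- A conjugate of a component is a component. -/
theorem comp_conj [Finite Γ] {K : Subgroup Γ} (hK : IsComp T K) (u : Γ) :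
    IsComp T (K.map (MulAut.conj u).toMonoidHom) ∧
      wOf (K.map (MulAut.conj u).toMonoidHom) = (wOf K).map (MulAut.conj u).toMonoidHom := by
  set e := MulAut.conj u with he
  have hQ : pCoreOf 2 (K.map e.toMonoidHom) = (pCoreOf 2 K).map e.toMonoidHom :=
    H72.pCoreOf_map_equiv e 2 K
  have hcent : ∀ X : Subgroup Γ, (centralizer (X : Set Γ)).map e.toMonoidHom =
      centralizer ((X.map e.toMonoidHom : Subgroup Γ) : Set Γ) := by
    intro X
    ext z
    constructor
    · rintro ⟨a, ha, rfl⟩ _ ⟨b, hb, rfl⟩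
      rw [← map_mul, ← map_mul, mem_centralizer_iff.mp ha b hb]
    · intro hz
      refine ⟨e.symm z, fun b hb => e.injective ?_, e.apply_symm_apply z⟩
      rw [map_mul, map_mul, e.apply_symm_apply]
      exact hz _ ⟨b, hb, rfl⟩
  have hW : wOf (K.map e.toMonoidHom) = (wOf K).map e.toMonoidHom := by
    rw [wOf, wOf, map_commutator, hQ, omegaCenterOf, omegaCenterOf, H34.map_omegaOne _ e.injective,
      map_inf _ _ _ e.injective, hcent]
  refine ⟨⟨?_, ?_, ?_, ?_⟩, hW⟩
  · conv_rhs => rw [← hK.gen, MonoidHom.map_closure]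
    congr 1
    ext z
    constructor
    · rintro ⟨⟨a, ha, rfl⟩, ho⟩
      exact ⟨a, ⟨ha, (MulEquiv.orderOf_eq e a) ▸ ho⟩, rfl⟩
    · rintro ⟨a, ⟨ha, ho⟩, rfl⟩
      exact ⟨⟨a, ha, rfl⟩, (MulEquiv.orderOf_eq e a).symm ▸ ho⟩
  · obtain ⟨x, hx⟩ := hK.comm
    refine ⟨u * x, ?_⟩
    rw [mul_smul, Sylow.coe_subgroup_smul (g := u), Subgroup.pointwise_smul_def]
    show ⁅K.map e.toMonoidHom, thompsonSubgroupOf 2 (Subgroup.map e.toMonoidHom _)⁆ = _
    rw [← H34.map_thompsonSubgroupOf, ← map_commutator, hx]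
  · rw [hQ, relIndex_map_map_of_injective _ _ e.injective]
    exact hK.idx
  · rw [hW, card_map_of_injective e.injective]
    exact hK.card

/-- `J(Γ)` is generated by `J(T)` and the components, modulo `C`. -/
theorem gm_le : gM ≤ thompsonSubgroupOf 2 (T : Subgroup Γ) ⊔ (⨆ K : {K : Subgroup Γ // IsComp T K}, (K : Subgroup Γ)) ⊔
    (gC : Subgroup Γ) := by
  set f := H34.holHom gV with hf
  set Y := thompsonSubgroupOf 2 (T : Subgroup Γ) ⊔ (⨆ K : {K : Subgroup Γ // IsComp T K}, (K : Subgroup Γ)) ⊔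
    (gC : Subgroup Γ) with hY
  have S := setup h
  have hgen := gen h
  have hker : f.ker ≤ Y := (H34.holHom_ker gV).le.trans le_sup_right
  rw [← comap_map_eq_self hker, ← map_le_iff_le_comap]
  refine (S.le_sSup_transvections hgen).trans (sSup_le fun B hB => ?_)
  obtain ⟨K, hK, -, hmap⟩ := comp_exists h hB
  obtain ⟨b, hb, B', hB', hbB', hb1, hW⟩ := exists_transvection h 1 hB
  rw [one_smul] at hb
  have hbY : f b ∈ Y.map f := ⟨b, mem_sup_left (mem_sup_left hb), rfl⟩
  have hKY : (cD B) ≤ Y.map f := hmap ▸ map_mono ((le_iSup (fun K : {K : Subgroup Γ // IsComp T K} =>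
    (K : Subgroup Γ)) ⟨K, hK⟩).trans (le_sup_right.trans le_sup_left))
  have hbE : f b ∈ H34.compOf 2 ((gM).map f) B := (S.comp_eq_or_disjoint hB hB').1 hW ▸ mem_sup_right hbB'
  have hidx : ((cD B).subgroupOf (H34.compOf 2 ((gM).map f) B)).index = 2 := by
    have := ((cD B).subgroupOf (H34.compOf 2 ((gM).map f) B)).card_mul_index
    rw [Nat.card_congr (subgroupOfEquivOfLe (le_sup_left : (cD B) ≤ H34.compOf 2 ((gM).map f) B)).toEquiv,
      (ff_card S hB).2.1, (ff_card S hB).1] at this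
    omega
  have hbD : f b ∉ (cD B) := by
    intro hbD
    have hb2 : f b ^ 2 = 1 := (S.transvection_facts hB').2.2 _ hbB'
    have hd3 : f b ^ 3 = 1 := by
      have := pow_card_eq_one' (x := (⟨f b, hbD⟩ : ↥(cD B)))
      rw [(ff_card S hB).2.1] at this
      simpa using congrArg Subtype.val this
    exact hb1 (orderOf_eq_one_iff.mp (Nat.eq_one_of_dvd_coprimes (by decide : Nat.Coprime 2 3)
      (orderOf_dvd_of_pow_eq_one hb2) (orderOf_dvd_of_pow_eq_one hd3)))
  intro e he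
  by_cases heD : e ∈ (cD B)
  · exact hKY heD
  · have heE : e ∈ H34.compOf 2 ((gM).map f) B := mem_sup_right he
    have hed : e * f b ∈ (cD B) := by
      have := (mul_mem_iff_of_index_two hidx (a := ⟨e, heE⟩) (b := ⟨f b, hbE⟩)).mpr
        (by simp [mem_subgroupOf, heD, hbD])
      simpa [mem_subgroupOf] using this
    simpa using mul_mem (hKY hed) (inv_mem hbY)

end Cfsg.Agent.H74.JC
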