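import Cfsg.Prelude.Def_JComponents
import Cfsg.Agent.H74.JExist
import Cfsg.Agent.H34.Quotient

/-!
From `J(T)`-components of `G` to components inside an overgroup, and back.
-/

set_option autoImplicit false

namespace Cfsg.Agent.H74.JB

open Subgroup Cfsg
open scoped commutatorElement Pointwise

variable {G : Type*} [Group G] [Finite G]

/-- The standing hypotheses of the section. -/
structure ZN (G : Type*) [Group G] : Prop where
  char : IsCharacteristicTwoType G
  solv : ∀ N : Subgroup G, IsTwoLocal N → Group.IsSolvable ↥N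
  zn : ∀ S : Sylow 2 G, centralizer (omegaCenterOf (S : Subgroup G) : Set G) ≤ normalizer ((S : Subgroup G) : Set G)

omit [Finite G] in
/-- An injective image of a two-core. -/
theorem map_pCoreOf {G' : Type*} [Group G'] [Finite G'] {f : G →* G'} (hf : Function.Injective f) (H : Subgroup G) :
    (pCoreOf 2 H).map f = pCoreOf 2 (H.map f) := by
  refine le_antisymm (H72.le_pCoreOf (map_mono (H72.pCoreOf_le 2 H))
    ((map_mono (H72.le_normalizer_pCoreOf 2 H)).trans (le_normalizer_map f)) ((H72.pCoreOf_isPGroup 2 H).map f)) ?_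
  have hle : pCoreOf 2 (H.map f) ≤ H.map f := H72.pCoreOf_le 2 _
  have h1 : (pCoreOf 2 (H.map f)).comap f ≤ pCoreOf 2 H := by
    refine H72.le_pCoreOf ?_ ?_ ?_
    · intro x hx
      obtain ⟨y, hy, hxy⟩ := hle hx
      exact hf hxy ▸ hy
    · intro h hh
      refine mem_normalizer_iff.mpr fun x => ?_
      simp only [mem_comap, map_mul, map_inv]
      exact mem_normalizer_iff.mp (H72.le_normalizer_pCoreOf 2 (H.map f) ⟨h, hh, rfl⟩) (f x)
    · exact (H72.pCoreOf_isPGroup 2 _).comap_of_injective f hf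
  intro x hx
  obtain ⟨y, -, rfl⟩ := hle hx
  exact ⟨y, h1 hx, rfl⟩

omit [Finite G] in
/-- An injective image of a centralizer, inside the image of its set. -/
theorem map_inf_centralizer {G' : Type*} [Group G'] {f : G →* G'} (hf : Function.Injective f) (X : Subgroup G) :
    (X ⊓ centralizer (X : Set G)).map f = X.map f ⊓ centralizer ((X.map f : Subgroup G') : Set G') := by
  ext z
  constructor
  · rintro ⟨a, ha, rfl⟩
    refine ⟨⟨a, ha.1, rfl⟩, ?_⟩
    rintro _ ⟨b, hb, rfl⟩
    rw [← map_mul, ← map_mul, mem_centralizer_iff.mp ha.2 b hb]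
  · rintro ⟨⟨a, ha, rfl⟩, hz⟩
    exact ⟨a, ⟨ha, fun b hb => hf (by rw [map_mul, map_mul]; exact hz _ ⟨b, hb, rfl⟩)⟩, rfl⟩

omit [Finite G] in
/-- An injective image of `Ω₁(Z(X))`. -/
theorem map_omegaCenterOf {G' : Type*} [Group G'] {f : G →* G'} (hf : Function.Injective f) (X : Subgroup G) :
    (omegaCenterOf X).map f = omegaCenterOf (X.map f) := by
  rw [omegaCenterOf, omegaCenterOf, H34.map_omegaOne _ hf, map_inf_centralizer hf]

/-- An injective image of `W_K`. -/
theorem map_wOf {G' : Type*} [Group G'] [Finite G'] {f : G →* G'} (hf : Function.Injective f) (K : Subgroup G) :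
    (wOf K).map f = wOf (K.map f) := by
  rw [wOf, wOf, map_commutator, map_omegaCenterOf hf, map_pCoreOf hf]

omit [Finite G] in
/-- `J` inside a subgroup. -/
theorem map_thompson (L : Subgroup G) (X : Subgroup ↥L) :
    (thompsonSubgroupOf 2 X).map L.subtype = thompsonSubgroupOf 2 (X.map L.subtype) :=
  H34.map_thompsonSubgroupOf_of_inf_ker L.subtype X (by rw [Subgroup.ker_subtype, inf_bot_eq])

variable {T L : Subgroup G}

omit [Finite G] in
/-- A Sylow subgroup of a subgroup is a Sylow two-subgroup in it. -/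
theorem isSylowTwoIn_map [Finite G] (P : Sylow 2 ↥L) : IsSylowTwoIn ((P : Subgroup ↥L).map L.subtype) L := by
  haveI : Fact (Nat.Prime 2) := ⟨Nat.prime_two⟩
  refine ⟨map_subtype_le _, P.isPGroup'.map _, ?_⟩
  rw [relIndex, subgroupOf, comap_map_eq_self_of_injective L.subtype_injective]
  exact Nat.odd_iff.mpr (Nat.two_dvd_ne_zero.mp P.not_dvd_index)

omit [Finite G] in
/-- A Sylow two-subgroup in a subgroup comes from a Sylow subgroup of it. -/
theorem exists_sylow_map [Finite G] (h : IsSylowTwoIn T L) : ∃ P : Sylow 2 ↥L, (P : Subgroup ↥L).map L.subtype = T := by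
  haveI : Fact (Nat.Prime 2) := ⟨Nat.prime_two⟩
  have hp : IsPGroup 2 ↥(T.subgroupOf L) := h.2.1.of_equiv (subgroupOfEquivOfLe h.1).symm
  have hnd : ¬ 2 ∣ (T.subgroupOf L).index := Nat.two_dvd_ne_zero.mpr (Nat.odd_iff.mp h.2.2)
  exact ⟨hp.toSylow hnd, by rw [IsPGroup.toSylow_coe, subgroupOf_map_subtype, inf_eq_left.mpr h.1]⟩

/-- A two-subgroup lies in a conjugate of a Sylow subgroup. -/
theorem exists_le_conj (h : IsSylowTwoIn T L) {X : Subgroup G} (hX : IsPGroup 2 X) (hXL : X ≤ L) :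
    ∃ l ∈ L, X ≤ T.map (MulAut.conj l).toMonoidHom := by
  haveI : Fact (Nat.Prime 2) := ⟨Nat.prime_two⟩
  obtain ⟨P, hP⟩ := exists_sylow_map h
  have hXp : IsPGroup 2 ↥(X.subgroupOf L) := hX.of_equiv (subgroupOfEquivOfLe hXL).symm
  obtain ⟨Q, hQ⟩ := hXp.exists_le_sylow
  obtain ⟨l, rfl⟩ := MulAction.exists_smul_eq (↥L) P Q
  refine ⟨l, l.2, fun x hx => ?_⟩
  rw [Sylow.coe_subgroup_smul] at hQ
  obtain ⟨p, hp, hpx⟩ := hQ (show (⟨x, hXL hx⟩ : ↥L) ∈ X.subgroupOf L from hx)
  refine ⟨p, hP ▸ ⟨p, hp, rfl⟩, ?_⟩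
  exact congrArg Subtype.val hpx

/-- A conjugate of a Sylow two-subgroup in a subgroup. -/
theorem isSylowTwoIn_conj (h : IsSylowTwoIn T L) {l : G} (hl : l ∈ normalizer (L : Set G)) :
    IsSylowTwoIn (T.map (MulAut.conj l).toMonoidHom) L := by
  have hLl : L.map (MulAut.conj l).toMonoidHom = L := mem_normalizer_iff_map_conj_eq.mp hl
  refine ⟨(map_mono h.1).trans hLl.le, h.2.1.map _, ?_⟩
  have h1 := relIndex_map_map_of_injective T L (f := (MulAut.conj l).toMonoidHom) (MulAut.conj l).injective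
  rw [hLl] at h1
  rw [h1]
  exact h.2.2

/-- A two-subgroup lies in a Sylow two-subgroup. -/
theorem exists_sylowTwoIn_ge {X : Subgroup G} (hX : IsPGroup 2 X) (hXL : X ≤ L) :
    ∃ S, IsSylowTwoIn S L ∧ X ≤ S := by
  obtain ⟨P⟩ := (inferInstance : Nonempty (Sylow 2 ↥L))
  obtain ⟨l, hl, hle⟩ := exists_le_conj (isSylowTwoIn_map P) hX hXL
  exact ⟨_, isSylowTwoIn_conj (isSylowTwoIn_map P) (le_normalizer hl), hle⟩

/-- A conjugate of `T` containing `J(T)` has the same Thompson subgroup. -/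
theorem j_eq_conj {g : G} (h : thompsonSubgroupOf 2 T ≤ T.map (MulAut.conj g).toMonoidHom) :
    thompsonSubgroupOf 2 (T.map (MulAut.conj g).toMonoidHom) = thompsonSubgroupOf 2 T := by
  symm
  refine eq_of_le_of_card_ge ?_ (le_of_eq ?_)
  · rw [H34.thompsonSubgroupOf_eq, H34.thompsonSubgroupOf_eq]
    refine sSup_le fun A hA => le_sSup ?_
    refine ⟨le_trans ?_ h, hA.2.1, fun C hC hC' => ?_⟩
    · rw [H34.thompsonSubgroupOf_eq]; exact le_sSup hA
    · have h1 := hA.2.2 (C.map (MulAut.conj g).symm.toMonoidHom) ?_ (H34.isElementaryAbelian_map hC' _)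
      · rwa [card_map_of_injective (MulAut.conj g).symm.injective] at h1
      · rintro _ ⟨c, hc, rfl⟩
        obtain ⟨t, ht, rfl⟩ := hC hc
        show (MulAut.conj g).symm ((MulAut.conj g) t) ∈ T
        rw [MulEquiv.symm_apply_apply]
        exact ht
  · rw [← H34.map_thompsonSubgroupOf, card_map_of_injective (MulAut.conj g).injective]

/-- Two-subgroups of `L` containing `J(T)` have the same Thompson subgroup. -/
theorem j_eq (h : IsSylowTwoIn T L) {S : Subgroup G} (hS : IsPGroup 2 S) (hSL : S ≤ L)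
    (hJ : thompsonSubgroupOf 2 T ≤ S) : thompsonSubgroupOf 2 S = thompsonSubgroupOf 2 T := by
  obtain ⟨l, -, hl⟩ := exists_le_conj h hS hSL
  have h1 := j_eq_conj (hJ.trans hl)
  rw [← h1]
  exact H34.thompsonSubgroupOf_eq_of_le (h1.le.trans hJ) hl

omit [Finite G] in
/-- The normalizer of `K` normalizes `W_K`. -/
theorem normalizer_le_normalizer_wOf [Finite G] (K : Subgroup G) :
    normalizer (K : Set G) ≤ normalizer (wOf K : Set G) := by
  intro g hg
  rw [mem_normalizer_iff_map_conj_eq] at hg ⊢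
  exact (map_wOf (MulAut.conj g).injective K).trans (congrArg wOf hg)

/-- Facts on a member of the family of overgroups. -/
theorem overgroup_facts (hT1 : T ≠ ⊥) (hLT : L ∈ jOvergroups T) :
    pCoreOf 2 L ≠ ⊥ ∧ pCoreOf 2 L ≤ T ∧ IsTwoLocal (normalizer (pCoreOf 2 L : Set G)) := by
  have hne : pCoreOf 2 L ≠ ⊥ := by
    intro h0
    refine hT1 (eq_bot_iff.mpr ?_)
    refine fun x _ => ?_
    have h1 : x ∈ centralizer (pCoreOf 2 L : Set G) := by
      rw [h0]
      exact fun y hy => by rw [mem_bot.mp hy, one_mul, mul_one]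
    rw [← h0]
    exact hLT.2.2 h1
  obtain ⟨P, hP⟩ := exists_sylow_map hLT.1
  exact ⟨hne, hP ▸ map_mono (H19.pCore_le_sylow P), ⟨_, H72.pCoreOf_isPGroup 2 L, hne, rfl⟩⟩

variable (hZN : ZN G) (hT1 : T ≠ ⊥) (hLT : L ∈ jOvergroups T)
include hZN hT1 hLT

/-- An overgroup satisfies the inner hypotheses. -/
theorem jHyp {P : Sylow 2 ↥L} (hP : (P : Subgroup ↥L).map L.subtype = T) : JC.JHyp P := by
  haveI : Fact (Nat.Prime 2) := ⟨Nat.prime_two⟩
  obtain ⟨-, hOT, hloc⟩ := overgroup_facts hT1 hLT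
  refine ⟨?_, ?_, ?_, ?_⟩
  · haveI := hZN.solv _ hloc
    exact Group.isSolvable_of_isSolvable_injective (inclusion_injective (H72.le_normalizer_pCoreOf 2 L))
  · intro x hx
    have h1 : (x : G) ∈ pCoreOf 2 L := by
      refine hLT.2.2 fun y hy => ?_
      obtain ⟨hyL, hy'⟩ := H72.mem_pCoreOf.mp hy
      exact congrArg Subtype.val (mem_centralizer_iff.mp hx _ hy')
    exact (H72.mem_pCoreOf.mp h1).2
  · obtain ⟨S₀, hS₀⟩ := hLT.1.2.1.exists_le_sylow
    have hZle : omegaCenterOf (S₀ : Subgroup G) ≤ omegaCenterOf T := by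
      refine Subgroup.closure_mono fun z hz => ⟨⟨hOT (hLT.2.2 fun y hy => ?_), fun t ht => hz.1.2 t (hS₀ ht)⟩, hz.2⟩
      exact hz.1.2 y (hS₀ (hOT hy))
    intro x hx
    have hxc : (x : G) ∈ centralizer (omegaCenterOf (S₀ : Subgroup G) : Set G) := by
      intro z hz
      have hzT := hZle hz
      rw [← hP, ← map_omegaCenterOf L.subtype_injective] at hzT
      obtain ⟨z', hz', rfl⟩ := hzT
      exact congrArg Subtype.val (mem_centralizer_iff.mp hx z' hz')
    have hn := hZN.zn S₀ hxc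
    have hint : (P : Subgroup ↥L) = (S₀ : Subgroup G).subgroupOf L := by
      refine (P.is_maximal' (S₀.isPGroup'.comap_of_injective _ L.subtype_injective) ?_).symm
      intro p hp
      exact hS₀ (hP ▸ ⟨p, hp, rfl⟩)
    rw [hint]
    exact mem_normalizer_iff.mpr fun y => by
      simpa [mem_subgroupOf] using mem_normalizer_iff.mp hn (y : G)
  · intro hle
    refine hLT.2.1 ?_
    rw [← hP, ← map_thompson]
    exact map_mono hle

/-- A component inside `L`, seen from `L`. -/
theorem isComp_of {P : Sylow 2 ↥L} (hP : (P : Subgroup ↥L).map L.subtype = T) {K : Subgroup G}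
    (hgen : closure {g : G | g ∈ K ∧ Odd (orderOf g)} = K) (hc : ⁅K, thompsonSubgroupOf 2 T⁆ = K)
    (hidx : (pCoreOf 2 K).relIndex K = 3) (hcard : Nat.card ↥(wOf K) ≤ 4) (hKL : K ≤ L) :
    JC.IsComp P (K.subgroupOf L) ∧ (K.subgroupOf L).map L.subtype = K ∧
      (wOf (K.subgroupOf L)).map L.subtype = wOf K := by
  have hK : (K.subgroupOf L).map L.subtype = K := by rw [subgroupOf_map_subtype, inf_eq_left.mpr hKL]
  have hW : (wOf (K.subgroupOf L)).map L.subtype = wOf K := by rw [map_wOf L.subtype_injective, hK]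
  refine ⟨⟨?_, ⟨1, ?_⟩, ?_, ?_⟩, hK, hW⟩
  · apply map_injective L.subtype_injective
    rw [MonoidHom.map_closure, hK]
    conv_rhs => rw [← hgen]
    congr 1
    ext z
    constructor
    · rintro ⟨a, ⟨ha, ho⟩, rfl⟩
      exact ⟨ha, (orderOf_injective L.subtype L.subtype_injective a).symm ▸ ho⟩
    · rintro ⟨hz, ho⟩
      exact ⟨⟨z, hKL hz⟩, ⟨hz, by rwa [Subgroup.orderOf_mk]⟩, rfl⟩
  · rw [one_smul]
    apply map_injective L.subtype_injective
    rw [map_commutator, hK, map_thompson, hP, hc]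
  · rw [← relIndex_map_map_of_injective _ _ L.subtype_injective, map_pCoreOf L.subtype_injective, hK]
    exact hidx
  · rw [← card_map_of_injective L.subtype_injective, hW]
    exact hcard

/-- A component of `G` inside `L`, seen from `L`. -/
theorem isComp_of_isJComponent {P : Sylow 2 ↥L} (hP : (P : Subgroup ↥L).map L.subtype = T) {K : Subgroup G}
    (hK : IsJComponent T K) (hKL : K ≤ L) :
    JC.IsComp P (K.subgroupOf L) ∧ (K.subgroupOf L).map L.subtype = K ∧
      (wOf (K.subgroupOf L)).map L.subtype = wOf K :=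
  isComp_of hZN hT1 hLT hP hK.1 hK.2.1 hK.2.2.1 hK.2.2.2.2.1.le hKL

/-- A component of `L` gives a component of `G`. -/
theorem isJComponent_of {P : Sylow 2 ↥L} (hP : (P : Subgroup ↥L).map L.subtype = T) {K : Subgroup ↥L}
    (hK : JC.IsComp P K) : IsJComponent T (K.map L.subtype) := by
  haveI : Fact (Nat.Prime 2) := ⟨Nat.prime_two⟩
  have h := jHyp hZN hT1 hLT hP
  obtain ⟨-, -, -, hwK, hcard, -⟩ := JC.comp_basic h hK
  have hW := map_wOf L.subtype_injective K
  refine ⟨?_, ?_, ?_, ?_, ?_, ?_⟩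
  · conv_rhs => rw [← hK.gen, MonoidHom.map_closure]
    congr 1
    ext z
    constructor
    · rintro ⟨⟨a, ha, rfl⟩, ho⟩
      exact ⟨a, ⟨ha, (orderOf_injective L.subtype L.subtype_injective a) ▸ ho⟩, rfl⟩
    · rintro ⟨a, ⟨ha, ho⟩, rfl⟩
      exact ⟨⟨a, ha, rfl⟩, (orderOf_injective L.subtype L.subtype_injective a).symm ▸ ho⟩
  · rw [← hP, ← map_thompson, ← map_commutator, JC.comp_comm h hK]
  · rw [← map_pCoreOf L.subtype_injective, relIndex_map_map_of_injective _ _ L.subtype_injective]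
    exact hK.idx
  · intro S hS hJS
    exact j_eq hLT.1 hS.2.1 (hS.1.trans (sup_le (map_subtype_le _)
      ((H34.thompsonSubgroupOf_le _).trans hLT.1.1))) hJS
  · rw [← hW, card_map_of_injective L.subtype_injective, hcard]
  · intro w hw
    rw [← hW, hwK] at hw
    obtain ⟨v, hv, rfl⟩ := hw
    rw [← map_mul, ← pow_two, (JC.v_elem h).2 v (commutator_le_left _ K hv), map_one]

end Cfsg.Agent.H74.JB
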