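import Cfsg.Agent.H74.JLocal

/-!
The decomposition of `Ω₁(Z(J(T)))` relative to a `J(T)`-component.
-/

set_option autoImplicit false

namespace Cfsg.Agent.H74.JB

open Subgroup Cfsg
open scoped commutatorElement Pointwise

variable {G : Type*} [Group G] [Finite G] {T K : Subgroup G}

/-- An odd element of a component outside its two-core has order three and moves every nontrivial element of `W_K`. -/
theorem exists_generator (hK : IsJComponent T K) :
    ∃ d ∈ K, d ^ 3 = 1 ∧ d ∉ pCoreOf 2 K ∧ (∀ k ∈ K, ∃ n : ℕ, ∃ q ∈ pCoreOf 2 K, k = d ^ n * q) ∧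
      (∀ q ∈ pCoreOf 2 K, ∀ w ∈ wOf K, q * w = w * q) ∧ (∀ w ∈ wOf K, d * w * d⁻¹ = w → w = 1) := by
  haveI : Fact (Nat.Prime 3) := ⟨Nat.prime_three⟩
  obtain ⟨hgen, -, hidx, -, h4, hW2⟩ := hK
  set Q := pCoreOf 2 K with hQ
  haveI : (Q.subgroupOf K).Normal := normal_subgroupOf_of_le_normalizer (H72.le_normalizer_pCoreOf 2 K)
  obtain ⟨d, ⟨hd, hdo⟩, hdQ⟩ : ∃ d ∈ {g : G | g ∈ K ∧ Odd (orderOf g)}, d ∉ Q := by
    by_contra hno
    push Not at hno
    have hle : K ≤ Q := by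
      conv_lhs => rw [← hgen]
      rw [closure_le]
      exact fun g hg => hno g hg
    exact not_two_group hidx ((H72.pCoreOf_isPGroup 2 K).to_le hle)
  have hd3 : d ^ 3 = 1 := by
    have h1 := (Q.subgroupOf K).pow_index_mem ⟨d, hd⟩
    rw [show (Q.subgroupOf K).index = 3 from hidx, mem_subgroupOf] at h1
    exact JC.odd_pow_three (H72.pCoreOf_isPGroup 2 K) hdo (by simpa using h1)
  have hdec : ∀ k ∈ K, ∃ n : ℕ, ∃ q ∈ Q, k = d ^ n * q := by
    intro k hk
    set φ := QuotientGroup.mk' (Q.subgroupOf K)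
    have hc : Nat.card (↥K ⧸ Q.subgroupOf K) = 3 := hidx
    have hd1 : φ ⟨d, hd⟩ ≠ 1 := fun h => hdQ (mem_subgroupOf.mp ((QuotientGroup.eq_one_iff _).mp h))
    have hm := mem_powers_iff_mem_zpowers.mpr (mem_zpowers_of_prime_card hc hd1 (g' := φ ⟨k, hk⟩))
    obtain ⟨n, hn⟩ := hm
    have hn' : φ (⟨d, hd⟩ ^ n) = φ ⟨k, hk⟩ := by rw [map_pow]; exact hn
    refine ⟨n, (d ^ n)⁻¹ * k, ?_, by group⟩
    simpa [mem_subgroupOf] using QuotientGroup.eq.mp hn'
  set U := omegaCenterOf Q with hU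
  haveI : IsMulCommutative ↥(Q ⊓ centralizer (Q : Set G)) :=
    le_centralizer_iff_isMulCommutative.mp fun x hx y hy => hx.2 y hy.1
  have hUe : IsElementaryAbelian 2 U := H34.omegaOne_isElementaryAbelian
  haveI := hUe.1
  have hUc : ∀ u ∈ U, ∀ q ∈ Q, q * u = u * q := fun u hu q hq => (H34.omegaOne_le _ hu).2 q hq
  have hUn : ∀ {g}, g ∈ normalizer (K : Set G) → ∀ u ∈ U, g * u * g⁻¹ ∈ U := by
    intro g hg u hu
    have h1 : U.map (MulAut.conj g).toMonoidHom = U := by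
      rw [hU, map_omegaCenterOf (MulAut.conj g).injective, hQ, map_pCoreOf (MulAut.conj g).injective]
      congr 2
      exact mem_normalizer_iff_map_conj_eq.mp hg
    exact h1.le ⟨u, hu, rfl⟩
  have hdN : d ∈ normalizer (K : Set G) := le_normalizer hd
  -- every element of `W` is a commutator with `d`
  let ν : ↥U →* ↥U := MonoidHom.mk'
    (fun u => (⟨(u : G) * (d * (u : G)⁻¹ * d⁻¹), mul_mem u.2 (hUn hdN _ (inv_mem u.2))⟩ : ↥U)) fun u v =>
      Subtype.ext (by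
        simp only [Subgroup.coe_mul]
        calc (u : G) * v * (d * ((u : G) * v)⁻¹ * d⁻¹)
            = (u : G) * v * ((d * (v : G)⁻¹ * d⁻¹) * (d * (u : G)⁻¹ * d⁻¹)) := by group
          _ = (u : G) * v * ((d * (u : G)⁻¹ * d⁻¹) * (d * (v : G)⁻¹ * d⁻¹)) := by
            rw [setLike_mul_comm (s := U) (hUn hdN _ (inv_mem v.2)) (hUn hdN _ (inv_mem u.2))]
          _ = (u : G) * (v * (d * (u : G)⁻¹ * d⁻¹)) * (d * (v : G)⁻¹ * d⁻¹) := by group
          _ = _ := by rw [setLike_mul_comm (s := U) v.2 (hUn hdN _ (inv_mem u.2))]; group)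
  have hWr : wOf K ≤ ν.range.map U.subtype := by
    refine commutator_le.mpr fun u hu g hg => ?_
    obtain ⟨n, q, hq, rfl⟩ := hdec g hg
    clear hg
    have : ⁅u, d ^ n * q⁆ = ⁅u, d ^ n⁆ := by
      calc ⁅u, d ^ n * q⁆ = u * d ^ n * (q * u⁻¹ * q⁻¹) * (d ^ n)⁻¹ := by rw [commutatorElement_def]; group
        _ = _ := by rw [hUc _ (inv_mem hu) q hq, mul_inv_cancel_right, commutatorElement_def]
    rw [this]
    clear this
    induction n generalizing u with
    | zero => simp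
    | succ n ih =>
      have e : ⁅u, d ^ (n + 1)⁆ = ((u : G) * (d * u⁻¹ * d⁻¹)) * ⁅d * u * d⁻¹, d ^ n⁆ := by
        rw [commutatorElement_def, commutatorElement_def, pow_succ]; group
      rw [e]
      exact mul_mem ⟨ν ⟨u, hu⟩, ⟨_, rfl⟩, rfl⟩ (ih _ (hUn hdN u hu))
  refine ⟨d, hd, hd3, hdQ, hdec, fun q hq w hw => hUc w ?_ q hq, ?_⟩
  · obtain ⟨_, ⟨u, rfl⟩, rfl⟩ := hWr hw
    exact (ν u).2
  · intro w hw hfix
    obtain ⟨_, ⟨u, rfl⟩, rfl⟩ := hWr hw
    set w := U.subtype (ν u) with hw'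
    have hfix2 : d ^ 2 * w * (d ^ 2)⁻¹ = w := by
      calc d ^ 2 * w * (d ^ 2)⁻¹ = d * (d * w * d⁻¹) * d⁻¹ := by rw [pow_two]; group
        _ = _ := by rw [hfix, hfix]
    have hwdef : w = (u : G) * (d * (u : G)⁻¹ * d⁻¹) := rfl
    have h1 : w * (d * w * d⁻¹) * (d ^ 2 * w * (d ^ 2)⁻¹) = 1 := by
      rw [hwdef]
      calc (u : G) * (d * (u : G)⁻¹ * d⁻¹) * (d * ((u : G) * (d * (u : G)⁻¹ * d⁻¹)) * d⁻¹) *
            (d ^ 2 * ((u : G) * (d * (u : G)⁻¹ * d⁻¹)) * (d ^ 2)⁻¹)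
          = (u : G) * (d ^ 3 * (u : G)⁻¹ * (d ^ 3)⁻¹) := by rw [pow_two, pow_three']; group
        _ = 1 := by rw [hd3]; group
    rw [hfix, hfix2] at h1
    rwa [hW2 w hw, one_mul] at h1

/-- The decomposition of `Ω₁(Z(J(T)))`. -/
theorem omega_center_split (hT : IsPGroup 2 T) (hK : IsJComponent T K) {Z₀ : Subgroup G}
    (hZ₀ : Z₀ = omegaCenterOf (thompsonSubgroupOf 2 T)) :
    Nat.card ↥(Z₀ ⊓ wOf K) = 2 ∧
      (Z₀ ⊓ ((K ⊔ thompsonSubgroupOf 2 T) ⊓ centralizer ((K ⊔ thompsonSubgroupOf 2 T : Subgroup G) : Set G))) ⊔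
        (Z₀ ⊓ wOf K) = Z₀ := by
  haveI : Fact (Nat.Prime 2) := ⟨Nat.prime_two⟩
  obtain ⟨d, hd, hd3, hdQ, hdec, hQW, hfpf⟩ := exists_generator hK
  obtain ⟨hgen, hKJ, hidx, hP2, h4, hW2⟩ := hK
  set J := thompsonSubgroupOf 2 T with hJ
  set Q := pCoreOf 2 K with hQ
  set W := wOf K with hW
  set X := K ⊔ J with hX
  have hJK : J ≤ normalizer (K : Set G) := by
    have := normalizer_commutator_ge_right (H₁ := K) (H₂ := J)
    rwa [hKJ] at this
  have hJ2 : IsPGroup 2 J := hT.to_le (H34.thompsonSubgroupOf_le _)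
  have hQN : normalizer (K : Set G) ≤ normalizer (Q : Set G) := by
    intro g hg
    rw [mem_normalizer_iff_map_conj_eq] at hg ⊢
    exact (map_pCoreOf (MulAut.conj g).injective K).trans (congrArg (pCoreOf 2) hg)
  have hXK : X ≤ normalizer (K : Set G) := sup_le le_normalizer hJK
  have hXW : X ≤ normalizer (W : Set G) := hXK.trans (normalizer_le_normalizer_wOf K)
  have hWQ : W ≤ Q := by
    refine commutator_le.mpr fun u hu k hk => ?_
    have huQ : u ∈ Q := ((H34.omegaOne_le _).trans inf_le_left) hu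
    rw [commutatorElement_def, mul_assoc u, mul_assoc u]
    exact mul_mem huQ ((mem_normalizer_iff.mp (H72.le_normalizer_pCoreOf 2 K hk) _).mp (inv_mem huQ))
  have hQK : Q ≤ K := H72.pCoreOf_le 2 K
  have hWe : IsElementaryAbelian 2 W := ⟨le_centralizer_iff_isMulCommutative.mp fun x hx y hy =>
    hQW y (hWQ hy) x hx, fun w hw => by rw [pow_two]; exact hW2 w hw⟩
  haveI := hWe.1
  -- the elements of `X` centralizing `K` modulo `Q`
  let M2 : Subgroup G :=
    { carrier := {y | y ∈ normalizer (K : Set G) ∧ ∀ k ∈ K, k⁻¹ * (y * k * y⁻¹) ∈ Q}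
      mul_mem' := by
        rintro x y ⟨hx, hx'⟩ ⟨hy, hy'⟩
        refine ⟨mul_mem hx hy, fun k hk => ?_⟩
        have hk' : y * k * y⁻¹ ∈ K := (mem_normalizer_iff.mp hy k).mp hk
        have := mul_mem (hy' k hk) (hx' _ hk')
        rw [show k⁻¹ * (y * k * y⁻¹) * ((y * k * y⁻¹)⁻¹ * (x * (y * k * y⁻¹) * x⁻¹)) =
          k⁻¹ * (x * y * k * (x * y)⁻¹) by group] at this
        exact this
      one_mem' := ⟨one_mem _, fun k _ => by simp⟩
      inv_mem' := by
        rintro x ⟨hx, hx'⟩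
        refine ⟨inv_mem hx, fun k hk => ?_⟩
        have hk' : x⁻¹ * k * x⁻¹⁻¹ ∈ K := (mem_normalizer_iff.mp (inv_mem hx) k).mp hk
        have := inv_mem (hx' _ hk')
        rw [show ((x⁻¹ * k * x⁻¹⁻¹)⁻¹ * (x * (x⁻¹ * k * x⁻¹⁻¹) * x⁻¹))⁻¹ = k⁻¹ * (x⁻¹ * k * x⁻¹⁻¹) by group] at this
        exact this }
  -- two-elements of `M2` fix `W`
  have hact : ∀ n : ℕ, ∀ w ∈ W, d ^ n * w * (d ^ n)⁻¹ = w → w = 1 ∨ 3 ∣ n := by
    intro n w hw h
    rcases (show n % 3 = 0 ∨ n % 3 = 1 ∨ n % 3 = 2 by omega) with h3 | h3 | h3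
    · exact Or.inr (Nat.dvd_of_mod_eq_zero h3)
    · left
      rw [pow_eq_pow_mod n hd3, h3, pow_one] at h
      exact hfpf w hw h
    · left
      rw [pow_eq_pow_mod n hd3, h3, pow_two] at h
      refine hfpf w hw ?_
      calc d * w * d⁻¹ = d * (d * d * w * (d * d)⁻¹) * d⁻¹ := by rw [h]
        _ = d ^ 3 * w * (d ^ 3)⁻¹ := by rw [pow_three']; group
        _ = w := by rw [hd3]; group
  have hdW : ∀ w ∈ W, d * w * d⁻¹ ∈ W := fun w hw => (mem_normalizer_iff.mp (hXW (mem_sup_left hd)) w).mp hw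
  have horb : ∀ w ∈ W, w ≠ 1 → ∀ v ∈ W, v ≠ 1 → ∃ n : ℕ, d ^ n * w * (d ^ n)⁻¹ = v := by
    intro w hw hw1 v hv hv1
    by_contra hno
    push Not at hno
    have h1 := hdW w hw
    have h2 := hdW _ h1
    have e2 : d * (d * w * d⁻¹) * d⁻¹ = d ^ 2 * w * (d ^ 2)⁻¹ := by rw [pow_two]; group
    have n0 : w ≠ v := by simpa using hno 0
    have n1 : d * w * d⁻¹ ≠ v := by simpa using hno 1
    have n2 : d * (d * w * d⁻¹) * d⁻¹ ≠ v := fun e => hno 2 (e2 ▸ e)
    have m1 : d * w * d⁻¹ ≠ w := fun e => hw1 (hfpf w hw e)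
    have m2 : d * (d * w * d⁻¹) * d⁻¹ ≠ w := fun e => by
      rcases hact 2 w hw (e2 ▸ e) with h | h
      · exact hw1 h
      · omega
    have m3 : d * (d * w * d⁻¹) * d⁻¹ ≠ d * w * d⁻¹ := fun e => m1 (mul_left_cancel (mul_right_cancel e))
    have o1 : d * w * d⁻¹ ≠ 1 := fun e => hw1 (conj_eq_one_iff.mp e)
    have o2 : d * (d * w * d⁻¹) * d⁻¹ ≠ 1 := fun e => o1 (conj_eq_one_iff.mp e)
    classical
    haveI : Fintype ↥W := Fintype.ofFinite _
    have hfive := Finset.card_le_univ ({⟨1, one_mem W⟩, ⟨v, hv⟩, ⟨w, hw⟩, ⟨_, h1⟩, ⟨_, h2⟩} : Finset ↥W)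
    rw [← Nat.card_eq_fintype_card, h4] at hfive
    simp [Subtype.ext_iff, Ne.symm hw1, Ne.symm hv1, Ne.symm o1, Ne.symm o2, Ne.symm n0, Ne.symm n1, Ne.symm n2,
      Ne.symm m1, Ne.symm m2, Ne.symm m3] at hfive
  have hcomm : ∀ y ∈ M2, ∀ n : ℕ, ∀ w ∈ W, y * (d ^ n * w * (d ^ n)⁻¹) * y⁻¹ =
      d ^ n * (y * w * y⁻¹) * (d ^ n)⁻¹ := by
    intro y hy n w hw
    have hyw : y * w * y⁻¹ ∈ W := (mem_normalizer_iff.mp (normalizer_le_normalizer_wOf K hy.1) w).mp hw
    set q := (d ^ n)⁻¹ * (y * d ^ n * y⁻¹) with hq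
    have hqQ : q ∈ Q := hy.2 _ (pow_mem hd n)
    calc y * (d ^ n * w * (d ^ n)⁻¹) * y⁻¹ = d ^ n * (q * (y * w * y⁻¹)) * q⁻¹ * (d ^ n)⁻¹ := by rw [hq]; group
      _ = _ := by rw [hQW q hqQ _ hyw]; group
  have htriv : ∀ R : Subgroup G, IsPGroup 2 R → R ≤ M2 → R ≤ centralizer (W : Set G) := by
    intro R hR hRM r hr w hw
    refine (mul_inv_eq_iff_eq_mul.mp ?_).symm
    by_contra hne
    have hw1 : w ≠ 1 := fun e => hne (by rw [e]; group)
    have hrw : ∀ v ∈ W, r * v * r⁻¹ ∈ W := fun v hv =>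
      (mem_normalizer_iff.mp (normalizer_le_normalizer_wOf K (hRM hr).1) v).mp hv
    obtain ⟨i, hi⟩ := horb w hw hw1 _ (hrw w hw) (fun e => hw1 (conj_eq_one_iff.mp e))
    have hm : ∀ m : ℕ, r ^ m * w * (r ^ m)⁻¹ = d ^ (i * m) * w * (d ^ (i * m))⁻¹ := by
      intro m
      induction m with
      | zero => simp
      | succ m ih =>
        calc r ^ (m + 1) * w * (r ^ (m + 1))⁻¹ = r * (r ^ m * w * (r ^ m)⁻¹) * r⁻¹ := by rw [pow_succ']; group
          _ = d ^ (i * m) * (r * w * r⁻¹) * (d ^ (i * m))⁻¹ := by rw [ih, hcomm r (hRM hr) _ w hw]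
          _ = _ := by
            rw [← hi, show i * (m + 1) = i * m + i by ring, pow_add]
            group
    obtain ⟨k, hk⟩ := hR ⟨r, hr⟩
    have hr2 : r ^ 2 ^ k = 1 := by simpa using congrArg Subtype.val hk
    have h1 := hm (2 ^ k)
    rw [hr2] at h1
    rcases hact (i * 2 ^ k) w hw (by rw [← h1]; group) with h | h
    · exact hw1 h
    · obtain ⟨j, hj⟩ := (Nat.Coprime.pow_right k (by decide : Nat.Coprime 3 2)).dvd_of_dvd_mul_right h
      rw [hj, pow_mul, hd3, one_pow, one_mul, inv_one, mul_one] at hi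
      exact hne hi.symm
  -- a maximal elementary abelian subgroup not centralizing `K` modulo `Q`
  obtain ⟨A, hA, a, haA, haM⟩ : ∃ A : Subgroup G, (A ≤ T ∧ IsElementaryAbelian 2 A ∧
      ∀ B ≤ T, IsElementaryAbelian 2 B → Nat.card B ≤ Nat.card A) ∧ ∃ a ∈ A, a ∉ M2 := by
    by_contra hno
    push Not at hno
    have hJM : J ≤ M2 := by
      rw [hJ, H34.thompsonSubgroupOf_eq]
      exact sSup_le fun A hA x hx => hno A hA x hx
    refine not_two_group hidx ((H72.pCoreOf_isPGroup 2 K).to_le ?_)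
    conv_lhs => rw [← hKJ]
    rw [commutator_le]
    intro k hk j hj
    have h1 := (hJM hj).2 _ (inv_mem hk)
    rw [show ⁅k, j⁆ = k⁻¹⁻¹ * (j * k⁻¹ * j⁻¹) by rw [commutatorElement_def]; group]
    exact h1
  haveI := hA.2.1.1
  have haJ : a ∈ J := by rw [hJ, H34.thompsonSubgroupOf_eq]; exact (le_sSup hA : A ≤ _) haA
  have hAJ : A ≤ J := by rw [hJ, H34.thompsonSubgroupOf_eq]; exact le_sSup hA
  have haa : a * a = 1 := by rw [← pow_two]; exact hA.2.1.2 a haA
  haveI : (Q.subgroupOf K).Normal := normal_subgroupOf_of_le_normalizer (H72.le_normalizer_pCoreOf 2 K)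
  -- elements of `J` centralize or invert `K` modulo `Q`
  have hdich : ∀ y ∈ normalizer (K : Set G), (∃ q ∈ Q, y * d * y⁻¹ = d * q) ∨ (∃ q ∈ Q, y * d * y⁻¹ = d ^ 2 * q) := by
    intro y hy
    obtain ⟨n, q, hq, he⟩ := hdec _ ((mem_normalizer_iff.mp hy d).mp hd)
    rw [pow_eq_pow_mod n hd3] at he
    rcases (show n % 3 = 0 ∨ n % 3 = 1 ∨ n % 3 = 2 by omega) with h3 | h3 | h3 <;> rw [h3] at he
    · exfalso
      refine hdQ ?_
      have := (mem_normalizer_iff.mp (inv_mem (hQN hy)) q).mp hq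
      rw [show y⁻¹ * q * y⁻¹⁻¹ = d by
        rw [pow_zero, one_mul] at he
        rw [← he]; group] at this
      exact this
    · exact Or.inl ⟨q, hq, by rwa [pow_one] at he⟩
    · exact Or.inr ⟨q, hq, he⟩
  have hM2mem : ∀ y ∈ normalizer (K : Set G), (∃ q ∈ Q, y * d * y⁻¹ = d * q) → y ∈ M2 := by
    rintro y hy ⟨q₀, hq₀, he⟩
    refine ⟨hy, ?_⟩
    have hpow : ∀ n : ℕ, (d ^ n)⁻¹ * (y * d ^ n * y⁻¹) ∈ Q := by
      intro n
      induction n with
      | zero => simp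
      | succ n ih =>
        have h1 := (mem_normalizer_iff.mp (H72.le_normalizer_pCoreOf 2 K (inv_mem hd)) _).mp ih
        have e : (d ^ (n + 1))⁻¹ * (y * d ^ (n + 1) * y⁻¹) =
            (d⁻¹ * ((d ^ n)⁻¹ * (y * d ^ n * y⁻¹)) * d⁻¹⁻¹) * q₀ := by
          have : q₀ = d⁻¹ * (y * d * y⁻¹) := by rw [he]; group
          rw [this, pow_succ]; group
        rw [e]
        exact mul_mem h1 hq₀
    intro k hk
    obtain ⟨n, q, hq, rfl⟩ := hdec k hk
    have e : (d ^ n * q)⁻¹ * (y * (d ^ n * q) * y⁻¹) = q⁻¹ * ((d ^ n)⁻¹ * (y * d ^ n * y⁻¹)) * (y * q * y⁻¹) := by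
      group
    rw [e]
    exact mul_mem (mul_mem (inv_mem hq) (hpow n)) ((mem_normalizer_iff.mp (hQN hy) q).mp hq)
  have haN : a ∈ normalizer (K : Set G) := hJK haJ
  obtain ⟨qa, hqa, hainv⟩ : ∃ q ∈ Q, a * d * a⁻¹ = d ^ 2 * q :=
    (hdich a haN).resolve_left fun h => haM (hM2mem a haN h)
  have hsplit : ∀ y ∈ J, y ∉ M2 → a * y ∈ M2 := by
    intro y hy hyM
    obtain ⟨q, hq, he⟩ := (hdich y (hJK hy)).resolve_left fun h => hyM (hM2mem y (hJK hy) h)
    refine hM2mem _ (mul_mem haN (hJK hy)) ⟨(d ^ 2)⁻¹ * qa * d ^ 2 * qa * (a * q * a⁻¹), ?_, ?_⟩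
    · refine mul_mem (mul_mem ?_ hqa) ((mem_normalizer_iff.mp (hQN haN) q).mp hq)
      have := (mem_normalizer_iff.mp (H72.le_normalizer_pCoreOf 2 K (inv_mem (pow_mem hd 2))) qa).mp hqa
      rwa [inv_inv] at this
    · calc a * y * d * (a * y)⁻¹ = a * (y * d * y⁻¹) * a⁻¹ := by group
        _ = (a * d * a⁻¹) * (a * d * a⁻¹) * (a * q * a⁻¹) := by rw [he, pow_two]; group
        _ = d ^ 3 * d * ((d ^ 2)⁻¹ * qa * d ^ 2 * qa * (a * q * a⁻¹)) := by
          rw [hainv]; simp only [mul_assoc, pow_succ, pow_zero, one_mul, mul_inv_rev, inv_mul_cancel_left, mul_inv_cancel_left]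
        _ = _ := by rw [hd3, one_mul]
  -- conjugation preserves `M2`
  have hM2n : ∀ y ∈ normalizer (K : Set G), ∀ m ∈ M2, y * m * y⁻¹ ∈ M2 := by
    intro y hy m hm
    refine ⟨mul_mem (mul_mem hy hm.1) (inv_mem hy), fun k hk => ?_⟩
    have hk' : y⁻¹ * k * y⁻¹⁻¹ ∈ K := (mem_normalizer_iff.mp (inv_mem hy) k).mp hk
    have h1 := (mem_normalizer_iff.mp (hQN hy) _).mp (hm.2 _ hk')
    rw [show y * ((y⁻¹ * k * y⁻¹⁻¹)⁻¹ * (m * (y⁻¹ * k * y⁻¹⁻¹) * m⁻¹)) * y⁻¹ =
      k⁻¹ * (y * m * y⁻¹ * k * (y * m * y⁻¹)⁻¹) by group] at h1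
    exact h1
  set R := pCoreOf 2 X with hR
  have hRX : R ≤ X := H72.pCoreOf_le 2 X
  have hJ0R : (J ⊓ M2) ⊔ Q ≤ R := by
    refine H72.le_pCoreOf (sup_le (inf_le_left.trans le_sup_right) (hQK.trans le_sup_left)) ?_ ?_
    · refine sup_le ?_ ?_
      · intro k hk
        refine mem_normalizer_of_conj_mem fun z hz => ?_
        have hle : (J ⊓ M2) ⊔ Q ≤ ((J ⊓ M2) ⊔ Q).comap (MulAut.conj k).toMonoidHom := by
          refine sup_le (fun j hj => ?_) fun q hq => ?_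
          · show k * j * k⁻¹ ∈ (J ⊓ M2) ⊔ Q
            have e : k * j * k⁻¹ = j * (j⁻¹ * (k * j * k⁻¹)) := by group
            rw [e]
            refine mul_mem (mem_sup_left hj) (mem_sup_right ?_)
            have e2 : j⁻¹ * (k * j * k⁻¹) = j⁻¹ * k * j⁻¹⁻¹ * k⁻¹ := by group
            rw [e2]
            have h3 : k⁻¹ * (j⁻¹ * k * j⁻¹⁻¹) ∈ Q := (M2.inv_mem hj.2).2 _ hk
            have h4 := (mem_normalizer_iff.mp (H72.le_normalizer_pCoreOf 2 K hk) _).mp h3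
            rw [show k * (k⁻¹ * (j⁻¹ * k * j⁻¹⁻¹)) * k⁻¹ = j⁻¹ * k * j⁻¹⁻¹ * k⁻¹ by group] at h4
            exact h4
          · exact mem_sup_right ((mem_normalizer_iff.mp (H72.le_normalizer_pCoreOf 2 K hk) q).mp hq)
        exact hle hz
      · intro y hy
        refine mem_normalizer_of_conj_mem fun z hz => ?_
        have hle : (J ⊓ M2) ⊔ Q ≤ ((J ⊓ M2) ⊔ Q).comap (MulAut.conj y).toMonoidHom := by
          refine sup_le (fun j hj => ?_) fun q hq => ?_
          · exact mem_sup_left (show y * j * y⁻¹ ∈ J ⊓ M2 from ⟨(mul_mem (mul_mem hy hj.1) (inv_mem hy) : y * j * y⁻¹ ∈ J), hM2n y (hJK hy) j hj.2⟩)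
          · exact mem_sup_right ((mem_normalizer_iff.mp (hQN (hJK hy)) q).mp hq)
        exact hle hz
    · exact (hJ2.to_le inf_le_left).to_sup_of_normal_right' (H72.pCoreOf_isPGroup 2 K)
        (fun j hj => hQN hj.2.1)
  have hRQ : R ⊓ K ≤ Q :=
    H72.le_pCoreOf inf_le_right (le_trans (le_inf (le_sup_left.trans (H72.le_normalizer_pCoreOf 2 X)) le_normalizer)
      inf_normalizer_le_normalizer_inf) ((H72.pCoreOf_isPGroup 2 X).to_le inf_le_left)
  have hRM : R ≤ M2 := by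
    intro r hr
    refine ⟨hXK (hRX hr), fun k hk => hRQ ⟨?_, ?_⟩⟩
    · have h1 := (mem_normalizer_iff.mp (H72.le_normalizer_pCoreOf 2 X (inv_mem (mem_sup_left hk : k ∈ X))) r).mp hr
      have h2 : k⁻¹ * r * k⁻¹⁻¹ * r⁻¹ ∈ R := mul_mem h1 (inv_mem hr)
      rwa [show k⁻¹ * r * k⁻¹⁻¹ * r⁻¹ = k⁻¹ * (r * k * r⁻¹) by group] at h2
    · exact (mul_mem (inv_mem hk) ((mem_normalizer_iff.mp (hXK (hRX hr)) k).mp hk) : k⁻¹ * (r * k * r⁻¹) ∈ K)
  have hRW : R ≤ centralizer (W : Set G) := htriv R (H72.pCoreOf_isPGroup 2 X) hRM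
  have hJ0W : ∀ y ∈ J, y ∈ M2 → ∀ w ∈ W, w * y = y * w := fun y hy hyM w hw =>
    hRW (hJ0R (mem_sup_left ⟨hy, hyM⟩)) w hw
  -- the fixed points of `a` on `W`
  set Ca := W ⊓ centralizer ({a} : Set G) with hCadef
  have haWW : ∀ w ∈ W, a * w * a⁻¹ ∈ W := fun w hw => (mem_normalizer_iff.mp (hXW (mem_sup_right haJ)) w).mp hw
  have hCa2 : Nat.card ↥Ca = 2 := by
    have hne : Ca ≠ W := by
      intro he
      obtain ⟨w, hw, hw1⟩ : ∃ w ∈ W, w ≠ 1 := by
        by_contra hno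
        push Not at hno
        rw [(eq_bot_iff_forall W).mpr hno, card_bot] at h4
        omega
      refine hw1 (hfpf w hw ?_)
      have hfix : ∀ v ∈ W, a * v * a⁻¹ = v := fun v hv => by
        rw [← mem_centralizer_singleton_iff.mp ((he.ge hv).2), mul_inv_cancel_right]
      have h2 := hfix _ (hdW w hw)
      have e : a * (d * w * d⁻¹) * a⁻¹ = (a * d * a⁻¹) * (a * w * a⁻¹) * (a * d * a⁻¹)⁻¹ := by group
      rw [e, hfix w hw, hainv] at h2
      have e2 : d ^ 2 * qa * w * (d ^ 2 * qa)⁻¹ = d ^ 2 * w * (d ^ 2)⁻¹ := by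
        calc d ^ 2 * qa * w * (d ^ 2 * qa)⁻¹ = d ^ 2 * (qa * w * qa⁻¹) * (d ^ 2)⁻¹ := by group
          _ = _ := by rw [hQW qa hqa w hw, mul_inv_cancel_right]
      rw [e2] at h2
      have e3 : d * w * d⁻¹ = d * (d ^ 2 * w * (d ^ 2)⁻¹) * d⁻¹ ^ 1 → d * w * d⁻¹ = w := fun h => by
        rw [h]
        calc d * (d ^ 2 * w * (d ^ 2)⁻¹) * d⁻¹ ^ 1 = d ^ 3 * w * (d ^ 3)⁻¹ := by rw [pow_two, pow_three']; group
          _ = w := by rw [hd3]; group
      have h3 : d * (d * w * d⁻¹) * d⁻¹ = d ^ 2 * w * (d ^ 2)⁻¹ := by rw [pow_two]; group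
      rw [h2] at h3
      exact mul_left_cancel (mul_right_cancel h3)
    have hne1 : Ca ≠ ⊥ := by
      intro he
      obtain ⟨w, hw, hw1⟩ : ∃ w ∈ W, w ≠ 1 := by
        by_contra hno
        push Not at hno
        rw [(eq_bot_iff_forall W).mpr hno, card_bot] at h4
        omega
      have hu : w * (a * w * a⁻¹) ∈ Ca := ⟨mul_mem hw (haWW w hw), mem_centralizer_singleton_iff.mpr
        (mul_inv_eq_iff_eq_mul.mp (by
          calc a * (w * (a * w * a⁻¹)) * a⁻¹ = (a * w * a⁻¹) * ((a * a) * w * (a * a)⁻¹) := by group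
            _ = _ := by rw [haa, one_mul, inv_one, mul_one, setLike_mul_comm (s := W) (haWW w hw) hw])).symm⟩
      rw [he, mem_bot, mul_eq_one_iff_eq_inv] at hu
      have hwa : a * w * a⁻¹ = w := by
        have := congrArg Inv.inv hu
        rw [inv_inv] at this
        rw [← this]
        exact inv_eq_of_mul_eq_one_left (hW2 w hw)
      have : w ∈ Ca := ⟨hw, mem_centralizer_singleton_iff.mpr (mul_inv_eq_iff_eq_mul.mp hwa).symm⟩
      rw [he, mem_bot] at this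
      exact hw1 this
    have hdvd : Nat.card ↥Ca ∣ 2 ^ 2 := (card_dvd_of_le inf_le_left).trans (by rw [h4]; norm_num)
    obtain ⟨i, hi, hci⟩ := (Nat.dvd_prime_pow Nat.prime_two).mp hdvd
    interval_cases i
    · exact absurd (card_eq_one.mp hci) hne1
    · simpa using hci
    · exact absurd (eq_of_le_of_card_ge inf_le_left (by rw [h4, hci]; norm_num)) hne
  -- two-groups of `X` containing `J`
  have hmax : ∀ S₀ : Subgroup G, IsPGroup 2 S₀ → S₀ ≤ X → J ≤ S₀ → thompsonSubgroupOf 2 S₀ = J ∧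
      ∀ B ≤ S₀, IsElementaryAbelian 2 B → Nat.card B ≤ Nat.card A ∧ (Nat.card A ≤ Nat.card B → B ≤ J) := by
    intro S₀ h1 h2 h3
    obtain ⟨S, hS, hS₀⟩ := exists_sylowTwoIn_ge h1 h2
    have hJS : thompsonSubgroupOf 2 S = J := hP2 S hS (h3.trans hS₀)
    have hJ₀ : thompsonSubgroupOf 2 S₀ = J := by
      rw [← hJS]
      exact H34.thompsonSubgroupOf_eq_of_le (hJS.le.trans h3) hS₀
    refine ⟨hJ₀, fun B hB hBe => ?_⟩
    obtain ⟨D, ⟨hD1, hD2⟩, hDmax⟩ := Set.exists_max_image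
      {A : Subgroup G | A ≤ S₀ ∧ IsElementaryAbelian 2 A} (fun A => Nat.card A) (Set.toFinite _)
      ⟨⊥, bot_le, elem_bot⟩
    have hmem : ∀ B', B' ≤ S₀ → IsElementaryAbelian 2 B' → Nat.card D ≤ Nat.card B' → B' ≤ J := by
      intro B' h4 h5 h6
      rw [← hJ₀, H34.thompsonSubgroupOf_eq]
      exact le_sSup ⟨h4, h5, fun C hC hC' => (hDmax C ⟨hC, hC'⟩).trans h6⟩
    have hDA : Nat.card D ≤ Nat.card A :=
      hA.2.2 D ((hmem D hD1 hD2 le_rfl).trans (H34.thompsonSubgroupOf_le _)) hD2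
    exact ⟨(hDmax B ⟨hB, hBe⟩).trans hDA, fun h => hmem B hB hBe (hDA.trans h)⟩
  set A0 := A ⊓ M2 with hA0
  have hidxA : Nat.card A ≤ 2 * Nat.card A0 := by
    classical
    rw [mul_comm, ← show Nat.card Bool = 2 by simp, ← Nat.card_prod]
    refine Nat.card_le_card_of_injective (fun x : ↥A => if h : (x : G) ∈ M2 then ((⟨x, x.2, h⟩ : ↥A0), true)
      else ((⟨a * x, mul_mem haA x.2, hsplit x (hAJ x.2) h⟩ : ↥A0), false)) fun x x' h => ?_
    simp only at h
    split_ifs at h with h1 h1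
    · exact Subtype.ext (congrArg (fun p : ↥A0 × Bool => (p.1 : G)) h)
    · simp at h
    · simp at h
    · exact Subtype.ext (mul_left_cancel (congrArg (fun p : ↥A0 × Bool => (p.1 : G)) h))
  have hA0e : IsElementaryAbelian 2 A0 := H34.isElementaryAbelian_mono hA.2.1 inf_le_left
  set A' := A0 ⊔ W with hA'
  have hA'e : IsElementaryAbelian 2 A' :=
    H34.isElementaryAbelian_sup hA0e hWe fun x hx w hw => hJ0W x (hAJ hx.1) hx.2 w hw
  have hA'card : Nat.card A ≤ Nat.card A' := by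
    have h1 := H34.card_mul_card_le A0 W
    have h2 : Nat.card ↥(A0 ⊓ W) ≤ 2 := hCa2 ▸ card_le_of_le (fun x hx =>
      ⟨hx.2, mem_centralizer_singleton_iff.mpr (setLike_mul_comm (s := A) hx.1.1 haA)⟩)
    rw [h4] at h1
    nlinarith [h1, h2, hidxA]
  have hA'J : A' ≤ J := by
    have hS0 : IsPGroup 2 ↥(R ⊔ J) := (H72.pCoreOf_isPGroup 2 X).to_sup_of_normal_left' hJ2
      (le_sup_right.trans (H72.le_normalizer_pCoreOf 2 X))
    refine ((hmax _ hS0 (sup_le hRX le_sup_right) le_sup_right).2 A' ?_ hA'e).2 hA'card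
    exact sup_le (inf_le_left.trans (hAJ.trans le_sup_right))
      ((hWQ.trans (le_sup_right.trans hJ0R)).trans le_sup_left)
  have hWJ : W ≤ J := le_sup_right.trans hA'J
  have hZW : Z₀ ⊓ W = Ca := by
    refine le_antisymm (fun w hw => ⟨hw.2, ?l⟩) fun w hw => ⟨?r, hw.1⟩
    case l =>
      rw [hZ₀] at hw
      exact mem_centralizer_singleton_iff.mpr ((H34.omegaOne_le _ hw.1).2 a haJ).symm
    case r =>
      rw [hZ₀]
      refine H34.mem_omegaOne ⟨hWJ hw.1, fun y hy => ?_⟩ (by rw [pow_two]; exact hW2 w hw.1)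
      by_cases hyM : y ∈ M2
      · exact (hJ0W y hy hyM w hw.1).symm
      · have h1 := hRW (hJ0R (mem_sup_left ⟨mul_mem haJ hy, hsplit y hy hyM⟩)) w hw.1
        have h2 := mem_centralizer_singleton_iff.mp hw.2
        refine mul_left_cancel (a := a) ?_
        calc a * (y * w) = (a * y) * w := by group
          _ = w * (a * y) := h1.symm
          _ = a * (w * y) := by rw [← mul_assoc, h2, mul_assoc]
  refine ⟨hZW ▸ hCa2, le_antisymm (sup_le inf_le_left inf_le_left) ?_⟩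
  -- the conjugate of `A` by `d`
  set B := A'.map (MulAut.conj d).toMonoidHom with hB
  set a' := d * a * d⁻¹ with ha'
  have hA'R : A' ≤ R := sup_le (le_trans (le_inf (inf_le_left.trans hAJ) inf_le_right) (le_sup_left.trans hJ0R))
    (hWQ.trans (le_sup_right.trans hJ0R))
  have hdX : d ∈ X := mem_sup_left hd
  have hBR : B ≤ R := (map_mono hA'R).trans
    (mem_normalizer_iff_map_conj_eq.mp (H72.le_normalizer_pCoreOf 2 X hdX)).le
  have hS0 : IsPGroup 2 ↥(R ⊔ J) := (H72.pCoreOf_isPGroup 2 X).to_sup_of_normal_left' hJ2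
    (le_sup_right.trans (H72.le_normalizer_pCoreOf 2 X))
  have hBe : IsElementaryAbelian 2 B := H34.isElementaryAbelian_map hA'e _
  have hBcard : Nat.card A ≤ Nat.card B := by
    rw [hB, card_map_of_injective (MulAut.conj d).injective]; exact hA'card
  have hBJ : B ≤ J := ((hmax _ hS0 (sup_le hRX le_sup_right) le_sup_right).2 B (hBR.trans le_sup_left) hBe).2 hBcard
  have hQJ : Q ≤ normalizer (J : Set G) := by
    have h1 := (hmax _ hS0 (sup_le hRX le_sup_right) le_sup_right).1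
    rw [← h1]
    exact ((le_sup_right.trans hJ0R).trans le_sup_left).trans
      (le_normalizer.trans (H34.normalizer_le_normalizer_thompson _))
  obtain ⟨w₀, hw₀, hw₀1⟩ : ∃ w ∈ Ca, w ≠ 1 := by
    by_contra hno
    push Not at hno
    rw [(eq_bot_iff_forall Ca).mpr hno, card_bot] at hCa2
    omega
  have hw₀' : w₀ ∉ centralizer ({a'} : Set G) := by
    intro h
    have h1 : d⁻¹ * w₀ * d ∈ Ca := by
      refine ⟨?_, mem_centralizer_singleton_iff.mpr ?_⟩
      · have := (mem_normalizer_iff.mp (hXW (inv_mem hdX)) w₀).mp hw₀.1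
        rwa [inv_inv] at this
      · have h2 := mem_centralizer_singleton_iff.mp h
        calc d⁻¹ * w₀ * d * a = d⁻¹ * (w₀ * a') * d := by rw [ha']; group
          _ = d⁻¹ * (a' * w₀) * d := by rw [h2]
          _ = _ := by rw [ha']; group
    have hc : Ca ≤ zpowers w₀ := (eq_of_le_of_card_ge (zpowers_le.mpr hw₀) (by
      rw [hCa2, Nat.card_zpowers, orderOf_eq_prime (by rw [pow_two]; exact hW2 w₀ hw₀.1) hw₀1])).ge
    obtain ⟨m, hm⟩ := mem_zpowers_iff.mp (hc h1)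
    have hsq : w₀ ^ (2 : ℤ) = 1 := by rw [zpow_ofNat, pow_two]; exact hW2 w₀ hw₀.1
    obtain ⟨j, rfl | rfl⟩ := Int.even_or_odd' m
    · rw [zpow_mul, hsq, one_zpow] at hm
      exact hw₀1 (by
        calc w₀ = d * (d⁻¹ * w₀ * d) * d⁻¹ := by group
          _ = 1 := by rw [← hm]; group)
    · rw [zpow_add, zpow_mul, hsq, one_zpow, one_mul, zpow_one] at hm
      refine hw₀1 (hfpf w₀ hw₀.1 ?_)
      calc d * w₀ * d⁻¹ = d * (d⁻¹ * w₀ * d) * d⁻¹ := by rw [← hm]
        _ = w₀ := by group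
  have hZe : IsElementaryAbelian 2 Z₀ := by
    haveI : IsMulCommutative ↥(J ⊓ centralizer (J : Set G)) :=
      le_centralizer_iff_isMulCommutative.mp fun x hx y hy => hx.2 y hy.1
    rw [hZ₀]
    exact H34.omegaOne_isElementaryAbelian
  haveI := hZe.1
  intro z hz
  have hzJ : z ∈ J ∧ z ∈ centralizer (J : Set G) := by rw [hZ₀] at hz; exact H34.omegaOne_le _ hz
  -- `z` lies in the conjugate
  have hzB : z ∈ B := by
    have hz1 : zpowers z ≤ Z₀ := zpowers_le.mpr hz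
    have he : IsElementaryAbelian 2 (B ⊔ zpowers z : Subgroup G) :=
      H34.isElementaryAbelian_sup hBe (H34.isElementaryAbelian_mono hZe hz1)
        (le_centralizer_iff.mp (zpowers_le.mpr (centralizer_le hBJ hzJ.2)))
    have := hA.2.2 _ ((sup_le hBJ (zpowers_le.mpr hzJ.1)).trans (H34.thompsonSubgroupOf_le _)) he
    have heq : B = B ⊔ zpowers z := eq_of_le_of_card_ge le_sup_left (this.trans hBcard)
    exact heq ▸ mem_sup_right (mem_zpowers z)
  haveI := hA'e.1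
  obtain ⟨z', hz', hzz⟩ := hzB
  rw [SetLike.mem_coe, hA', ← SetLike.mem_coe, coe_mul_of_right_le_normalizer_left A0 W
    (fun w hw => centralizer_le_normalizer _ fun x hx => (hJ0W x (hAJ hx.1) hx.2 w hw).symm)] at hz'
  obtain ⟨c₁, hc₁, w₁, hw₁, hcw⟩ := hz'
  have hc₁a : a' * (d * c₁ * d⁻¹) = (d * c₁ * d⁻¹) * a' := by
    have := setLike_mul_comm (s := A) haA hc₁.1
    calc a' * (d * c₁ * d⁻¹) = d * (a * c₁) * d⁻¹ := by rw [ha']; group
      _ = _ := by rw [this, ha']; group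
  obtain ⟨c, hcZ, hca', hzc⟩ : ∃ c ∈ Z₀, c ∈ centralizer ({a'} : Set G) ∧ (z = c ∨ z = c * w₀) := by
    have hw₀Z : w₀ ∈ Z₀ := (hZW.ge hw₀).1
    set v := d * w₁ * d⁻¹ with hv
    have hvW : v ∈ W := hdW w₁ hw₁
    have hzv : z = (d * c₁ * d⁻¹) * v := by
      rw [← hzz, ← hcw, hv]
      show d * (c₁ * w₁) * d⁻¹ = _
      group
    by_cases hvC : v ∈ centralizer ({a'} : Set G)
    · refine ⟨z, hz, ?_, Or.inl rfl⟩
      rw [hzv]
      exact mul_mem (mem_centralizer_singleton_iff.mpr hc₁a.symm) hvC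
    · refine ⟨z * w₀, mul_mem hz hw₀Z, ?_, Or.inr (by rw [mul_assoc, hW2 w₀ hw₀.1, mul_one])⟩
      rw [hzv, mul_assoc]
      refine mul_mem (mem_centralizer_singleton_iff.mpr hc₁a.symm) ?_
      set C' := W ⊓ centralizer ({a'} : Set G) with hC'
      have hC'2 : Nat.card ↥C' = 2 := by
        have e : C' = Ca.map (MulAut.conj d).toMonoidHom := by
          ext u
          constructor
          · intro hu
            refine ⟨d⁻¹ * u * d, ⟨?_, mem_centralizer_singleton_iff.mpr ?_⟩, by simp [mul_assoc]⟩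
            · have := (mem_normalizer_iff.mp (hXW (inv_mem hdX)) u).mp hu.1
              rwa [inv_inv] at this
            · calc d⁻¹ * u * d * a = d⁻¹ * (u * a') * d := by rw [ha']; group
                _ = d⁻¹ * (a' * u) * d := by rw [mem_centralizer_singleton_iff.mp hu.2]
                _ = _ := by rw [ha']; group
          · rintro ⟨u, hu, rfl⟩
            refine ⟨hdW u hu.1, mem_centralizer_singleton_iff.mpr ?_⟩
            show d * u * d⁻¹ * a' = a' * (d * u * d⁻¹)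
            calc d * u * d⁻¹ * a' = d * (u * a) * d⁻¹ := by rw [ha']; group
              _ = d * (a * u) * d⁻¹ := by rw [mem_centralizer_singleton_iff.mp hu.2]
              _ = _ := by rw [ha']; group
        rw [e, card_map_of_injective (MulAut.conj d).injective, hCa2]
      have hidx2 : (C'.subgroupOf W).index = 2 := by
        have := (C'.subgroupOf W).card_mul_index
        rw [Nat.card_congr (subgroupOfEquivOfLe (inf_le_left : C' ≤ W)).toEquiv, hC'2, h4] at this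
        omega
      have := (mul_mem_iff_of_index_two hidx2 (a := ⟨v, hvW⟩) (b := ⟨w₀, hw₀.1⟩)).mpr
        (iff_of_false (fun h => hvC (mem_subgroupOf.mp h).2) (fun h => hw₀' (mem_subgroupOf.mp h).2))
      exact (mem_subgroupOf.mp this).2
  -- the part fixed by `a'` is central
  have hcJ : c ∈ centralizer (J : Set G) := by rw [hZ₀] at hcZ; exact (H34.omegaOne_le _ hcZ).2
  set C := centralizer ({c} : Set G) with hC
  have hCJ : J ≤ C := fun y hy => mem_centralizer_singleton_iff.mpr (hcJ y hy)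
  have ha'C : a' ∈ C := mem_centralizer_singleton_iff.mpr (mem_centralizer_singleton_iff.mp hca').symm
  set e := a * a' with he
  have heC : e ∈ C := mul_mem (hCJ haJ) ha'C
  have hde : ∀ n : ℕ, ∃ q ∈ Q, d ^ n = e ^ n * q := by
    set q₁ := d * qa * d⁻¹ with hq₁
    have hq₁Q : q₁ ∈ Q := (mem_normalizer_iff.mp (H72.le_normalizer_pCoreOf 2 K hd) qa).mp hqa
    have hed : e = d * q₁ := by
      have hai : a⁻¹ = a := inv_eq_of_mul_eq_one_left haa
      calc e = (a * d * a⁻¹) * d⁻¹ := by rw [he, ha', hai]; group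
        _ = _ := by rw [hainv, hq₁, pow_two]; group
    intro n
    induction n with
    | zero => exact ⟨1, one_mem _, by simp⟩
    | succ n ih =>
      obtain ⟨q, hq, hn⟩ := ih
      refine ⟨q₁⁻¹ * (d⁻¹ * q * d), mul_mem (inv_mem hq₁Q) ?_, ?_⟩
      · have := (mem_normalizer_iff.mp (H72.le_normalizer_pCoreOf 2 K (inv_mem hd)) q).mp hq
        rwa [inv_inv] at this
      · rw [pow_succ, hn, pow_succ, hed]; group
  have hKC : K ≤ C := by
    conv_lhs => rw [← hKJ]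
    rw [commutator_le]
    intro k hk j hj
    rw [commutatorElement_def]
    refine mul_mem ?_ (inv_mem (hCJ hj))
    obtain ⟨n, q, hq, rfl⟩ := hdec k hk
    obtain ⟨q', hq', hn⟩ := hde n
    have e' : d ^ n * q * j * (d ^ n * q)⁻¹ = e ^ n * (q' * q * j * (q' * q)⁻¹) * (e ^ n)⁻¹ := by rw [hn]; group
    rw [e']
    exact mul_mem (mul_mem (pow_mem heC n) (hCJ ((mem_normalizer_iff.mp (hQJ (mul_mem hq' hq)) j).mp hj)))
      (inv_mem (pow_mem heC n))
  have hcX : c ∈ X ⊓ centralizer (X : Set G) :=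
    ⟨mem_sup_right ((by rw [hZ₀] at hcZ; exact (H34.omegaOne_le _ hcZ).1) : c ∈ J),
      fun x hx => mem_centralizer_singleton_iff.mp ((sup_le hKC hCJ : X ≤ C) hx)⟩
  rcases hzc with rfl | rfl
  · exact mem_sup_left ⟨hcZ, hcX⟩
  · exact mul_mem (mem_sup_left ⟨hcZ, hcX⟩) (mem_sup_right (hZW.ge hw₀))

end Cfsg.Agent.H74.JB
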