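import Cfsg.Agent.H74.JStraddle
import Cfsg.Agent.H74.JSplit

/-!
Containers of components: the bound on `Ω₁(Z(J(T)))` from two components with different containers.
-/

set_option autoImplicit false

namespace Cfsg.Agent.H74.JB

open Subgroup Cfsg
open scoped commutatorElement Pointwise

variable {G : Type*} [Group G] [Finite G]

omit [Finite G] in
/-- The centralizer of an involution is two-local. -/
theorem centralizer_local {z : G} (h2 : z ^ 2 = 1) (h1 : z ≠ 1) : IsTwoLocal (centralizer ({z} : Set G)) := by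
  haveI : Fact (Nat.Prime 2) := ⟨Nat.prime_two⟩
  have ho : orderOf z = 2 := orderOf_eq_prime h2 h1
  refine ⟨zpowers z, IsPGroup.of_card (n := 1) (by rw [Nat.card_zpowers, ho, pow_one]),
    fun h => h1 (zpowers_eq_bot.mp h), ?_⟩
  refine le_antisymm ((centralizer_eq_iInf _).trans_le ?_) ?_
  · intro x hx
    rw [mem_normalizer_iff_map_conj_eq, MonoidHom.map_zpowers]
    congr 1
    show x * z * x⁻¹ = z
    have hxz : x * z = z * x := by
      have := mem_iInf.mp (mem_iInf.mp hx z) rfl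
      exact mem_centralizer_singleton_iff.mp this
    rw [hxz, mul_inv_cancel_right]
  · intro x hx
    refine mem_centralizer_singleton_iff.mpr ?_
    obtain ⟨i, hi⟩ := mem_zpowers_iff.mp ((mem_normalizer_iff.mp hx z).mp (mem_zpowers z))
    have hsq : z ^ (2 : ℤ) = 1 := by rw [zpow_ofNat]; exact h2
    obtain ⟨j, rfl | rfl⟩ := Int.even_or_odd' i
    · rw [zpow_mul, hsq, one_zpow] at hi
      exact absurd (conj_eq_one_iff.mp hi.symm) h1
    · rw [zpow_add, zpow_mul, hsq, one_zpow, one_mul, zpow_one] at hi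
      exact mul_inv_eq_iff_eq_mul.mp hi.symm

/-- A maximal two-local subgroup is its own normalizer. -/
theorem normalizer_maximal {L : Subgroup G} (hL : IsMaximalTwoLocal L) : normalizer (L : Set G) ≤ L := by
  obtain ⟨D, hD, hD1, hLD⟩ := hL.1
  have hne : pCoreOf 2 L ≠ ⊥ := fun h0 => hD1 (le_bot_iff.mp (h0 ▸
    H72.le_pCoreOf (hLD ▸ le_normalizer) (le_of_eq hLD) hD))
  have hle : normalizer (L : Set G) ≤ normalizer (pCoreOf 2 L : Set G) := by
    intro x hx
    rw [mem_normalizer_iff_map_conj_eq] at hx ⊢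
    exact (map_pCoreOf (MulAut.conj x).injective L).trans (congrArg (pCoreOf 2) hx)
  have := hL.2 _ ⟨_, H72.pCoreOf_isPGroup 2 L, hne, rfl⟩ (H72.le_normalizer_pCoreOf 2 L)
  exact hle.trans this.le

/-- The unique maximal two-local subgroup over `⟨K, J(T)⟩`. -/
structure IsContainer (T K L : Subgroup G) : Prop where
  max : IsMaximalTwoLocal L
  le : K ⊔ thompsonSubgroupOf 2 T ≤ L
  univ : ∀ V : Subgroup G, IsTwoLocal V → K ⊔ thompsonSubgroupOf 2 T ≤ V → V ≤ L
  fam : ∃ T₀ : Subgroup G, thompsonSubgroupOf 2 T₀ = thompsonSubgroupOf 2 T ∧ T₀ ≠ ⊥ ∧ L ∈ jOvergroups T₀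

omit [Finite G] in
/-- A container containing another component's join contains its container. -/
theorem IsContainer.eq_of_le {T K L K' L' : Subgroup G} (h : IsContainer T K L) (h' : IsContainer T K' L')
    (hle : K' ⊔ thompsonSubgroupOf 2 T ≤ L) : L' = L :=
  (h.max.2 L' h'.max.1 (h'.univ L h.max.1 hle)).symm ▸ rfl

/-- Conjugating a component. -/
theorem isJComponent_conj {T K : Subgroup G} (hK : IsJComponent T K) (g : G) :
    IsJComponent (T.map (MulAut.conj g).toMonoidHom) (K.map (MulAut.conj g).toMonoidHom) := by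
  obtain ⟨hgen, hc, hidx, hP2, h4, hW2⟩ := hK
  set e := MulAut.conj g with he
  have hinj : Function.Injective e.toMonoidHom := e.injective
  have hJ : thompsonSubgroupOf 2 (T.map e.toMonoidHom) = (thompsonSubgroupOf 2 T).map e.toMonoidHom :=
    (H34.map_thompsonSubgroupOf e T).symm
  have hback : ∀ X : Subgroup G, (X.map e.toMonoidHom).map e.symm.toMonoidHom = X := fun X => by
    rw [map_map]; conv_rhs => rw [← map_id X]
    congr 1; ext y; simp
  have hfwd : ∀ X : Subgroup G, (X.map e.symm.toMonoidHom).map e.toMonoidHom = X := fun X => by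
    rw [map_map]; conv_rhs => rw [← map_id X]
    congr 1; ext y; simp
  refine ⟨?_, ?_, ?_, ?_, ?_, ?_⟩
  · conv_rhs => rw [← hgen, MonoidHom.map_closure]
    congr 1
    ext z
    constructor
    · rintro ⟨⟨a, ha, rfl⟩, ho⟩
      exact ⟨a, ⟨ha, (orderOf_injective _ hinj a) ▸ ho⟩, rfl⟩
    · rintro ⟨a, ⟨ha, ho⟩, rfl⟩
      exact ⟨⟨a, ha, rfl⟩, (orderOf_injective _ hinj a).symm ▸ ho⟩
  · rw [hJ, ← map_commutator, hc]
  · rw [← map_pCoreOf hinj, relIndex_map_map_of_injective _ _ hinj]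
    exact hidx
  · intro S₁ hS₁ hJS₁
    rw [hJ, ← Subgroup.map_sup] at hS₁
    rw [hJ] at hJS₁ ⊢
    have h5 : IsSylowTwoIn (S₁.map e.symm.toMonoidHom) (K ⊔ thompsonSubgroupOf 2 T) := by
      rw [← hback (K ⊔ thompsonSubgroupOf 2 T)]
      refine ⟨map_mono hS₁.1, hS₁.2.1.map _, ?_⟩
      rw [relIndex_map_map_of_injective _ _ e.symm.injective]
      exact hS₁.2.2
    have h6 := hP2 _ h5 ((hback (thompsonSubgroupOf 2 T)).ge.trans (map_mono hJS₁))
    rw [← H34.map_thompsonSubgroupOf] at h6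
    rw [← hfwd (thompsonSubgroupOf 2 S₁), h6]
  · rw [← map_wOf hinj, card_map_of_injective hinj]; exact h4
  · rw [← map_wOf hinj]
    rintro _ ⟨w, hw, rfl⟩
    rw [← map_mul, hW2 w hw, map_one]

omit [Finite G] in
/-- Components depend only on `J(T)`. -/
theorem isJComponent_congr {T T' K : Subgroup G} (h : thompsonSubgroupOf 2 T' = thompsonSubgroupOf 2 T)
    (hK : IsJComponent T K) : IsJComponent T' K := by
  obtain ⟨a, b, c, d, e⟩ := hK
  exact ⟨a, by rw [h]; exact b, c, by rw [h]; exact d, e⟩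

/-- Conjugating a component by an element normalizing `J(T)`. -/
theorem isJComponent_conj_of_normalizes {T K : Subgroup G} (hK : IsJComponent T K) {g : G}
    (hg : g ∈ normalizer (thompsonSubgroupOf 2 T : Set G)) : IsJComponent T (K.map (MulAut.conj g).toMonoidHom) :=
  isJComponent_congr (by
    rw [← H34.map_thompsonSubgroupOf]
    exact (mem_normalizer_iff_map_conj_eq.mp hg).symm) (isJComponent_conj hK g)

omit [Finite G] in
/-- Conjugating a two-local subgroup. -/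
theorem isTwoLocal_map [Finite G] {L : Subgroup G} (hL : IsTwoLocal L) (g : G) :
    IsTwoLocal (L.map (MulAut.conj g).toMonoidHom) := by
  obtain ⟨D, hD, hD1, rfl⟩ := hL
  refine ⟨D.map (MulAut.conj g).toMonoidHom, hD.map _, fun h0 => hD1 ?_, ?_⟩
  · exact (map_eq_bot_iff_of_injective D (MulAut.conj g).injective).mp h0
  · exact Subgroup.map_normalizer_eq_of_bijective _ (f := (MulAut.conj g).toMonoidHom) (MulAut.conj g).bijective

/-- Conjugating a member of the family of overgroups. -/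
theorem jOvergroups_map {T L : Subgroup G} (h : L ∈ jOvergroups T) (g : G) :
    L.map (MulAut.conj g).toMonoidHom ∈ jOvergroups (T.map (MulAut.conj g).toMonoidHom) := by
  set e := MulAut.conj g with he
  have hinj : Function.Injective e.toMonoidHom := e.injective
  refine ⟨⟨map_mono h.1.1, h.1.2.1.map _, by rw [relIndex_map_map_of_injective _ _ hinj]; exact h.1.2.2⟩, ?_, ?_⟩
  · rw [← H34.map_thompsonSubgroupOf, ← map_pCoreOf hinj]
    exact fun hle => h.2.1 ((map_le_map_iff_of_injective hinj).mp hle)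
  · rw [← map_pCoreOf hinj]
    intro x hx
    refine ⟨e.symm x, h.2.2 fun y hy => e.injective ?_, e.apply_symm_apply x⟩
    rw [map_mul, map_mul, e.apply_symm_apply]
    exact hx _ ⟨y, hy, rfl⟩

/-- Conjugating a container. -/
theorem IsContainer.conj {T K L : Subgroup G} (h : IsContainer T K L) {g : G}
    (hg : g ∈ normalizer (thompsonSubgroupOf 2 T : Set G)) :
    IsContainer T (K.map (MulAut.conj g).toMonoidHom) (L.map (MulAut.conj g).toMonoidHom) := by
  have hJ : (thompsonSubgroupOf 2 T).map (MulAut.conj g).toMonoidHom = thompsonSubgroupOf 2 T :=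
    mem_normalizer_iff_map_conj_eq.mp hg
  have hfwd : ∀ X : Subgroup G,
      (X.map (MulAut.conj g⁻¹).toMonoidHom).map (MulAut.conj g).toMonoidHom = X := fun X => by
    rw [map_map]; conv_rhs => rw [← map_id X]
    congr 1; ext y; simp [mul_assoc]
  have hback : ∀ X : Subgroup G,
      (X.map (MulAut.conj g).toMonoidHom).map (MulAut.conj g⁻¹).toMonoidHom = X := fun X => by
    rw [map_map]; conv_rhs => rw [← map_id X]
    congr 1; ext y; simp [mul_assoc]
  have hle : K.map (MulAut.conj g).toMonoidHom ⊔ thompsonSubgroupOf 2 T ≤ L.map (MulAut.conj g).toMonoidHom := by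
    conv_lhs => rw [← hJ, ← Subgroup.map_sup]
    exact map_mono h.le
  obtain ⟨T₀, hJT₀, hT₀1, hT₀⟩ := h.fam
  refine ⟨⟨isTwoLocal_map h.max.1 g, fun N hN hle' => ?_⟩, hle, fun V hV hle' => ?_,
    ⟨T₀.map (MulAut.conj g).toMonoidHom, by rw [← H34.map_thompsonSubgroupOf, hJT₀, hJ],
      fun h0 => hT₀1 ((map_eq_bot_iff_of_injective T₀ (MulAut.conj g).injective).mp h0), jOvergroups_map hT₀ g⟩⟩
  · have h1 := h.max.2 _ (isTwoLocal_map hN g⁻¹) ((hback L).ge.trans (map_mono hle'))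
    rw [← hfwd N, h1]
  · have h1 := h.univ _ (isTwoLocal_map hV g⁻¹) (by
      rw [← hback (K ⊔ thompsonSubgroupOf 2 T), Subgroup.map_sup, hJ]
      exact map_mono hle')
    exact (hfwd V).ge.trans (map_mono h1)

/-- Distinct components in one overgroup centralize each other's planes. -/
theorem comp_cross (hZN : ZN G) {T L : Subgroup G} (hT1 : T ≠ ⊥) (hLT : L ∈ jOvergroups T) {K K' : Subgroup G}
    (hK : IsJComponent T K) (hKL : K ≤ L) (hK' : IsJComponent T K') (hKL' : K' ≤ L) (hne : K ≠ K') :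
    K ≤ centralizer (wOf K' : Set G) := by
  haveI : Fact (Nat.Prime 2) := ⟨Nat.prime_two⟩
  obtain ⟨P, hP⟩ := exists_sylow_map hLT.1
  have h := jHyp hZN hT1 hLT hP
  obtain ⟨hc, hm, -⟩ := isComp_of_isJComponent hZN hT1 hLT hP hK hKL
  obtain ⟨hc', hm', hw'⟩ := isComp_of_isJComponent hZN hT1 hLT hP hK' hKL'
  have hne' : K.subgroupOf L ≠ K'.subgroupOf L := fun e => hne (by rw [← hm, ← hm', e])
  obtain ⟨-, -, -, hwK, -, A, hA, hmap, hAW⟩ := JC.comp_basic h hc
  obtain ⟨-, -, -, hwK', -, A', hA', -, hAW'⟩ := JC.comp_basic h hc'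
  have S' := JC.setup h
  have hcne : ⁅(H34.holV (H34.omegaZ 2 ↥L)).range, H34.compOf 2 ((thompsonSubgroup 2 ↥L).map
      (H34.holHom (H34.omegaZ 2 ↥L))) A'⁆ ≠ ⁅(H34.holV (H34.omegaZ 2 ↥L)).range, H34.compOf 2
        ((thompsonSubgroup 2 ↥L).map (H34.holHom (H34.omegaZ 2 ↥L))) A⁆ := by
    intro he
    rw [← hAW', ← hAW] at he
    have he' := map_injective SemidirectProduct.inl_injective he
    refine hne' (JC.comp_unique h hc hc' ?_)
    have hU : ∀ X : Subgroup ↥L, ⁅H34.omegaZ 2 ↥L, X⁆ ≤ H34.omegaZ 2 ↥L := fun X =>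
      commutator_le_left _ X
    rw [hwK, hwK']
    have h1 := congrArg (Subgroup.map (H34.omegaZ 2 ↥L).subtype) he'
    rw [subgroupOf_map_subtype, subgroupOf_map_subtype, inf_eq_left.mpr (hU _), inf_eq_left.mpr (hU _)] at h1
    exact h1.symm
  have hx := ff_cross S' (JC.gen h) hA' hA hcne
  intro k hk
  rw [← hw']
  rintro _ ⟨w, hw, rfl⟩
  have hwV : w ∈ H34.omegaZ 2 ↥L := by rw [hwK'] at hw; exact commutator_le_left _ _ hw
  have hf : H34.holHom (H34.omegaZ 2 ↥L) ⟨k, hKL hk⟩ ∈ centralizer ((⁅(H34.holV (H34.omegaZ 2 ↥L)).range,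
      H34.compOf 2 ((thompsonSubgroup 2 ↥L).map (H34.holHom (H34.omegaZ 2 ↥L))) A'⁆ : Subgroup _) : Set _) :=
    (hx (mem_sup_left (hmap ▸ ⟨⟨k, hKL hk⟩, hk, rfl⟩))).2
  rw [← hAW'] at hf
  have hc1 := (JC.comm_iff h hwV ⟨k, hKL hk⟩).mp (hf _ ⟨⟨w, hwV⟩, hwK' ▸ hw, rfl⟩)
  exact congrArg Subtype.val hc1.eq

/-- `C₀(K)`: the part of `Ω₁(Z(J(T)))` central in `⟨K, J(T)⟩`. -/
def cZero (T K : Subgroup G) : Subgroup G :=
  omegaCenterOf (thompsonSubgroupOf 2 T) ⊓ ((K ⊔ thompsonSubgroupOf 2 T) ⊓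
    centralizer ((K ⊔ thompsonSubgroupOf 2 T : Subgroup G) : Set G))

/-- `Z₀(T)` is elementary abelian. -/
theorem z0_elem (T : Subgroup G) : IsElementaryAbelian 2 (omegaCenterOf (thompsonSubgroupOf 2 T)) := by
  haveI : IsMulCommutative ↥(thompsonSubgroupOf 2 T ⊓ centralizer (thompsonSubgroupOf 2 T : Set G)) :=
    le_centralizer_iff_isMulCommutative.mp fun x hx y hy => hx.2 y hy.1
  exact H34.omegaOne_isElementaryAbelian

omit [Finite G] in
/-- Members of `C₀(K)` have centralizers containing `⟨K, J(T)⟩`. -/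
theorem cZero_centralizer {T K : Subgroup G} {c : G} (hc : c ∈ cZero T K) :
    K ⊔ thompsonSubgroupOf 2 T ≤ centralizer ({c} : Set G) := fun x hx =>
  mem_centralizer_singleton_iff.mpr (hc.2.2 x hx)

/-- The split of `Z₀(T)`. -/
theorem z0_split {T K : Subgroup G} (hT : IsPGroup 2 T) (hK : IsJComponent T K) :
    Nat.card ↥(omegaCenterOf (thompsonSubgroupOf 2 T) ⊓ wOf K) = 2 ∧
      cZero T K ⊔ (omegaCenterOf (thompsonSubgroupOf 2 T) ⊓ wOf K) = omegaCenterOf (thompsonSubgroupOf 2 T) ∧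
      cZero T K ⊓ wOf K = ⊥ ∧
      Nat.card ↥(omegaCenterOf (thompsonSubgroupOf 2 T)) = Nat.card ↥(cZero T K) * 2 := by
  obtain ⟨h2, hs⟩ := omega_center_split hT hK rfl
  obtain ⟨d, hd, -, -, -, -, hfpf⟩ := exists_generator hK
  have hdisj : cZero T K ⊓ wOf K = ⊥ := (eq_bot_iff_forall _).mpr fun x hx => hfpf x hx.2 (by
    have h1 := mem_centralizer_singleton_iff.mp (cZero_centralizer hx.1 (mem_sup_left hd))
    rw [h1, mul_inv_cancel_right])
  refine ⟨h2, hs, hdisj, ?_⟩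
  set C := cZero T K with hC
  set W₀ := omegaCenterOf (thompsonSubgroupOf 2 T) ⊓ wOf K with hW₀
  have hN : W₀ ≤ normalizer (C : Set G) := by
    haveI := (z0_elem T).1
    refine le_trans (fun y hy => ?_) (centralizer_le_normalizer _)
    exact mem_centralizer_iff.mpr fun x hx => setLike_mul_comm (s := omegaCenterOf (thompsonSubgroupOf 2 T)) hx.1 hy.1
  have hbot : C.subgroupOf W₀ = ⊥ := by
    refine (eq_bot_iff_forall _).mpr fun x hx => Subtype.ext ?_
    have : (x : G) ∈ C ⊓ wOf K := ⟨hx, x.2.2⟩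
    rw [hdisj] at this
    exact mem_bot.mp this
  have h3 : C.relIndex W₀ = 2 := by rw [relIndex, hbot, index_bot, h2]
  have h4 := (C.subgroupOf (C ⊔ W₀)).card_mul_index
  rw [Nat.card_congr (subgroupOfEquivOfLe (le_sup_left : C ≤ C ⊔ W₀)).toEquiv] at h4
  change Nat.card ↥C * C.relIndex (C ⊔ W₀) = _ at h4
  haveI : (C.subgroupOf (C ⊔ W₀)).Normal := normal_subgroupOf_of_le_normalizer (sup_le le_normalizer hN)
  have h5 : C.relIndex (C ⊔ W₀) = C.relIndex W₀ := by
    refine le_antisymm ?_ (relIndex_le_of_le_right le_sup_right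
      (Subgroup.isFiniteRelIndex_of_finiteIndex (H := C) (K := C ⊔ W₀)).relIndex_ne_zero)
    have hcard := H34.card_mul_card_le C W₀
    have hupper : Nat.card ↥(C ⊔ W₀) ≤ Nat.card C * Nat.card W₀ := by
      have hsub : ∀ x : ↥(C ⊔ W₀), ∃ p : ↥C × ↥W₀, (p.1 : G) * p.2 = x := fun x => by
        have hx : (x : G) ∈ ((C ⊔ W₀ : Subgroup G) : Set G) := x.2
        rw [coe_mul_of_right_le_normalizer_left _ _ hN] at hx
        obtain ⟨a, ha, b, hb, hab⟩ := hx
        exact ⟨(⟨a, ha⟩, ⟨b, hb⟩), hab⟩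
      choose f hf using hsub
      rw [← Nat.card_prod]
      exact Nat.card_le_card_of_injective f fun x y h => Subtype.ext (by rw [← hf x, ← hf y, h])
    rw [h3]
    rw [← h4, h2] at hupper
    exact Nat.le_of_mul_le_mul_left hupper Nat.card_pos
  rw [h5, h3] at h4
  have hs' : C ⊔ W₀ = omegaCenterOf (thompsonSubgroupOf 2 T) := hs
  rw [← hs']
  exact h4.symm

/-- Two components with different containers: `C₀` are disjoint and `|Z₀| ≤ 4`. -/
theorem container_bound {T K K' L L' : Subgroup G} (hT : IsPGroup 2 T) (hK : IsJComponent T K)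
    (hK' : IsJComponent T K') (h : IsContainer T K L) (h' : IsContainer T K' L') (hne : L ≠ L') :
    cZero T K ⊓ cZero T K' = ⊥ ∧ Nat.card ↥(omegaCenterOf (thompsonSubgroupOf 2 T)) ≤ 4 ∧
      Nat.card ↥(cZero T K) ≤ 2 ∧ Nat.card ↥(cZero T K') ≤ 2 := by
  have hdisj : cZero T K ⊓ cZero T K' = ⊥ := by
    refine (eq_bot_iff_forall _).mpr fun c hc => ?_
    by_contra hc1
    have hloc := centralizer_local ((z0_elem T).2 c hc.1.1) hc1
    refine hne (h.eq_of_le h' ?_).symm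
    exact ((cZero_centralizer hc.2).trans (h.univ _ hloc (cZero_centralizer hc.1)))
  obtain ⟨-, -, -, h1⟩ := z0_split hT hK
  obtain ⟨-, -, -, h1'⟩ := z0_split hT hK'
  set Z := omegaCenterOf (thompsonSubgroupOf 2 T) with hZ
  have h2 := H34.card_mul_card_le (cZero T K) (cZero T K')
  rw [hdisj, card_bot, mul_one] at h2
  have h3 : Nat.card ↥(cZero T K ⊔ cZero T K') ≤ Nat.card Z := card_le_of_le (sup_le inf_le_left inf_le_left)
  have hpos : 0 < Nat.card ↥(cZero T K) := Nat.card_pos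
  have h4 : Nat.card ↥(cZero T K') ≤ 2 := Nat.le_of_mul_le_mul_left ((h2.trans h3).trans_eq h1) hpos
  refine ⟨hdisj, by omega, by omega, h4⟩

/-- With two different containers `T` normalizes `K`. -/
theorem normalizes_of_two (hZN : ZN G) {T K K' L L' : Subgroup G} (hT : IsPGroup 2 T) (hT1 : T ≠ ⊥)
    (hK : IsJComponent T K) (hK' : IsJComponent T K') (h : IsContainer T K L) (h' : IsContainer T K' L')
    (hne : L ≠ L') (hLT : L ∈ jOvergroups T) :
    T ≤ normalizer (K : Set G) := by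
  haveI : Fact (Nat.Prime 2) := ⟨Nat.prime_two⟩
  set Z := omegaCenterOf (thompsonSubgroupOf 2 T) with hZ
  have hKL : K ≤ L := le_sup_left.trans h.le
  by_contra hno
  obtain ⟨t, ht, htK⟩ := SetLike.not_le_iff_exists.mp hno
  have htJ : t ∈ normalizer (thompsonSubgroupOf 2 T : Set G) :=
    H34.normalizer_le_normalizer_thompson T (le_normalizer ht)
  obtain ⟨hK₂, hK₂L⟩ := comp_conj_overgroup hZN hT1 hLT hK hKL (hLT.1.1 ht)
  set K₂ := K.map (MulAut.conj t).toMonoidHom with hK₂def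
  have hne₂ : K ≠ K₂ := fun e => htK (mem_normalizer_iff_map_conj_eq.mpr e.symm)
  obtain ⟨hdW, -, -, hcard⟩ := z0_split hT hK
  obtain ⟨hdW₂, -, -, hcard₂⟩ := z0_split hT hK₂
  obtain ⟨w₁, hw₁, hw₁1⟩ : ∃ w ∈ Z ⊓ wOf K, w ≠ 1 := by
    by_contra hh
    push Not at hh
    rw [(eq_bot_iff_forall _).mpr hh, card_bot] at hdW
    omega
  obtain ⟨w₂, hw₂, hw₂1⟩ : ∃ w ∈ Z ⊓ wOf K₂, w ≠ 1 := by
    by_contra hh
    push Not at hh
    rw [(eq_bot_iff_forall _).mpr hh, card_bot] at hdW₂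
    omega
  have hdj : wOf K ⊓ wOf K₂ = ⊥ :=
    (comp_eq_or_disjoint hZN hT1 hLT hK hKL hK₂ hK₂L).resolve_left hne₂
  have hw12 : w₁ ≠ w₂ := fun e => hw₁1 (mem_bot.mp (hdj.le ⟨hw₁.2, e ▸ hw₂.2⟩))
  have hmk : ∀ {X : Subgroup G}, IsJComponent T X → ∀ w ∈ Z, (∀ x ∈ X, w * x = x * w) → w ∈ cZero T X := by
    intro X hX w hw hwX
    have hwJ := H34.omegaOne_le _ hw
    refine ⟨hw, mem_sup_right hwJ.1, fun x hx => ?_⟩
    have hle : X ⊔ thompsonSubgroupOf 2 T ≤ centralizer ({w} : Set G) :=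
      sup_le (fun y hy => mem_centralizer_singleton_iff.mpr (hwX y hy).symm)
        (fun y hy => mem_centralizer_singleton_iff.mpr (hwJ.2 y hy))
    exact mem_centralizer_singleton_iff.mp (hle hx)
  have hc₁ : w₂ ∈ cZero T K := hmk hK w₂ hw₂.1 fun x hx =>
    mem_centralizer_iff.mp (comp_cross hZN hT1 hLT hK hKL hK₂ hK₂L hne₂ hx) w₂ hw₂.2
  have hc₂ : w₁ ∈ cZero T K₂ := hmk hK₂ w₁ hw₁.1 fun x hx =>
    mem_centralizer_iff.mp (comp_cross hZN hT1 hLT hK₂ hK₂L hK hKL hne₂.symm hx) w₁ hw₁.2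
  obtain ⟨hdis, hZ4, hc2, hc2'⟩ := container_bound hT hK hK' h h' hne
  have hcont₂ : IsContainer T K₂ L := by
    have := h.conj htJ
    have eL : L.map (MulAut.conj t).toMonoidHom = L :=
      mem_normalizer_iff_map_conj_eq.mp (le_normalizer (hLT.1.1 ht))
    rw [eL] at this
    exact this
  obtain ⟨hdis₂, -, -, -⟩ := container_bound hT hK₂ hK' hcont₂ h' hne
  have hC2 : Nat.card ↥(cZero T K) = 2 := by
    refine le_antisymm hc2 ?_
    by_contra hlt
    have h1 : Nat.card ↥(cZero T K) = 1 := by have := Nat.card_pos (α := ↥(cZero T K)); omega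
    exact hw₂1 (mem_bot.mp ((card_eq_one.mp h1).le hc₁))
  obtain ⟨hdW', hs', -, hcard'⟩ := z0_split hT hK'
  have hC2' : Nat.card ↥(cZero T K') = 2 := by omega
  obtain ⟨c, hc, hc1⟩ : ∃ c ∈ cZero T K', c ≠ 1 := by
    by_contra hh
    push Not at hh
    rw [(eq_bot_iff_forall _).mpr hh, card_bot] at hC2'
    omega
  haveI := (z0_elem T).1
  -- the four elements of `Z₀`
  have hcases : ∀ x ∈ Z, x = 1 ∨ x = w₁ ∨ x = w₂ ∨ x = w₁ * w₂ := by
    intro x hx
    by_contra hh
    push Not at hh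
    obtain ⟨n1, n2, n3, n4⟩ := hh
    classical
    haveI : Fintype ↥Z := Fintype.ofFinite _
    have hfive := Finset.card_le_univ ({⟨1, one_mem Z⟩, ⟨x, hx⟩, ⟨w₁, hw₁.1⟩, ⟨w₂, hw₂.1⟩,
      ⟨w₁ * w₂, mul_mem hw₁.1 hw₂.1⟩} : Finset ↥Z)
    rw [← Nat.card_eq_fintype_card] at hfive
    have m1 : w₁ * w₂ ≠ 1 := fun e => hw12 (by
      rw [mul_eq_one_iff_eq_inv] at e
      rw [e, inv_eq_of_mul_eq_one_left (by rw [← pow_two]; exact (z0_elem T).2 w₂ hw₂.1)])
    have m2 : w₁ * w₂ ≠ w₁ := fun e => hw₂1 (mul_left_cancel (e.trans (mul_one w₁).symm))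
    have m3 : w₁ * w₂ ≠ w₂ := fun e => hw₁1 (mul_right_cancel (e.trans (one_mul w₂).symm))
    simp [Subtype.ext_iff, Ne.symm hw₁1, Ne.symm hw₂1, Ne.symm n1, n2, n3, n4, hw12, Ne.symm m1, Ne.symm m2,
      Ne.symm m3] at hfive
    have hZ4' : Nat.card ↥Z ≤ 4 := hZ4
    rw [Nat.card_eq_fintype_card] at hZ4'
    omega
  have hcw : c = w₁ * w₂ := by
    rcases hcases c hc.1 with e | e | e | e
    · exact absurd e hc1
    · exact absurd (mem_bot.mp (hdis₂.le ⟨e ▸ hc₂, hc⟩)) hc1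
    · exact absurd (mem_bot.mp (hdis.le ⟨e ▸ hc₁, hc⟩)) hc1
    · exact e
  -- `t` interchanges `w₁` and `w₂`
  have htw : ∀ {x : G} {y : G}, x ∈ Z ⊓ wOf K₂ → x ≠ 1 → y = t * w₁ * t⁻¹ → y = x := by
    intro x y hx hx1 hy
    have hyZ : y ∈ Z ⊓ wOf K₂ := by
      refine ⟨?_, ?_⟩
      · have hm : (thompsonSubgroupOf 2 T).map (MulAut.conj t).toMonoidHom = thompsonSubgroupOf 2 T :=
          mem_normalizer_iff_map_conj_eq.mp htJ
        have h1 : (omegaCenterOf (thompsonSubgroupOf 2 T)).map (MulAut.conj t).toMonoidHom = Z := by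
          rw [map_omegaCenterOf (MulAut.conj t).injective, hm]
        exact h1.le ⟨w₁, hw₁.1, by simp [hy]⟩
      · rw [hK₂def, ← map_wOf (MulAut.conj t).injective]
        exact ⟨w₁, hw₁.2, by simp [hy]⟩
    have hy1 : y ≠ 1 := fun e => hw₁1 (conj_eq_one_iff.mp (hy.symm.trans e))
    have hz : zpowers x = Z ⊓ wOf K₂ := eq_of_le_of_card_ge (zpowers_le.mpr hx) (by
      rw [hdW₂, Nat.card_zpowers, orderOf_eq_prime ((z0_elem T).2 x hx.1) hx1])
    rw [← hz] at hyZ
    obtain ⟨i, rfl⟩ := mem_zpowers_iff.mp hyZ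
    have hsq : x ^ (2 : ℤ) = 1 := by rw [zpow_ofNat]; exact (z0_elem T).2 x hx.1
    obtain ⟨j, rfl | rfl⟩ := Int.even_or_odd' i
    · exact absurd (by rw [zpow_mul, hsq, one_zpow]) hy1
    · rw [zpow_add, zpow_mul, hsq, one_zpow, one_mul, zpow_one]
  have ht1 : t * w₁ * t⁻¹ = w₂ := htw hw₂ hw₂1 rfl
  have hconjZ : ∀ x ∈ Z, t * x * t⁻¹ ∈ Z := by
    intro x hx
    have hm : (thompsonSubgroupOf 2 T).map (MulAut.conj t).toMonoidHom = thompsonSubgroupOf 2 T :=
      mem_normalizer_iff_map_conj_eq.mp htJ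
    have h1 : (omegaCenterOf (thompsonSubgroupOf 2 T)).map (MulAut.conj t).toMonoidHom = Z := by
      rw [map_omegaCenterOf (MulAut.conj t).injective, hm]
    exact h1.le ⟨x, hx, rfl⟩
  have hctc : t * c * t⁻¹ = c := by
    rcases hcases _ (hconjZ c hc.1) with e | e | e | e
    · exact absurd (conj_eq_one_iff.mp e) hc1
    · exfalso
      -- then `t` would not be injective on `Z₀`
      have e2 : t * w₂ * t⁻¹ = w₂⁻¹ * w₁ := by
        rw [hcw] at e
        calc t * w₂ * t⁻¹ = (t * w₁ * t⁻¹)⁻¹ * (t * (w₁ * w₂) * t⁻¹) := by group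
          _ = _ := by rw [ht1, e]
      have hinv : w₂⁻¹ = w₂ := inv_eq_of_mul_eq_one_left (by rw [← pow_two]; exact (z0_elem T).2 w₂ hw₂.1)
      rw [hinv, setLike_mul_comm (s := Z) hw₂.1 hw₁.1, ← hcw] at e2
      -- a three-cycle induced by a two-element
      have e3 : ∀ n : ℕ, (n % 3 = 0 → t ^ n * w₁ * (t ^ n)⁻¹ = w₁) ∧ (n % 3 = 1 → t ^ n * w₁ * (t ^ n)⁻¹ = w₂) ∧
          (n % 3 = 2 → t ^ n * w₁ * (t ^ n)⁻¹ = c) := by
        intro n
        induction n with
        | zero => exact ⟨fun _ => by group, fun h => absurd h (by omega), fun h => absurd h (by omega)⟩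
        | succ n ih =>
          have hs : t ^ (n + 1) * w₁ * (t ^ (n + 1))⁻¹ = t * (t ^ n * w₁ * (t ^ n)⁻¹) * t⁻¹ := by
            rw [pow_succ']; group
          refine ⟨fun h => ?_, fun h => ?_, fun h => ?_⟩
          · rw [hs, ih.2.2 (by omega)]
            exact e
          · rw [hs, ih.1 (by omega), ht1]
          · rw [hs, ih.2.1 (by omega), e2]
      obtain ⟨k, hk⟩ := hT ⟨t, ht⟩
      have ht2 : t ^ 2 ^ k = 1 := by simpa using congrArg Subtype.val hk
      have h3 : 2 ^ k % 3 = 1 ∨ 2 ^ k % 3 = 2 := by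
        have : ¬ 3 ∣ 2 ^ k := fun hd => absurd (Nat.prime_three.dvd_of_dvd_pow hd) (by omega)
        omega
      rcases h3 with h3 | h3
      · have := (e3 (2 ^ k)).2.1 h3
        rw [ht2] at this
        exact hw12 (by simpa using this)
      · have := (e3 (2 ^ k)).2.2 h3
        rw [ht2] at this
        have e4 : w₁ = c := by simpa using this
        exact hw₂1 (mul_left_cancel ((hcw ▸ e4 : w₁ = w₁ * w₂).symm.trans (mul_one w₁).symm))
    · exfalso
      have : c = w₁ := mul_left_cancel (mul_right_cancel (e.trans ht1.symm))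
      exact hc1 (mem_bot.mp (hdis₂.le ⟨this ▸ hc₂, hc⟩))
    · exact e.trans hcw.symm
  -- hence `t` fixes `K'`
  have hK'' := isJComponent_conj_of_normalizes hK' htJ
  have hcont'' := h'.conj htJ
  set K'' := K'.map (MulAut.conj t).toMonoidHom with hK''def
  have hcK'' : c ∈ cZero T K'' := hmk hK'' c hc.1 (by
    rintro _ ⟨x, hx, rfl⟩
    have h1 := mem_centralizer_singleton_iff.mp (cZero_centralizer hc (mem_sup_left hx))
    show c * (t * x * t⁻¹) = t * x * t⁻¹ * c
    calc c * (t * x * t⁻¹) = (t * c * t⁻¹) * (t * x * t⁻¹) := by rw [hctc]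
      _ = t * (c * x) * t⁻¹ := by group
      _ = t * (x * c) * t⁻¹ := by rw [h1]
      _ = t * x * t⁻¹ * (t * c * t⁻¹) := by group
      _ = _ := by rw [hctc])
  have hL'eq : L'.map (MulAut.conj t).toMonoidHom = L' := by
    have hloc := centralizer_local ((z0_elem T).2 c hc.1) hc1
    exact h'.eq_of_le hcont'' ((cZero_centralizer hcK'').trans (h'.univ _ hloc (cZero_centralizer hc)))
  obtain ⟨w', hw', hw'1⟩ : ∃ w ∈ Z ⊓ wOf K', w ≠ 1 := by
    by_contra hh
    push Not at hh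
    rw [(eq_bot_iff_forall _).mpr hh, card_bot] at hdW'
    omega
  by_cases hfix : K'' = K'
  · have hw'' : t * w' * t⁻¹ ∈ Z ⊓ wOf K' := ⟨hconjZ w' hw'.1, by
      rw [← hfix, hK''def, ← map_wOf (MulAut.conj t).injective]
      exact ⟨w', hw'.2, rfl⟩⟩
    have hz : zpowers w' = Z ⊓ wOf K' := eq_of_le_of_card_ge (zpowers_le.mpr hw') (by
      rw [hdW', Nat.card_zpowers, orderOf_eq_prime ((z0_elem T).2 w' hw'.1) hw'1])
    rw [← hz] at hw''
    obtain ⟨i, hi⟩ := mem_zpowers_iff.mp hw''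
    have hsq : w' ^ (2 : ℤ) = 1 := by rw [zpow_ofNat]; exact (z0_elem T).2 w' hw'.1
    have hfix' : t * w' * t⁻¹ = w' := by
      obtain ⟨j, rfl | rfl⟩ := Int.even_or_odd' i
      · rw [zpow_mul, hsq, one_zpow] at hi
        exact absurd (conj_eq_one_iff.mp hi.symm) hw'1
      · rw [zpow_add, zpow_mul, hsq, one_zpow, one_mul, zpow_one] at hi
        exact hi.symm
    rcases hcases w' hw'.1 with e | e | e | e
    · exact hw'1 e
    · rw [e, ht1] at hfix'
      exact hw12 hfix'.symm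
    · rw [e] at hfix'
      exact hw12 (mul_left_cancel (mul_right_cancel (ht1.trans hfix'.symm)))
    · obtain ⟨-, -, hd', -⟩ := z0_split hT hK'
      exact hw'1 (mem_bot.mp (hd'.le ⟨(e.trans hcw.symm) ▸ hc, hw'.2⟩))
  · -- two components in `L'` sharing their central involution
    obtain ⟨T₀, hJT₀, hT₀1, hT₀⟩ := h'.fam
    have hK''L : K'' ≤ L' := le_sup_left.trans (hL'eq ▸ hcont''.le)
    have hcr := comp_cross hZN hT₀1 hT₀ (isJComponent_congr hJT₀ hK'') hK''L
      (isJComponent_congr hJT₀ hK') (le_sup_left.trans h'.le) hfix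
    have hw'C : w' ∈ cZero T K'' :=
      hmk hK'' w' hw'.1 fun x hx => mem_centralizer_iff.mp (hcr hx) w' hw'.2
    obtain ⟨-, -, -, hcard''⟩ := z0_split hT hK''
    have hC2'' : Nat.card ↥(cZero T K'') = 2 := by omega
    have hz : zpowers c = cZero T K'' := eq_of_le_of_card_ge (zpowers_le.mpr hcK'') (by
      rw [hC2'', Nat.card_zpowers, orderOf_eq_prime ((z0_elem T).2 c hc.1) hc1])
    rw [← hz] at hw'C
    have hw'c : w' ∈ cZero T K' := (zpowers_le.mpr hc) hw'C
    obtain ⟨-, -, hd', -⟩ := z0_split hT hK'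
    exact hw'1 (mem_bot.mp (hd'.le ⟨hw'c, hw'.2⟩))

end Cfsg.Agent.H74.JB
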