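import Cfsg.Agent.H34.FFStructure
import Cfsg.Agent.H34.SL2Small
import Mathlib.Data.ZMod.Basic

/-!
Consequences of the failure-of-factorization structure for `p = 2`.
-/

set_option autoImplicit false

namespace Cfsg.Agent.H74

open Subgroup Cfsg
open scoped commutatorElement Pointwise

variable {G : Type*} [Group G] [Finite G] {V H A B : Subgroup G}

local notation "cE" A:max => H34.compOf 2 H A
local notation "cD" A:max => ⁅H34.coreOf 2 H, A⁆
local notation "cW" A:max => ⁅V, H34.compOf 2 H A⁆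

omit [Finite G] in
/-- A nontrivial element generates a group of order three. -/
theorem zpowers_eq_of_card3 {D : Subgroup G} (h : Nat.card D = 3) {d : G} (hd : d ∈ D) (hd1 : d ≠ 1) :
    zpowers d = D := by
  haveI : Fact (Nat.Prime 3) := ⟨Nat.prime_three⟩
  haveI : Finite D := Nat.finite_of_card_ne_zero (by rw [h]; norm_num)
  refine eq_of_le_of_card_ge (zpowers_le.mpr hd) (le_of_eq ?_)
  rw [h, Nat.card_zpowers]
  have : orderOf (⟨d, hd⟩ : D) = 3 := orderOf_eq_prime (h ▸ pow_card_eq_one') (fun e => hd1 (congrArg Subtype.val e))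
  rw [Subgroup.orderOf_mk] at this
  exact this.symm

variable (S : H34.FFSetup 2 V H) [Fact (Nat.Prime 2)]
include S

/-- A component has order 6 and its odd part order 3. -/
theorem ff_card (hA : H34.IsTransvectionGroup 2 V H A) :
    Nat.card ↥(cE A) = 6 ∧ Nat.card ↥(cD A) = 3 ∧ (cD A) ≤ H34.coreOf 2 H ∧ Nat.card ↥(cW A) = 4 := by
  have F := S.compFacts hA
  obtain ⟨e⟩ := F.iso
  have h6 : Nat.card ↥(cE A) = 6 := by
    rw [Nat.card_congr e.toEquiv, Nat.card_eq_fintype_card]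
    decide +kernel
  have h3 := F.cardCore
  rw [h6] at h3
  exact ⟨h6, by omega, (S.le_normalizer_commutator_core hA).2.2, by rw [F.card]; rfl⟩

/-- The odd part has index two in the component. -/
theorem ff_sq_mem (hA : H34.IsTransvectionGroup 2 V H A) {e : G} (he : e ∈ cE A) : e ^ 2 ∈ cD A := by
  obtain ⟨h6, h3, -, -⟩ := ff_card S hA
  have hle : (cD A) ≤ cE A := le_sup_left
  have hidx : ((cD A).subgroupOf (cE A)).index = 2 := by
    have := ((cD A).subgroupOf (cE A)).card_mul_index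
    rw [Nat.card_congr (subgroupOfEquivOfLe hle).toEquiv, h3, h6] at this
    omega
  exact Subgroup.mem_subgroupOf.mp (Subgroup.sq_mem_of_index_two hidx ⟨e, he⟩)

/-- Elements of odd period of a component lie in its odd part. -/
theorem ff_odd_mem (hA : H34.IsTransvectionGroup 2 V H A) {e : G} (he : e ∈ cE A) {n : ℕ} (hn : Odd n)
    (h : e ^ n = 1) : e ∈ cD A := by
  obtain ⟨m, rfl⟩ := hn
  have h2 := pow_mem (ff_sq_mem S hA he) (m + 1)
  have : (e ^ 2) ^ (m + 1) = e := by
    rw [← pow_mul, show 2 * (m + 1) = 2 * m + 1 + 1 by ring, pow_succ, h, one_mul]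
  rwa [this] at h2

/-- Nontrivial elements of the odd part fix no nontrivial vector of the plane. -/
theorem ff_fpf (hA : H34.IsTransvectionGroup 2 V H A) {d w : G} (hd : d ∈ cD A) (hd1 : d ≠ 1)
    (hw : w ∈ cW A) (hc : d * w = w * d) : w = 1 := by
  have F := S.compFacts hA
  obtain ⟨-, h3, -, -⟩ := ff_card S hA
  haveI : Fact (Nat.Prime 3) := ⟨Nat.prime_three⟩
  have hgen : zpowers d = cD A := zpowers_eq_of_card3 h3 hd hd1
  have h2 : w ∈ V ⊓ centralizer ((cD A : Subgroup G) : Set G) := by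
    refine ⟨F.moduleLe hw, fun y hy => ?_⟩
    rw [SetLike.mem_coe, ← hgen] at hy
    obtain ⟨j, rfl⟩ := mem_zpowers_iff.mp hy
    exact (Commute.zpow_left (hc : Commute d w) j).eq
  rw [F.fixEq] at h2
  have h3 : w ∈ (cW A) ⊓ (V ⊓ centralizer ((cE A : Subgroup G) : Set G)) := ⟨hw, h2⟩
  rw [F.inf] at h3
  exact mem_bot.mp h3

variable (hgen : H = ⨆ A : {A : Subgroup G // A ≤ H ∧ IsBestOffenderOn 2 V A}, (A : Subgroup G))
include hgen

/-- Projection to a component. -/
theorem ff_proj (hA : H34.IsTransvectionGroup 2 V H A) {x : G} (hx : x ∈ H) :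
    ∃ e ∈ cE A, e⁻¹ * x ∈ H ⊓ centralizer ((cW A : Subgroup G) : Set G) ∧ Commute e (e⁻¹ * x) ∧
      ∀ n : ℕ, Odd n → x ^ n = 1 → e ∈ cD A := by
  obtain ⟨hcom, hinf, hsup, -⟩ := S.comp_direct_factor hgen hA
  have hN : H ⊓ centralizer ((cW A : Subgroup G) : Set G) ≤ normalizer ((cE A : Subgroup G) : Set G) :=
    inf_le_left.trans (S.le_normalizer_comp hgen hA).1
  rw [← hsup, ← SetLike.mem_coe, coe_mul_of_right_le_normalizer_left _ _ hN] at hx
  obtain ⟨e, he, c, hc, rfl⟩ := hx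
  have hec : Commute e c := commutatorElement_eq_one_iff_mul_comm.mp
    (mem_bot.mp (hcom ▸ commutator_mem_commutator he hc))
  refine ⟨e, he, by simpa using hc, by simpa using hec, fun n hn h => ff_odd_mem S hA he hn ?_⟩
  have h1 : e ^ n * c ^ n = 1 := by rw [← hec.mul_pow]; exact h
  have h2 : e ^ n ∈ (cE A) ⊓ (H ⊓ centralizer ((cW A : Subgroup G) : Set G)) :=
    ⟨pow_mem he n, by rw [eq_inv_of_mul_eq_one_left h1]; exact Subgroup.inv_mem _ (pow_mem hc n)⟩
  rw [hinf] at h2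
  exact mem_bot.mp h2

/-- Components with different planes centralize each other's planes. -/
theorem ff_cross (hA : H34.IsTransvectionGroup 2 V H A) (hB : H34.IsTransvectionGroup 2 V H B)
    (h : (cW A) ≠ cW B) : (cE B) ≤ H ⊓ centralizer ((cW A : Subgroup G) : Set G) := by
  have FA := S.compFacts hA
  have FB := S.compFacts hB
  refine le_inf FB.le ?_
  rw [Subgroup.le_centralizer_iff, ← Subgroup.commutator_eq_bot_iff_le_centralizer, eq_bot_iff,
    ← (S.comp_eq_or_disjoint hA hB).2 h]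
  exact le_inf (le_normalizer_iff_commutator_le_left.1 (FB.le.trans (S.le_normalizer_comp hgen hA).2))
    (Subgroup.commutator_mono FA.moduleLe le_rfl)

/-- An element centralizing all planes is trivial. -/
theorem ff_inter {x : G} (hx : x ∈ H)
    (h : ∀ A, H34.IsTransvectionGroup 2 V H A → x ∈ centralizer ((cW A : Subgroup G) : Set G)) : x = 1 := by
  haveI := S.elem.1
  have hcH : H ≤ centralizer ({x} : Set G) := by
    refine (S.le_sSup_transvections hgen).trans (sSup_le fun B hB b hb => mem_centralizer_singleton_iff.mpr ?_)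
    obtain ⟨hcom, -, -, -⟩ := S.comp_direct_factor hgen hB
    exact commutatorElement_eq_one_iff_mul_comm.mp
      (mem_bot.mp (hcom ▸ commutator_mem_commutator (mem_sup_right hb) ⟨hx, h B hB⟩))
  have hxK : (⟨x, hx⟩ : ↥H) ∈ pPrimeCore 2 ↥H :=
    S.selfCentral fun k _ => Subtype.ext (mem_centralizer_singleton_iff.mp (hcH k.2))
  have hxC : x ∈ H34.coreOf 2 H := ⟨⟨x, hx⟩, hxK, rfl⟩
  have hodd : Nat.Coprime (orderOf x) 2 :=
    (H34.coreOf_coprime (p := 2) (H := H)).coprime_dvd_left ((Subgroup.orderOf_mk x hxC ▸ orderOf_dvd_natCard (⟨x, hxC⟩ : ↥(H34.coreOf 2 H))))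
  suffices x ∈ H ⊓ centralizer (V : Set G) by rw [S.faithful] at this; exact mem_bot.mp this
  refine ⟨hx, fun v hv => ?_⟩
  set u := x * v * x⁻¹ * v⁻¹ with hu
  have huV : u ∈ V := mul_mem ((mem_normalizer_iff.mp (S.norm hx) v).mp hv) (inv_mem hv)
  have huH : ∀ y ∈ H, y * u = u * y := by
    have hle : H ≤ centralizer ({u} : Set G) := by
      refine (S.le_sSup_transvections hgen).trans (sSup_le fun B hB b hb => mem_centralizer_singleton_iff.mpr ?_)
      obtain ⟨-, -, -, h4⟩ := S.comp_direct_factor hgen hB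
      have h5 : u⁻¹ ∈ V ⊓ centralizer ((cE B : Subgroup G) : Set G) := by
        refine h4 ?_
        have : u⁻¹ = ⁅v, x⁆ := by rw [hu, commutatorElement_def]; group
        rw [this]
        exact commutator_mem_commutator hv ⟨hx, h B hB⟩
      have := (inv_mem h5 : u⁻¹⁻¹ ∈ V ⊓ centralizer ((cE B : Subgroup G) : Set G))
      rw [inv_inv] at this
      exact (this.2 b (mem_sup_right hb))
    exact fun y hy => mem_centralizer_singleton_iff.mp (hle hy)
  have key : ∀ n : ℕ, x ^ n * v * (x ^ n)⁻¹ = u ^ n * v := by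
    intro n
    induction n with
    | zero => simp
    | succ n ih =>
      have hxu : Commute x (u ^ n) := Commute.pow_right (huH x hx) n
      calc x ^ (n + 1) * v * (x ^ (n + 1))⁻¹ = x * (x ^ n * v * (x ^ n)⁻¹) * x⁻¹ := by rw [pow_succ']; group
        _ = x * u ^ n * v * x⁻¹ := by rw [ih]; group
        _ = u ^ n * (x * v * x⁻¹) := by rw [hxu.eq]; group
        _ = u ^ n * (u * v) := by rw [hu, inv_mul_cancel_right]
        _ = _ := by rw [← mul_assoc, ← pow_succ]
  have h1 := key (orderOf x)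
  rw [pow_orderOf_eq_one, one_mul, inv_one, mul_one] at h1
  have hun : u ^ orderOf x = 1 := mul_right_cancel (h1.symm.trans (one_mul v).symm)
  have hu1 : u = 1 := by
    have hg := Nat.dvd_gcd (orderOf_dvd_of_pow_eq_one hun) (orderOf_dvd_of_pow_eq_one (S.elem.2 u huV))
    rw [hodd] at hg
    exact orderOf_eq_one_iff.mp (Nat.dvd_one.mp hg)
  rw [hu, mul_inv_eq_one, mul_inv_eq_iff_eq_mul] at hu1
  exact hu1.symm

/-- An element of order three with small commutator space is a component's. -/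
theorem ff_three {x : G} (hx : x ∈ H) (hx3 : x ^ 3 = 1) (hx1 : x ≠ 1) {W₀ : Subgroup G}
    (hW0 : Nat.card W₀ ≤ 4) (hle : ⁅V, zpowers x⁆ ≤ W₀) :
    ∃ A, H34.IsTransvectionGroup 2 V H A ∧ zpowers x = (cD A) ∧ W₀ = cW A := by
  haveI := S.elem.1
  have key : ∀ A, H34.IsTransvectionGroup 2 V H A → x ∉ centralizer ((cW A : Subgroup G) : Set G) →
      W₀ = cW A ∧ ∃ e ∈ cD A, e ≠ 1 ∧ e⁻¹ * x ∈ H ⊓ centralizer ((cW A : Subgroup G) : Set G) := by
    intro A hA hxA
    obtain ⟨e, heE, hec, -, hodd⟩ := ff_proj S hgen hA hx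
    have heD := hodd 3 (by decide) hx3
    have he1 : e ≠ 1 := by
      rintro rfl
      exact hxA (by simpa using hec.2)
    refine ⟨?_, e, heD, he1, hec⟩
    have F := S.compFacts hA
    have hWe : ∀ w ∈ cW A, e * w * e⁻¹ ∈ cW A := fun w hw =>
      (mem_normalizer_iff.mp ((F.le.trans (S.le_normalizer_comp hgen hA).2) (mem_sup_left heD)) w).mp hw
    have hsub : (cW A) ≤ W₀ := by
      let ψ : ↥(cW A) → ↥(cW A) := fun w =>
        ⟨(w : G) * (e * (w : G) * e⁻¹)⁻¹, mul_mem w.2 (inv_mem (hWe w w.2))⟩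
      have hinj : Function.Injective ψ := by
        intro w w' hww
        have h1 : (w : G) * (e * (w : G) * e⁻¹)⁻¹ = (w' : G) * (e * (w' : G) * e⁻¹)⁻¹ := congrArg Subtype.val hww
        have h2 : (w' : G)⁻¹ * (w : G) = e * ((w' : G)⁻¹ * (w : G)) * e⁻¹ := by
          calc (w' : G)⁻¹ * (w : G) = (w' : G)⁻¹ * ((w : G) * (e * (w : G) * e⁻¹)⁻¹) * (e * (w : G) * e⁻¹) := by group
            _ = _ := by rw [h1]; group
        have h3 := ff_fpf S hA heD he1 (mul_mem (inv_mem w'.2) w.2)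
          (by conv_rhs => rw [h2]
              group)
        exact Subtype.ext ((inv_mul_eq_one.mp h3).symm)
      intro w hw
      obtain ⟨v, hv⟩ := (Finite.injective_iff_surjective.mp hinj) ⟨w, hw⟩
      have hv' : (v : G) * (e * (v : G) * e⁻¹)⁻¹ = w := congrArg Subtype.val hv
      have hxv : x * (v : G) * x⁻¹ = e * (v : G) * e⁻¹ := by
        have hc := hec.2 (v : G) v.2
        calc x * (v : G) * x⁻¹ = e * ((e⁻¹ * x) * (v : G)) * (e⁻¹ * x)⁻¹ * e⁻¹ := by group
          _ = _ := by rw [← hc]; group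
      rw [← hxv] at hv'
      have h4 : ⁅(v : G), x⁆ ∈ ⁅V, zpowers x⁆ := commutator_mem_commutator (F.moduleLe v.2) (mem_zpowers x)
      rw [commutatorElement_def] at h4
      rw [← hv', show (v : G) * (x * (v : G) * x⁻¹)⁻¹ = v * x * (v : G)⁻¹ * x⁻¹ by group]
      exact hle h4
    exact (eq_of_le_of_card_ge hsub (hW0.trans (ff_card S hA).2.2.2.ge)).symm
  obtain ⟨A, hA, hxA⟩ : ∃ A, H34.IsTransvectionGroup 2 V H A ∧ x ∉ centralizer ((cW A : Subgroup G) : Set G) := by
    by_contra h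
    push Not at h
    exact hx1 (ff_inter S hgen hx h)
  obtain ⟨hWA, e, heD, he1, hec⟩ := key A hA hxA
  have hc1 : e⁻¹ * x = 1 := by
    refine ff_inter S hgen hec.1 fun A' hA' => ?_
    by_cases hWW : (cW A') = cW A
    · rw [hWW]; exact hec.2
    · have hxA' : x ∈ centralizer ((cW A' : Subgroup G) : Set G) := by
        by_contra h'
        exact hWW ((key A' hA' h').1.symm.trans hWA)
      exact mul_mem (inv_mem (ff_cross S hgen hA' hA hWW (mem_sup_left heD)).2) hxA'
  refine ⟨A, hA, ?_, hWA⟩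
  rw [← (inv_mul_eq_one.mp hc1)]
  haveI : Fact (Nat.Prime 3) := ⟨Nat.prime_three⟩
  exact zpowers_eq_of_card3 (ff_card S hA).2.1 heD he1

/-- A transvection of the component inverts its odd part. -/
theorem ff_invert (hA : H34.IsTransvectionGroup 2 V H A) (hB : H34.IsTransvectionGroup 2 V H B)
    (hW : (cW A) = cW B) {b d : G} (hb : b ∈ B) (hb1 : b ≠ 1) (hd : d ∈ cD A) :
    b * d * b⁻¹ = d⁻¹ := by
  rcases eq_or_ne d 1 with rfl | hd1
  · simp
  have hE := (S.comp_eq_or_disjoint hA hB).1 hW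
  have hbE : b ∈ cE A := hE ▸ mem_sup_right hb
  have hdE : d ∈ cE A := mem_sup_left hd
  have hb2 : b ^ 2 = 1 := (S.transvection_facts hB).2.2 b hb
  obtain ⟨-, h3, -, h4⟩ := ff_card S hA
  have hd3 : d ^ 3 = 1 := by
    have := pow_card_eq_one' (x := (⟨d, hd⟩ : ↥(cD A)))
    rw [h3] at this
    simpa using congrArg Subtype.val this
  have hconj : b * d * b⁻¹ ∈ cD A :=
    ff_odd_mem S hA (mul_mem (mul_mem hbE hdE) (inv_mem hbE)) (by decide : Odd 3) (by rw [conj_pow, hd3]; simp)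
  have hgenD : zpowers d = cD A := by
    haveI : Fact (Nat.Prime 3) := ⟨Nat.prime_three⟩
    exact zpowers_eq_of_card3 h3 hd hd1
  rw [← hgenD] at hconj
  obtain ⟨m, hm⟩ := mem_zpowers_iff.mp hconj
  have hm3 : m % 3 = 0 ∨ m % 3 = 1 ∨ m % 3 = 2 := by omega
  have hdm : d ^ m = d ^ (m % 3) := by
    conv_lhs => rw [← Int.emod_add_mul_ediv m 3, zpow_add, zpow_mul, zpow_ofNat, hd3, one_zpow, mul_one]
  rw [hdm] at hm
  rcases hm3 with h | h | h <;> rw [h] at hm
  · exfalso
    rw [zpow_zero, eq_comm, mul_inv_eq_one] at hm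
    exact hd1 (mul_left_cancel (hm.trans (mul_one b).symm))
  · exfalso
    rw [zpow_one] at hm
    have hbd : b * d = d * b := (mul_inv_eq_iff_eq_mul.mp hm.symm)
    have F := S.compFacts hA
    haveI := S.elem.1
    have hbW : ∀ w ∈ cW A, b * w * b⁻¹ ∈ cW A := fun w hw =>
      (mem_normalizer_iff.mp ((F.le.trans (S.le_normalizer_comp hgen hA).2) hbE) w).mp hw
    obtain ⟨w₀, hw₀, hw₀b⟩ : ∃ w ∈ cW A, b * w * b⁻¹ ≠ w := by
      by_contra h'
      push Not at h'
      have : b ∈ (cE A) ⊓ centralizer ((cW A : Subgroup G) : Set G) :=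
        ⟨hbE, fun w hw => (mul_inv_eq_iff_eq_mul.mp (h' w hw)).symm⟩
      rw [F.faithful] at this
      exact hb1 (mem_bot.mp this)
    set u := b * w₀ * b⁻¹ * w₀⁻¹ with hu
    have huW : u ∈ cW A := mul_mem (hbW _ hw₀) (inv_mem hw₀)
    have hu1 : u ≠ 1 := fun h' => hw₀b (mul_inv_eq_one.mp h')
    have hub : b * u * b⁻¹ = u := by
      have hbb : b * b = 1 := by rw [← pow_two]; exact hb2
      have e1 : b * u * b⁻¹ = (b * b) * w₀ * (b * b)⁻¹ * (b * w₀ * b⁻¹)⁻¹ := by rw [hu]; group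
      rw [e1, hbb, one_mul, inv_one, mul_one]
      have e2 : w₀ * (b * w₀ * b⁻¹)⁻¹ = u⁻¹ := by rw [hu]; group
      rw [e2, inv_eq_iff_mul_eq_one, ← pow_two]
      exact S.elem.2 u (F.moduleLe huW)
    set U := (cW A) ⊓ centralizer ({b} : Set G) with hU
    have hmem : ∀ w ∈ cW A, b * w * b⁻¹ = w → w ∈ U := fun w hw h' =>
      ⟨hw, mem_centralizer_singleton_iff.mpr (mul_inv_eq_iff_eq_mul.mp h').symm⟩
    have hdu : d * u * d⁻¹ ∈ U := by
      refine hmem _ ((mem_normalizer_iff.mp ((F.le.trans (S.le_normalizer_comp hgen hA).2) hdE) u).mp huW) ?_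
      calc b * (d * u * d⁻¹) * b⁻¹ = (b * d) * u * (b * d)⁻¹ := by group
        _ = d * (b * u * b⁻¹) * d⁻¹ := by rw [hbd]; group
        _ = _ := by rw [hub]
    have huU := hmem u huW hub
    have hUne : Nat.card ↥U < 4 := by
      rw [← h4]
      refine Nat.lt_of_le_of_ne (Nat.le_of_dvd Nat.card_pos (card_dvd_of_le inf_le_left)) fun hc => hw₀b ?_
      have : U = (cW A) := eq_of_le_of_card_ge inf_le_left hc.ge
      have h5 := mem_centralizer_singleton_iff.mp (this ▸ hw₀ : w₀ ∈ U).2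
      rw [← h5, mul_inv_cancel_right]
    have hU3 : 3 ≤ Nat.card ↥U := by
      have hne : d * u * d⁻¹ ≠ u := fun h' => hu1 (ff_fpf S hA hd hd1 huW (mul_inv_eq_iff_eq_mul.mp h'))
      have hne1 : d * u * d⁻¹ ≠ 1 := fun h' => hu1 (conj_eq_one_iff.mp h')
      classical
      haveI : Fintype ↥U := Fintype.ofFinite _
      rw [Nat.card_eq_fintype_card]
      refine le_trans ?_ (Finset.card_le_univ ({⟨1, one_mem U⟩, ⟨u, huU⟩, ⟨d * u * d⁻¹, hdu⟩} : Finset ↥U))
      rw [Finset.card_insert_of_notMem (by simp [Subtype.ext_iff, Ne.symm hu1, Ne.symm hne1]),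
        Finset.card_pair (by simpa [Subtype.ext_iff] using Ne.symm hne)]
    have hdvd : Nat.card ↥U ∣ 4 := h4 ▸ card_dvd_of_le inf_le_left
    interval_cases hc : Nat.card ↥U
    omega
  · rw [← hm, zpow_ofNat, eq_inv_iff_mul_eq_one, ← pow_succ]
    exact hd3

end Cfsg.Agent.H74
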