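import Cfsg.Prelude.Def_JComponents
import Cfsg.Agent.H74.JFF
import Cfsg.Agent.H74.JCompBasic
import Cfsg.Agent.H34.Linear
import Cfsg.Agent.H34.FixedClosure
import Cfsg.Agent.H34.Offender
import Cfsg.Agent.H25.SolvablePSolvable
import Cfsg.Agent.H72.CharP
import Cfsg.Agent.H72.PCore
import Cfsg.Agent.S0542

/-!
`J(T)`-components inside one overgroup `Γ`.
-/

set_option autoImplicit false

namespace Cfsg.Agent.H74.JC

open Subgroup Cfsg
open scoped commutatorElement Pointwise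

variable {Γ : Type*} [Group Γ] [Finite Γ] [h2 : Fact (Nat.Prime 2)]

/-- The hypotheses on an overgroup `Γ` of the Sylow subgroup `T`. -/
structure JHyp (T : Sylow 2 Γ) : Prop where
  solv : Group.IsSolvable Γ
  char : centralizer (pCore 2 Γ : Set Γ) ≤ pCore 2 Γ
  zn : centralizer (omegaCenterOf (T : Subgroup Γ) : Set Γ) ≤ normalizer ((T : Subgroup Γ) : Set Γ)
  nle : ¬ thompsonSubgroupOf 2 (T : Subgroup Γ) ≤ pCore 2 Γ

/-- An internal component: like a `J(T)`-component, for some conjugate of `J(T)`. -/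
structure IsComp (T : Sylow 2 Γ) (K : Subgroup Γ) : Prop where
  gen : closure {g : Γ | g ∈ K ∧ Odd (orderOf g)} = K
  comm : ∃ x : Γ, ⁅K, thompsonSubgroupOf 2 ((x • T : Sylow 2 Γ) : Subgroup Γ)⁆ = K
  idx : (pCoreOf 2 K).relIndex K = 3
  card : Nat.card ↥(wOf K) ≤ 4

set_option quotPrecheck false
local notation "gV" => H34.omegaZ 2 Γ
local notation "gC" => centralizer ((H34.omegaZ 2 Γ : Subgroup Γ) : Set Γ)
local notation "gM" => thompsonSubgroup 2 Γ
local notation "gO" => pCore 2 Γ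
local notation "cW" A:max => ⁅(H34.holV gV).range, H34.compOf 2 ((gM).map (H34.holHom gV)) A⁆
local notation "cD" A:max => ⁅H34.coreOf 2 ((gM).map (H34.holHom gV)), A⁆

instance omegaZNormal : (H34.omegaZ 2 Γ).Normal := H34.omegaZ_normal

instance thompsonNormal : (thompsonSubgroup 2 Γ).Normal :=
  haveI : (thompsonSubgroup 2 Γ).Characteristic := H34.thompsonSubgroup_characteristic
  inferInstance

omit [Finite Γ] h2 in
theorem odd_pow_three {g : Γ} {Q : Subgroup Γ} (hQ : IsPGroup 2 Q) (hg : Odd (orderOf g)) (h : g ^ 3 ∈ Q) :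
    g ^ 3 = 1 := by
  obtain ⟨k, hk⟩ := hQ ⟨_, h⟩
  have hk' : (g ^ 3) ^ 2 ^ k = 1 := by simpa using congrArg Subtype.val hk
  rw [← pow_mul] at hk'
  exact orderOf_dvd_iff_pow_eq_one.mp
    ((Nat.Coprime.pow_right k hg.coprime_two_right).dvd_of_dvd_mul_right (orderOf_dvd_of_pow_eq_one hk'))

variable {T : Sylow 2 Γ} (h : JHyp T)
include h

theorem zT_le : omegaCenterOf (T : Subgroup Γ) ≤ gV :=
  le_iSup (fun S : Sylow 2 Γ => omegaOne 2 ((S : Subgroup Γ) ⊓ centralizer ((S : Subgroup Γ) : Set Γ))) T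

theorem c_le_normalizer : (gC : Subgroup Γ) ≤ normalizer ((T : Subgroup Γ) : Set Γ) :=
  (centralizer_le (zT_le h)).trans h.zn

theorem v_le_o : gV ≤ omegaOne 2 (gO ⊓ centralizer (gO : Set Γ)) := H34.omegaZ_le h.char

theorem v_elem : IsElementaryAbelian 2 gV := H34.omegaZ_isElementaryAbelian h.char

theorem o_le_c : gO ≤ (gC : Subgroup Γ) :=
  le_centralizer_iff.mp (((v_le_o h).trans (H34.omegaOne_le _)).trans inf_le_right)

theorem v_le_o' : gV ≤ gO := ((v_le_o h).trans (H34.omegaOne_le _)).trans inf_le_left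

/-- Two-subgroups of `C` lie in the two-core. -/
theorem two_le_o {D : Subgroup Γ} (hD : IsPGroup 2 D) (hDC : D ≤ (gC : Subgroup Γ)) : D ≤ gO := by
  haveI : (gC : Subgroup Γ).Normal := normal_centralizer
  have hDT : D ≤ (T : Subgroup Γ) := by
    have h1 := T.is_maximal' (hD.to_sup_of_normal_right' T.isPGroup' (hDC.trans (c_le_normalizer h))) le_sup_right
    exact h1 ▸ le_sup_left
  refine (le_inf hDT hDC).trans (H72.le_pCore_of_isSubnormal ?_ (T.isPGroup'.to_le inf_le_left))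
  have hn : (((T : Subgroup Γ) ⊓ gC).subgroupOf gC).Normal :=
    (normal_subgroupOf_iff_le_normalizer inf_le_right).mpr
      (le_trans (le_inf (c_le_normalizer h) le_normalizer) inf_normalizer_le_normalizer_inf)
  rw [← inf_eq_left.mpr (inf_le_right : (T : Subgroup Γ) ⊓ gC ≤ gC), ← subgroupOf_map_subtype]
  exact hn.isSubnormal.trans' (normal_centralizer (H := gV)).isSubnormal

/-- An element of `C` with square in the two-core lies in it. -/
theorem mem_o_of_sq {c : Γ} (hc : c ∈ (gC : Subgroup Γ)) (h2' : c ^ 2 ∈ gO) : c ∈ gO := by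
  refine two_le_o h (D := zpowers c) ?_ (zpowers_le.mpr hc) (mem_zpowers c)
  obtain ⟨k, hk⟩ := H19.pCore_isPGroup (G := Γ) 2 ⟨_, h2'⟩
  have : (c ^ 2) ^ 2 ^ k = 1 := by simpa using congrArg Subtype.val hk
  rw [IsPGroup.iff_card, Nat.card_zpowers]
  rw [← pow_mul, ← pow_succ'] at this
  obtain ⟨i, -, hi⟩ := (Nat.dvd_prime_pow Nat.prime_two).mp (orderOf_dvd_of_pow_eq_one this)
  exact ⟨i, hi⟩

/-- `C` centralizes `J(Γ)` modulo the two-core. -/
theorem comm_c_m : ⁅(gC : Subgroup Γ), gM⁆ ≤ gO := by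
  haveI : (gC : Subgroup Γ).Normal := normal_centralizer
  haveI : (gO).Normal := H19.pCore_normal 2 Γ
  have hT : ∀ x : Γ, ⁅(gC : Subgroup Γ), ((x • T : Sylow 2 Γ) : Subgroup Γ)⁆ ≤ gO := by
    intro x
    have h1 : ⁅(gC : Subgroup Γ), (T : Subgroup Γ)⁆ ≤ gO :=
      two_le_o h (T.isPGroup'.to_le (le_normalizer_iff_commutator_le_right.mp (c_le_normalizer h)))
        (commutator_le_left _ _)
    have h2 := Subgroup.map_mono (f := (MulAut.conj x).toMonoidHom) h1
    have eC : (gC : Subgroup Γ).map (MulAut.conj x).toMonoidHom = gC := Normal.map_conj_eq _ x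
    have eO : (gO).map (MulAut.conj x).toMonoidHom = gO := Normal.map_conj_eq _ x
    rw [Subgroup.map_commutator, eC, eO] at h2
    exact h2
  have hle : gM ≤ (centralizer ((gC : Subgroup Γ).map (QuotientGroup.mk' gO) : Set (Γ ⧸ gO))).comap
      (QuotientGroup.mk' gO) := by
    refine sSup_le fun A hA => ?_
    obtain ⟨P, hP⟩ := (H34.IsPGroup_of_isElementaryAbelian hA.1).exists_le_sylow
    obtain ⟨x, rfl⟩ := MulAction.exists_smul_eq Γ T P
    rw [← map_le_iff_le_comap, le_centralizer_iff, ← commutator_eq_bot_iff_le_centralizer,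
      ← Subgroup.map_commutator, Subgroup.map_eq_bot_iff, QuotientGroup.ker_mk']
    exact (commutator_mono le_rfl hP).trans (hT x)
  rw [← map_le_iff_le_comap, le_centralizer_iff, ← commutator_eq_bot_iff_le_centralizer,
      ← Subgroup.map_commutator, Subgroup.map_eq_bot_iff, QuotientGroup.ker_mk'] at hle
  exact hle

omit h in
theorem j_le_m (x : Γ) : thompsonSubgroupOf 2 ((x • T : Sylow 2 Γ) : Subgroup Γ) ≤ gM := by
  rw [H34.thompsonSubgroupOf_sylow]
  exact sSup_le_sSup fun B hB => hB.2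

/-- Conjugates of `J(T)` are conjugates by elements of `J(Γ)`. -/
theorem conj_j (x : Γ) : ∃ m ∈ gM, thompsonSubgroupOf 2 ((x • T : Sylow 2 Γ) : Subgroup Γ) =
    (thompsonSubgroupOf 2 (T : Subgroup Γ)).map (MulAut.conj m).toMonoidHom := by
  have hJM : thompsonSubgroupOf 2 (T : Subgroup Γ) ≤ gM := by simpa using j_le_m (T := T) 1
  obtain ⟨Q, hQ⟩ := S0542.result 2 gM thompsonNormal.isSubnormal T
  have h1 := Sylow.normalizer_sup_eq_top Q
  rw [hQ, subgroupOf_map_subtype] at h1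
  have h2 : normalizer (((T : Subgroup Γ) ⊓ gM : Subgroup Γ) : Set Γ) ≤
      normalizer (thompsonSubgroupOf 2 (T : Subgroup Γ) : Set Γ) := by
    rw [← H34.thompsonSubgroupOf_eq_of_le (le_inf (H34.thompsonSubgroupOf_le _) hJM) inf_le_left]
    exact H34.normalizer_le_normalizer_thompson _
  have hx : x ∈ ((gM : Subgroup Γ) : Set Γ) * (normalizer (((T : Subgroup Γ) ⊓ gM : Subgroup Γ) : Set Γ) : Set Γ) := by
    rw [← Subgroup.normal_mul, sup_comm, h1]; exact mem_top x
  obtain ⟨m, hm, n, hn, rfl⟩ := hx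
  refine ⟨m, hm, ?_⟩
  rw [Sylow.coe_subgroup_smul, Subgroup.pointwise_smul_def]
  refine (H34.map_thompsonSubgroupOf (MulAut.conj (m * n)) (T : Subgroup Γ)).symm.trans ?_
  rw [show (MulAut.conj (m * n)).toMonoidHom = (MulAut.conj m).toMonoidHom.comp (MulAut.conj n).toMonoidHom by
    ext y; simp [mul_assoc], ← map_map]
  exact congrArg _ (mem_normalizer_iff_map_conj_eq.mp (h2 hn))

/-- The setup for the image in the holomorph. -/
theorem setup : H34.FFSetup 2 (H34.holV gV).range ((gM).map (H34.holHom gV)) :=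
  H34.hol_setup (H25.isPSolvable_of_isSolvable Nat.prime_two _ Γ rfl h.solv) (v_elem h) gM fun D hD hp =>
    H34.le_centralizer_of_generated gV gC D hD H34.omegaZ_le_iSup_fixed le_rfl hp

/-- The image is generated by best offenders. -/
theorem gen : (gM).map (H34.holHom gV) = ⨆ A : {A : Subgroup (H34.Hol gV) // A ≤ (gM).map (H34.holHom gV) ∧
    IsBestOffenderOn 2 (H34.holV gV).range A}, (A : Subgroup (H34.Hol gV)) := by
  refine le_antisymm ?_ (iSup_le fun A => A.2.1)
  rw [Subgroup.map_le_iff_le_comap]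
  refine sSup_le fun A hA => ?_
  rw [← Subgroup.map_le_iff_le_comap]
  have hAJ : A ≤ gM := le_sSup hA
  exact le_iSup (fun B : {A : Subgroup (H34.Hol gV) // A ≤ (gM).map (H34.holHom gV) ∧
    IsBestOffenderOn 2 (H34.holV gV).range A} => (B : Subgroup (H34.Hol gV)))
    ⟨A.map (H34.holHom gV), Subgroup.map_mono hAJ, H34.hol_bestOffender (v_elem h) (setup h) hAJ hA⟩

/-- `V ≤ J(T)`. -/
theorem v_le_j (x : Γ) : gV ≤ thompsonSubgroupOf 2 ((x • T : Sylow 2 Γ) : Subgroup Γ) := by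
  set P : Sylow 2 Γ := x • T
  obtain ⟨A, hAP, hA⟩ := H34.exists_max_le_sylow P
  haveI := (v_elem h).1
  have hVC : gV ≤ gC := Subgroup.le_centralizer gV
  have hA1e : IsElementaryAbelian 2 ((A ⊓ gC) ⊔ gV : Subgroup Γ) :=
    H34.isElementaryAbelian_sup (H34.isElementaryAbelian_mono hA.1 inf_le_left) (v_elem h) inf_le_right
  have h1 : A.map (H34.holHom gV) ≤ (gM).map (H34.holHom gV) := Subgroup.map_mono (le_sSup hA)
  have h2' := (setup h).offNum_le h1 (H34.isElementaryAbelian_map hA.1 _)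
  have hcardV : Nat.card ↥(H34.holV gV).range = Nat.card ↥gV :=
    (Nat.card_congr (MonoidHom.ofInjective SemidirectProduct.inl_injective).toEquiv).symm
  rw [H34.offNum, H34.hol_fixed_card, hcardV, H34.fixed_eq_inf_of_mem_max (v_elem h) hA] at h2'
  have h3 := H34.card_mul_card_le (A ⊓ gC) gV
  rw [inf_assoc, inf_eq_right.2 hVC] at h3
  have h4 : Nat.card A * Nat.card ↥(A ⊓ gV) ≤ Nat.card ↥((A ⊓ gC) ⊔ gV : Subgroup Γ) * Nat.card ↥(A ⊓ gV) := by
    refine le_trans (le_trans (le_of_eq ?_) (Nat.mul_le_mul_left (Nat.card ↥(A ⊓ gC)) h2')) h3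
    rw [← H34.hol_card_map gV A]
    ring
  have hA1 := H34.mem_max_of_card_le hA hA1e (Nat.le_of_mul_le_mul_right h4 Nat.card_pos)
  rw [H34.thompsonSubgroupOf_sylow]
  exact le_trans le_sup_right (le_sSup (show ((A ⊓ gC) ⊔ gV : Subgroup Γ) ∈ {B | B ≤ (P : Subgroup Γ) ∧
    B ∈ maxElementaryAbelianSubgroups 2 Γ} from
    ⟨sup_le (inf_le_left.trans hAP) ((v_le_o' h).trans (H19.pCore_le_sylow P)), hA1⟩))

omit h in
/-- Commutators with `V`, transported to the holomorph. -/
theorem map_commutator_hol (K : Subgroup Γ) (hle : ⁅gV, K⁆ ≤ gV) :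
    (⁅gV, K⁆.subgroupOf gV).map (H34.holV gV) = ⁅(H34.holV gV).range, K.map (H34.holHom gV)⁆ := by
  have hcomm : ∀ (v : ↥gV) (k : Γ), ⁅H34.holV gV v, H34.holHom gV k⁆ =
      H34.holV gV (v * ⟨k * (v : Γ)⁻¹ * k⁻¹, (omegaZNormal (Γ := Γ)).conj_mem _ (inv_mem v.2) k⟩) := by
    intro v k
    rw [commutatorElement_def, ← map_inv, mul_assoc (H34.holV gV v), mul_assoc (H34.holV gV v),
      H34.hol_conj, map_mul]
    rfl
  refine le_antisymm ?_ (commutator_le.mpr ?_)
  · rintro _ ⟨⟨u, hu⟩, hmem, rfl⟩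
    rw [SetLike.mem_coe, mem_subgroupOf] at hmem
    suffices hs : ∀ u ∈ ⁅gV, K⁆, ∀ hu : u ∈ gV, H34.holV gV ⟨u, hu⟩ ∈ ⁅(H34.holV gV).range, K.map (H34.holHom gV)⁆ from
      hs u hmem hu
    intro u hu'
    rw [Subgroup.commutator_def] at hu'
    induction hu' using closure_induction with
    | mem y hy =>
      intro hu
      obtain ⟨v, hv, k, hk, rfl⟩ := hy
      have hm : ⁅H34.holV gV ⟨v, hv⟩, H34.holHom gV k⁆ ∈ ⁅(H34.holV gV).range, K.map (H34.holHom gV)⁆ :=
        commutator_mem_commutator ⟨_, rfl⟩ ⟨k, hk, rfl⟩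
      rw [hcomm] at hm
      convert hm using 2
      exact Subtype.ext (by simp [commutatorElement_def, mul_assoc])
    | one =>
      intro hu
      rw [show (⟨1, hu⟩ : ↥gV) = 1 from rfl, map_one]
      exact one_mem _
    | mul y z hy hz ihy ihz =>
      intro hu
      have hyV := hle hy
      have hzV := hle hz
      rw [show (⟨y * z, hu⟩ : ↥gV) = ⟨y, hyV⟩ * ⟨z, hzV⟩ from rfl, map_mul]
      exact mul_mem (ihy hyV) (ihz hzV)
    | inv y hy ihy =>
      intro hu
      have hyV := hle hy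
      rw [show (⟨y⁻¹, hu⟩ : ↥gV) = (⟨y, hyV⟩ : ↥gV)⁻¹ from rfl, map_inv]
      exact inv_mem (ihy hyV)
  · rintro _ ⟨v, rfl⟩ _ ⟨k, hk, rfl⟩
    rw [hcomm]
    refine ⟨_, ?_, rfl⟩
    rw [SetLike.mem_coe, mem_subgroupOf]
    have := commutator_mem_commutator (H₁ := gV) v.2 hk
    simpa [commutatorElement_def, mul_assoc] using this

omit h h2 [Finite Γ] in
/-- `O₂(K)` is a normal two-subgroup of `K` of index three, so cubes of odd elements are trivial. -/
theorem comp_cube {K : Subgroup Γ} (hK : IsComp T K) {g : Γ} (hg : g ∈ K) (ho : Odd (orderOf g)) : g ^ 3 = 1 := by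
  haveI : ((pCoreOf 2 K).subgroupOf K).Normal :=
    normal_subgroupOf_of_le_normalizer (H72.le_normalizer_pCoreOf 2 K)
  have h1 := ((pCoreOf 2 K).subgroupOf K).pow_index_mem ⟨g, hg⟩
  rw [show ((pCoreOf 2 K).subgroupOf K).index = 3 from hK.idx, mem_subgroupOf] at h1
  exact odd_pow_three (H72.pCoreOf_isPGroup 2 K) ho (by simpa using h1)

/-- Basic facts on internal components. -/
theorem comp_basic {K : Subgroup Γ} (hK : IsComp T K) :
    K ≤ gM ∧ ¬ K ≤ (gC : Subgroup Γ) ∧ pCoreOf 2 K ≤ gO ∧ wOf K = ⁅gV, K⁆ ∧ Nat.card ↥(wOf K) = 4 ∧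
      ∃ A, H34.IsTransvectionGroup 2 (H34.holV gV).range ((gM).map (H34.holHom gV)) A ∧
        K.map (H34.holHom gV) = (cD A) ∧ (⁅gV, K⁆.subgroupOf gV).map (H34.holV gV) = (cW A) := by
  obtain ⟨x, hx⟩ := hK.comm
  have hKM : K ≤ gM := hx ▸ (commutator_mono le_rfl (j_le_m x)).trans (commutator_le_right _ _)
  have hnC : ¬ K ≤ (gC : Subgroup Γ) := by
    intro hKC
    have hKO : K ≤ gO := hx ▸ (commutator_mono hKC (j_le_m x)).trans (comm_c_m h)
    have hp : IsPGroup 2 K := (H19.pCore_isPGroup (G := Γ) 2).to_le hKO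
    have := hK.idx
    rw [le_antisymm (H72.pCoreOf_le 2 K) (H72.le_pCoreOf le_rfl le_normalizer hp), relIndex_self] at this
    omega
  set f := H34.holHom gV with hf
  set Hh := (gM).map f with hHh
  have S := setup h
  have hgen := gen h
  -- the two-core of `K` centralizes `V`
  have hQC : pCoreOf 2 K ≤ (gC : Subgroup Γ) := by
    intro q hq
    rw [← H34.holHom_ker gV, MonoidHom.mem_ker]
    refine ff_inter S hgen ⟨q, hKM (H72.pCoreOf_le 2 K hq), rfl⟩ fun A hA => ?_
    obtain ⟨hcom, hinf, -, -⟩ := S.comp_direct_factor hgen hA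
    have hle : K.map f ≤ (cD A) ⊔ (Hh ⊓ centralizer ((cW A : Subgroup _) : Set _)) := by
      conv_lhs => rw [← hK.gen]
      rw [MonoidHom.map_closure, closure_le]
      rintro _ ⟨g, ⟨hg, ho⟩, rfl⟩
      obtain ⟨e, -, hec, -, hodd⟩ := ff_proj S hgen hA (x := f g) ⟨g, hKM hg, rfl⟩
      have heD := hodd 3 (by decide) (by rw [← map_pow, comp_cube hK hg ho, map_one])
      have : f g = e * (e⁻¹ * f g) := by group
      rw [this]
      exact mul_mem (mem_sup_left heD) (mem_sup_right hec)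
    have hq' : f q ∈ (cD A) ⊔ (Hh ⊓ centralizer ((cW A : Subgroup _) : Set _)) :=
      hle ⟨q, H72.pCoreOf_le 2 K hq, rfl⟩
    have hN : Hh ⊓ centralizer ((cW A : Subgroup _) : Set _) ≤ centralizer ((cD A : Subgroup _) : Set _) :=
      (le_centralizer_iff.mp (commutator_eq_bot_iff_le_centralizer.mp hcom)).trans (centralizer_le fun _ hy => mem_sup_left hy)
    rw [← SetLike.mem_coe, coe_mul_of_right_le_normalizer_left _ _ (hN.trans (centralizer_le_normalizer _))] at hq'
    obtain ⟨d, hd, c, hc, hdc⟩ := hq'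
    obtain ⟨i, hi⟩ := H72.pCoreOf_isPGroup 2 K ⟨q, hq⟩
    have hqi : q ^ 2 ^ i = 1 := by simpa using congrArg Subtype.val hi
    have hcd : Commute d c := mem_centralizer_iff.mp (hN hc) d hd
    have h1 : d ^ 2 ^ i * c ^ 2 ^ i = 1 := by
      rw [← hcd.mul_pow]
      show (d * c) ^ 2 ^ i = 1
      rw [show d * c = f q from hdc, ← map_pow, hqi, map_one]
    have hm : d ^ 2 ^ i ∈ H34.compOf 2 Hh A ⊓ (Hh ⊓ centralizer ((cW A : Subgroup _) : Set _)) :=
      ⟨mem_sup_left (pow_mem hd _), by rw [eq_inv_of_mul_eq_one_left h1]; exact Subgroup.inv_mem _ (pow_mem hc _)⟩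
    rw [hinf, mem_bot] at hm
    have hd3 : d ^ 3 = 1 := by
      have := pow_card_eq_one' (x := (⟨d, hd⟩ : ↥(cD A)))
      rw [(ff_card S hA).2.1] at this
      simpa using congrArg Subtype.val this
    have hd1 : d = 1 := orderOf_eq_one_iff.mp (Nat.eq_one_of_dvd_coprimes
      (Nat.Coprime.pow_left i (by decide : Nat.Coprime 2 3)) (orderOf_dvd_of_pow_eq_one hm) (orderOf_dvd_of_pow_eq_one hd3))
    show f q ∈ _
    rw [← hdc, hd1]
    simp only [one_mul]
    exact hc.2
  have hQO : pCoreOf 2 K ≤ gO := two_le_o h (H72.pCoreOf_isPGroup 2 K) hQC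
  -- commutators with `V`
  have hVN : gV ≤ normalizer (K : Set Γ) := by
    refine (v_le_j h x).trans ?_
    have := normalizer_commutator_ge_right (H₁ := K) (H₂ := thompsonSubgroupOf 2 ((x • T : Sylow 2 Γ) : Subgroup Γ))
    rwa [hx] at this
  set U := ⁅gV, K⁆ with hU
  have hUK : U ≤ K := le_normalizer_iff_commutator_le_right.mp hVN
  have hUV : U ≤ gV := commutator_le_left gV K
  have hUQ : U ≤ pCoreOf 2 K :=
    H72.le_pCoreOf hUK (normalizer_commutator_ge_right gV K)
      ((H34.IsPGroup_of_isElementaryAbelian (v_elem h)).to_le hUV)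
  have hUW : U ≤ omegaCenterOf (pCoreOf 2 K) := fun u hu =>
    H34.mem_omegaOne ⟨hUQ hu, le_centralizer_iff.mp hQC (hUV hu)⟩ ((v_elem h).2 u (hUV hu))
  have hstep : ∀ g ∈ K, ∀ v ∈ gV, ⁅v, g⁆ ∈ wOf K := by
    have hcl : closure {g : Γ | g ∈ K ∧ Odd (orderOf g)} ≤ K := hK.gen.le
    intro g hg
    rw [← hK.gen] at hg
    induction hg using closure_induction with
    | mem y hy =>
      intro v hv
      obtain ⟨hyK, hyo⟩ := hy
      have hy3 := comp_cube hK hyK hyo
      have hc1 : y * v * y⁻¹ ∈ gV := (omegaZNormal (Γ := Γ)).conj_mem v hv y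
      have hc2 : y ^ 2 * v * (y ^ 2)⁻¹ ∈ gV := (omegaZNormal (Γ := Γ)).conj_mem v hv _
      haveI := (v_elem h).1
      set t := v * (y * v * y⁻¹) * (y ^ 2 * v * (y ^ 2)⁻¹) with ht
      have htV : t ∈ gV := mul_mem (mul_mem hv hc1) hc2
      have hty : y * t * y⁻¹ = t := by
        rw [ht]
        calc y * (v * (y * v * y⁻¹) * (y ^ 2 * v * (y ^ 2)⁻¹)) * y⁻¹
            = (y * v * y⁻¹) * (y ^ 2 * v * (y ^ 2)⁻¹) * (y ^ 3 * v * (y ^ 3)⁻¹) := by group
          _ = (y * v * y⁻¹) * (y ^ 2 * v * (y ^ 2)⁻¹) * v := by rw [hy3]; group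
          _ = _ := by rw [setLike_mul_comm (s := gV) (mul_mem hc1 hc2) hv]; simp only [mul_assoc]
      have hvv : v * v = 1 := by rw [← pow_two]; exact (v_elem h).2 v hv
      have hxU : t * v ∈ U := by
        have hxe : t * v = (y * v * y⁻¹ * v⁻¹) * (y ^ 2 * v * (y ^ 2)⁻¹ * v⁻¹) := by
          have hvi : v⁻¹ = v := inv_eq_of_mul_eq_one_left hvv
          rw [hvi, ht, setLike_mul_comm (s := gV) hv hc1]
          calc y * v * y⁻¹ * v * (y ^ 2 * v * (y ^ 2)⁻¹) * v = (y * v * y⁻¹ * v) * ((y ^ 2 * v * (y ^ 2)⁻¹) * v) := by group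
            _ = _ := rfl
        rw [hxe]
        have hmem : ∀ z ∈ K, z * v * z⁻¹ * v⁻¹ ∈ U := by
          intro z hz
          have : z * v * z⁻¹ * v⁻¹ = ⁅v, z⁆⁻¹ := by rw [commutatorElement_inv, commutatorElement_def]
          rw [this]
          exact inv_mem (commutator_mem_commutator hv hz)
        exact mul_mem (hmem y hyK) (hmem _ (pow_mem hyK 2))
      have e : ⁅v, y⁆ = ⁅t * v, y⁆ := by
        rw [commutatorElement_def, commutatorElement_def, setLike_mul_comm (s := gV) htV hv, mul_inv_rev]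
        have : y * t⁻¹ = t⁻¹ * y := by
          have hty' : Commute y t := mul_inv_eq_iff_eq_mul.mp hty
          exact hty'.inv_right.eq
        calc v * y * v⁻¹ * y⁻¹ = v * (t * (t⁻¹ * y)) * v⁻¹ * y⁻¹ := by group
          _ = _ := by rw [← this]; group
      rw [e]
      exact commutator_mem_commutator (hUW hxU) hyK
    | one => intro v _; rw [commutatorElement_one_right]; exact one_mem _
    | mul a b ha _ iha ihb =>
      intro v hv
      have : ⁅v, a * b⁆ = ⁅v, a⁆ * (a * ⁅v, b⁆ * a⁻¹) := by simp only [commutatorElement_def]; group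
      rw [this]
      exact mul_mem (iha v hv) ((mem_normalizer_iff.mp (normalizer_commutator_ge_right _ K (hcl ha)) _).mp (ihb v hv))
    | inv a ha iha =>
      intro v hv
      have : ⁅v, a⁻¹⁆ = a⁻¹ * ⁅v, a⁆⁻¹ * a := by simp only [commutatorElement_def]; group
      rw [this]
      have := (mem_normalizer_iff.mp (normalizer_commutator_ge_right _ K (inv_mem (hcl ha))) _).mp (inv_mem (iha v hv))
      rwa [inv_inv] at this
  have hUle : U ≤ wOf K := commutator_le.mpr fun v hv g hg => hstep g hg v hv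
  -- the image
  set W₀ := (U.subgroupOf gV).map (H34.holV gV) with hW₀
  have hW₀c : Nat.card W₀ = Nat.card U := by
    rw [hW₀, card_map_of_injective SemidirectProduct.inl_injective, Nat.card_congr (subgroupOfEquivOfLe hUV).toEquiv]
  have hW₀e : W₀ = ⁅(H34.holV gV).range, K.map f⁆ := map_commutator_hol K hUV
  have hU4 : Nat.card U ≤ 4 := (Nat.le_of_dvd Nat.card_pos (card_dvd_of_le hUle)).trans hK.card
  have key : ∀ g ∈ K, Odd (orderOf g) → f g ≠ 1 → ∃ A, H34.IsTransvectionGroup 2 (H34.holV gV).range Hh A ∧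
      zpowers (f g) = (cD A) ∧ W₀ = (cW A) := by
    intro g hg ho hg1
    refine ff_three S hgen ⟨g, hKM hg, rfl⟩ (by rw [← map_pow, comp_cube hK hg ho, map_one]) hg1 (hW₀c ▸ hU4) ?_
    rw [hW₀e]
    exact commutator_mono le_rfl (zpowers_le.mpr ⟨g, hg, rfl⟩)
  obtain ⟨g, ⟨hgK, hgo⟩, hg1⟩ : ∃ g ∈ {g : Γ | g ∈ K ∧ Odd (orderOf g)}, f g ≠ 1 := by
    by_contra hno
    push Not at hno
    refine hnC ?_
    rw [← hK.gen, closure_le]
    intro g hg
    rw [SetLike.mem_coe, ← H34.holHom_ker gV, MonoidHom.mem_ker]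
    exact hno g hg
  obtain ⟨A, hA, hAg, hAW⟩ := key g hgK hgo hg1
  have hmap : K.map f = (cD A) := by
    refine le_antisymm ?_ (hAg ▸ zpowers_le.mpr ⟨g, hgK, rfl⟩)
    conv_lhs => rw [← hK.gen]
    rw [MonoidHom.map_closure, closure_le]
    rintro _ ⟨g', ⟨hg', ho'⟩, rfl⟩
    by_cases h1 : f g' = 1
    · rw [SetLike.mem_coe, h1]; exact one_mem _
    obtain ⟨B, hB, hBg, hBW⟩ := key g' hg' ho' h1
    have hE := (S.comp_eq_or_disjoint hA hB).1 (hAW.symm.trans hBW)
    have : f g' ∈ H34.compOf 2 Hh A := hE ▸ (mem_sup_left (hBg ▸ mem_zpowers (f g')) :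
      f g' ∈ H34.compOf 2 Hh B)
    exact ff_odd_mem S hA this (by decide : Odd 3) (by rw [← map_pow, comp_cube hK hg' ho', map_one])
  have hU4' : Nat.card U = 4 := by rw [← hW₀c, hAW]; exact (ff_card S hA).2.2.2
  have hWU : wOf K = U := (eq_of_le_of_card_ge hUle (hU4'.symm ▸ hK.card)).symm
  exact ⟨hKM, hnC, hQO, hWU, hWU.symm ▸ hU4', A, hA, hmap, hAW⟩

/-- In each conjugate of `J(T)` some element induces a transvection of a given component. -/
theorem exists_transvection (x : Γ) {A : Subgroup (H34.Hol gV)}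
    (hA : H34.IsTransvectionGroup 2 (H34.holV gV).range ((gM).map (H34.holHom gV)) A) :
    ∃ b ∈ thompsonSubgroupOf 2 ((x • T : Sylow 2 Γ) : Subgroup Γ), ∃ B,
      H34.IsTransvectionGroup 2 (H34.holV gV).range ((gM).map (H34.holHom gV)) B ∧
      H34.holHom gV b ∈ B ∧ H34.holHom gV b ≠ 1 ∧ (cW A) = (cW B) := by
  set f := H34.holHom gV with hf
  set Hh := (gM).map f with hHh
  have S := setup h
  have hgen := gen h
  set J := thompsonSubgroupOf 2 (T : Subgroup Γ) with hJ
  suffices hJT : ∃ B, H34.IsTransvectionGroup 2 (H34.holV gV).range Hh B ∧ B ≤ J.map f ∧ (cW A) = (cW B) by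
    obtain ⟨B, hB, hBJ, hW⟩ := hJT
    obtain ⟨m, hm, hJm⟩ := conj_j h x
    rw [hJm]
    have hmH : f m ∈ Hh := ⟨m, hm, rfl⟩
    obtain ⟨b, hbB, hb1⟩ : ∃ b ∈ B, b ≠ 1 := by
      by_contra hno
      push Not at hno
      have := hB.2.1
      rw [(eq_bot_iff_forall B).mpr hno, card_bot] at this
      omega
    obtain ⟨b0, hb0, rfl⟩ := hBJ hbB
    refine ⟨m * b0 * m⁻¹, ⟨b0, hb0, rfl⟩, MulAut.conj (f m) • B, S.isTransvectionGroup_conj hB hmH, ?_, ?_, ?_⟩
    · rw [map_mul, map_mul, map_inv]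
      exact ⟨f b0, hbB, rfl⟩
    · rw [map_mul, map_mul, map_inv]
      exact fun h' => hb1 (conj_eq_one_iff.mp h')
    · rw [← S.conj_compOf hmH]
      have h1 : MulAut.conj (f m) • (cW B) = (cW B) :=
        H20.conj_smul_eq_of_mem_normalizer ((S.le_normalizer_comp hgen hB).2 hmH)
      rw [hW]
      conv_lhs => rw [← h1]
      conv_rhs => rw [← H20.conj_smul_eq_of_mem_normalizer (S.norm hmH) (H := (H34.holV gV).range)]
      exact Subgroup.map_commutator _ _ (MulAut.conj (f m)).toMonoidHom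
  by_contra hno
  push Not at hno
  -- otherwise all of `J(Γ)` centralizes the plane
  have hJc : J.map f ≤ centralizer ((cW A : Subgroup _) : Set _) := by
    rw [map_le_iff_le_comap, hJ, H34.thompsonSubgroupOf_sylow]
    refine sSup_le fun D hD => ?_
    rw [← map_le_iff_le_comap]
    have hDM : D ≤ gM := le_sSup hD.2
    refine (S.generated_by_transvections (map_mono hDM) (H34.hol_bestOffender (v_elem h) S hDM hD.2)).trans
      (sSup_le fun B hB => ?_)
    refine le_trans le_sup_right ((ff_cross S hgen hA hB.1 ?_).trans inf_le_right)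
    refine hno B hB.1 (hB.2.trans (map_mono ?_))
    rw [hJ, H34.thompsonSubgroupOf_sylow]
    exact le_sSup hD
  have hall : Hh ≤ centralizer ((cW A : Subgroup _) : Set _) := by
    rw [hHh, map_le_iff_le_comap]
    refine sSup_le fun D hD => ?_
    rw [← map_le_iff_le_comap]
    obtain ⟨P, hP⟩ := (H34.IsPGroup_of_isElementaryAbelian hD.1).exists_le_sylow
    obtain ⟨y, rfl⟩ := MulAction.exists_smul_eq Γ T P
    obtain ⟨m, hm, hJm⟩ := conj_j h y
    have hDJ : D ≤ J.map (MulAut.conj m).toMonoidHom := by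
      rw [← hJm, H34.thompsonSubgroupOf_sylow]
      exact le_sSup ⟨hP, hD⟩
    rintro _ ⟨d, hd, rfl⟩
    obtain ⟨j, hj, rfl⟩ := hDJ hd
    have hmN : f m ∈ normalizer (centralizer ((cW A : Subgroup (H34.Hol gV)) : Set (H34.Hol gV)) : Set (H34.Hol gV)) :=
      H20.le_normalizer_centralizer ((S.le_normalizer_comp hgen hA).2) ⟨m, hm, rfl⟩
    have := (mem_normalizer_iff.mp hmN (f j)).mp (hJc ⟨j, hj, rfl⟩)
    simpa using this
  have : A ≤ (⊥ : Subgroup _) := by
    rw [← (S.compFacts hA).faithful]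
    exact le_inf le_sup_right (hA.1.trans hall)
  have h1 := hA.2.1
  rw [le_bot_iff.mp this, card_bot] at h1
  omega

/-- `C` is central in `J(Γ)` modulo the two-core. -/
theorem central_mod [(pCore 2 Γ).Normal] {c m : Γ} (hc : c ∈ (gC : Subgroup Γ)) (hm : m ∈ gM) :
    QuotientGroup.mk' gO c * QuotientGroup.mk' gO m = QuotientGroup.mk' gO m * QuotientGroup.mk' gO c := by
  have hcm : QuotientGroup.mk' gO ⁅c, m⁆ = 1 :=
    (QuotientGroup.eq_one_iff _).mpr (comm_c_m h (commutator_mem_commutator hc hm))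
  rw [map_commutatorElement] at hcm
  exact commutatorElement_eq_one_iff_mul_comm.mp hcm

/-- `J(Γ)` normalizes, modulo the two-core, an element inducing the odd part of a component. -/
theorem plane_normal [(pCore 2 Γ).Normal] {A B : Subgroup (H34.Hol gV)}
    (hA : H34.IsTransvectionGroup 2 (H34.holV gV).range ((gM).map (H34.holHom gV)) A)
    (hB : H34.IsTransvectionGroup 2 (H34.holV gV).range ((gM).map (H34.holHom gV)) B)
    (hW : (cW A) = (cW B)) {k b : Γ} (hkM : k ∈ gM) (hbM : b ∈ gM)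
    (hfkD : H34.holHom gV k ∈ (cD A)) (hk1 : H34.holHom gV k ≠ 1)
    (hbB : H34.holHom gV b ∈ B) (hb1 : H34.holHom gV b ≠ 1)
    (hbinv : QuotientGroup.mk' gO (b * k * b⁻¹) = (QuotientGroup.mk' gO k)⁻¹) :
    ∀ y ∈ gM, QuotientGroup.mk' gO (y * k * y⁻¹) ∈ zpowers (QuotientGroup.mk' gO k) := by
  set f := H34.holHom gV with hf
  set Hh := (gM).map f with hHh
  have S := setup h
  have hgen := gen h
  haveI : (gC : Subgroup Γ).Normal := normal_centralizer
  have hDgen : zpowers (f k) = (cD A) := zpowers_eq_of_card3 (ff_card S hA).2.1 hfkD hk1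
  set π := QuotientGroup.mk' gO with hπ
  have hcentral : ∀ c ∈ (gC : Subgroup Γ), ∀ m ∈ gM, π c * π m = π m * π c := fun c hc m hm => central_mod h hc hm
  -- `k` commutes, modulo the two-core, with the elements fixing the plane
  have hfix : ∀ m ∈ gM, f m ∈ centralizer ((cW A : Subgroup _) : Set _) → π k * π m = π m * π k := by
    intro m hm hmC
    obtain ⟨hcom, -, -, -⟩ := S.comp_direct_factor hgen hA
    have hce : ∀ e ∈ H34.compOf 2 Hh A, Commute e (f m) := fun e he =>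
      commutatorElement_eq_one_iff_mul_comm.mp (mem_bot.mp (hcom ▸ commutator_mem_commutator he ⟨⟨m, hm, rfl⟩, hmC⟩))
    have hzC : ⁅k, m⁆ ∈ (gC : Subgroup Γ) := by
      rw [← H34.holHom_ker gV, MonoidHom.mem_ker, map_commutatorElement, commutatorElement_eq_one_iff_mul_comm]
      exact (hce _ (mem_sup_left hfkD)).eq
    have hbE : f b ∈ H34.compOf 2 Hh A := (S.comp_eq_or_disjoint hA hB).1 hW ▸ mem_sup_right hbB
    set c := m⁻¹ * (b * m * b⁻¹) with hc
    have hcC : c ∈ (gC : Subgroup Γ) := by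
      rw [← H34.holHom_ker gV, MonoidHom.mem_ker, hc, map_mul, map_inv, map_mul, map_mul, map_inv,
        (hce _ hbE).eq]
      show (f m)⁻¹ * (f m * f b * (f b)⁻¹) = 1
      group
    set z := π ⁅k, m⁆ with hz
    have hzc : ∀ y ∈ gM, z * π y = π y * z := fun y hy => hcentral _ hzC y hy
    skip
    -- conjugating by `b`
    have e1 : π (b * m * b⁻¹) = π m * π c := by rw [← map_mul, hc]; congr 1; group
    have e2 : π b * z * (π b)⁻¹ = z := by rw [← hzc b hbM, mul_inv_cancel_right]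
    have e3 : π b * z * (π b)⁻¹ = (π k)⁻¹ * (π m * π c) * π k * (π m * π c)⁻¹ := by
      rw [← e1]
      rw [show π b * z * (π b)⁻¹ = π (b * k * b⁻¹) * π (b * m * b⁻¹) * (π (b * k * b⁻¹))⁻¹ * (π (b * m * b⁻¹))⁻¹ by
        rw [hz, commutatorElement_def]; simp only [map_mul, map_inv]; group]
      rw [hbinv, inv_inv]
    have hck : π c * π k = π k * π c := hcentral c hcC k hkM
    have e4 : (π k)⁻¹ * (π m * π c) * π k * (π m * π c)⁻¹ = z⁻¹ := by
      have e5 : (π k)⁻¹ * (π m * π c) * π k * (π m * π c)⁻¹ = (π k)⁻¹ * π m * π k * (π m)⁻¹ := by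
        calc _ = (π k)⁻¹ * π m * (π c * π k) * (π c)⁻¹ * (π m)⁻¹ := by group
          _ = _ := by rw [hck]; group
      rw [e5]
      have e6 : (π k)⁻¹ * π m * π k * (π m)⁻¹ = (π k)⁻¹ * z⁻¹ * π k := by
        rw [hz, commutatorElement_def]; simp only [map_mul, map_inv]; group
      rw [e6]
      have : Commute z (π k) := hzc k hkM
      rw [mul_assoc, this.inv_left.eq, inv_mul_cancel_left]
    rw [e2, e4] at e3
    have hsq : ⁅k, m⁆ ^ 2 ∈ gO := by
      refine (QuotientGroup.eq_one_iff _).mp ?_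
      show π (⁅k, m⁆ ^ 2) = 1
      rw [map_pow, ← hz, pow_two, mul_eq_one_iff_eq_inv]
      exact e3
    have hz1 : z = 1 := (QuotientGroup.eq_one_iff _).mpr (mem_o_of_sq h hzC hsq)
    rw [hz, map_commutatorElement] at hz1
    exact commutatorElement_eq_one_iff_mul_comm.mp hz1
  -- `J(Γ)` normalizes `K O₂(Γ)`
  have hY : ∀ y ∈ gM, π (y * k * y⁻¹) ∈ zpowers (π k) := by
    intro y hy
    obtain ⟨e, heE, hec, -, -⟩ := ff_proj S hgen hA (x := f y) ⟨y, hy, rfl⟩
    have hkc : ∀ m ∈ gM, f m ∈ centralizer ((cW A : Subgroup _) : Set _) → π (m * k * m⁻¹) = π k := by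
      intro m hm hmC
      rw [map_mul, map_mul, map_inv, ← hfix m hm hmC, mul_inv_cancel_right]
    have hmain : ∀ (m0 : Γ), m0 ∈ gM → f m0 = e → π (m0 * k * m0⁻¹) ∈ zpowers (π k) →
        π (y * k * y⁻¹) ∈ zpowers (π k) := by
      intro m0 hm0 hfm hz
      have hm' : m0⁻¹ * y ∈ gM := mul_mem (inv_mem hm0) hy
      have h1 := hkc _ hm' (by rw [map_mul, map_inv, hfm]; exact hec.2)
      have : π (y * k * y⁻¹) = π m0 * π ((m0⁻¹ * y) * k * (m0⁻¹ * y)⁻¹) * (π m0)⁻¹ := by
        simp only [map_mul, map_inv]; group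
      rw [this, h1]
      simpa [map_mul, map_inv] using hz
    have hpow : ∀ i : ℤ, π (k ^ i * k * (k ^ i)⁻¹) ∈ zpowers (π k) := fun i => by
      rw [show k ^ i * k * (k ^ i)⁻¹ = k by group]; exact mem_zpowers _
    by_cases heD : e ∈ (cD A)
    · rw [← hDgen] at heD
      obtain ⟨i, hi⟩ := mem_zpowers_iff.mp heD
      exact hmain (k ^ i) (zpow_mem hkM i) (by rw [map_zpow, hi]) (hpow i)
    · have hbE : f b ∈ H34.compOf 2 Hh A := (S.comp_eq_or_disjoint hA hB).1 hW ▸ mem_sup_right hbB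
      have hbD : f b ∉ (cD A) := by
        intro hbD
        have hb2 : f b ^ 2 = 1 := (S.transvection_facts hB).2.2 _ hbB
        have hd3 : f b ^ 3 = 1 := by
          have := pow_card_eq_one' (x := (⟨f b, hbD⟩ : ↥(cD A)))
          rw [(ff_card S hA).2.1] at this
          simpa using congrArg Subtype.val this
        exact hb1 (orderOf_eq_one_iff.mp (Nat.eq_one_of_dvd_coprimes (by decide : Nat.Coprime 2 3)
          (orderOf_dvd_of_pow_eq_one hb2) (orderOf_dvd_of_pow_eq_one hd3)))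
      have hidx : ((cD A).subgroupOf (H34.compOf 2 Hh A)).index = 2 := by
        have := ((cD A).subgroupOf (H34.compOf 2 Hh A)).card_mul_index
        rw [Nat.card_congr (subgroupOfEquivOfLe (le_sup_left : (cD A) ≤ H34.compOf 2 Hh A)).toEquiv,
          (ff_card S hA).2.1, (ff_card S hA).1] at this
        omega
      have hed : e * f b ∈ (cD A) := by
        have := (mul_mem_iff_of_index_two hidx (a := ⟨e, heE⟩) (b := ⟨f b, hbE⟩)).mpr
          (by simp [mem_subgroupOf, heD, hbD])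
        simpa [mem_subgroupOf] using this
      rw [← hDgen] at hed
      obtain ⟨i, hi⟩ := mem_zpowers_iff.mp hed
      refine hmain (k ^ i * b⁻¹) (mul_mem (zpow_mem hkM i) (inv_mem hbM)) ?_ ?_
      · rw [map_mul, map_zpow, hi, map_inv, mul_inv_cancel_right]
      · have hbk' : π (b⁻¹ * k * b) = (π k)⁻¹ := by
          have e7 : π k = π b⁻¹ * π (b * k * b⁻¹) * π b := by simp only [map_mul, map_inv]; group
          rw [hbinv] at e7
          conv_rhs => rw [e7]
          simp only [map_mul, map_inv, mul_inv_rev, inv_inv]; group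
        have e8 : π (k ^ i * b⁻¹ * k * (k ^ i * b⁻¹)⁻¹) = π k ^ i * π (b⁻¹ * k * b) * (π k ^ i)⁻¹ := by
          simp only [map_mul, map_inv, map_zpow]; group
        rw [e8, hbk']
        exact mul_mem (mul_mem (zpow_mem (mem_zpowers _) i) (inv_mem (mem_zpowers _))) (inv_mem (zpow_mem (mem_zpowers _) i))
  exact hY

/-- An element of a component centralizing `V` is in the two-core. -/
theorem comp_ker {K : Subgroup Γ} (hK : IsComp T K) {y : Γ} (hy : y ∈ K) (hyC : y ∈ (gC : Subgroup Γ)) :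
    y ∈ gO := by
  obtain ⟨-, hnC, hQO, -⟩ := comp_basic h hK
  have hQ : pCoreOf 2 K ≤ K ⊓ gC := le_inf (H72.pCoreOf_le 2 K) (hQO.trans (o_le_c h))
  have h1 := relIndex_mul_relIndex (pCoreOf 2 K) (K ⊓ gC) K hQ inf_le_left
  rw [hK.idx] at h1
  rcases (Nat.dvd_prime Nat.prime_three).mp ⟨_, h1.symm⟩ with h2 | h2
  · exact hQO (relIndex_eq_one.mp h2 ⟨hy, hyC⟩)
  · rw [h2] at h1
    have h3 : (K ⊓ gC).relIndex K = 1 := by omega
    exact absurd (fun z hz => (relIndex_eq_one.mp h3 hz).2) hnC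

/-- A component is normal in `J(Γ)`. -/
theorem comp_normal {K : Subgroup Γ} (hK : IsComp T K) : gM ≤ normalizer (K : Set Γ) := by
  obtain ⟨hKM, hnC, hQO, -, -, A, hA, hmap, -⟩ := comp_basic h hK
  obtain ⟨x, hx⟩ := hK.comm
  set f := H34.holHom gV with hf
  set Hh := (gM).map f with hHh
  have S := setup h
  have hgen := gen h
  obtain ⟨b, hbJ, B, hB, hbB, hb1, hW⟩ := exists_transvection h x hA
  set J' := thompsonSubgroupOf 2 ((x • T : Sylow 2 Γ) : Subgroup Γ) with hJ'
  have hJK : J' ≤ normalizer (K : Set Γ) := by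
    have := normalizer_commutator_ge_right (H₁ := K) (H₂ := J')
    rwa [hx] at this
  haveI : (gO).Normal := H19.pCore_normal 2 Γ
  haveI : (gC : Subgroup Γ).Normal := normal_centralizer
  -- a generator
  obtain ⟨k, hkK, hko, hk1⟩ : ∃ k ∈ K, Odd (orderOf k) ∧ f k ≠ 1 := by
    by_contra hno
    push Not at hno
    refine hnC ?_
    rw [← hK.gen, closure_le]
    intro g hg
    rw [SetLike.mem_coe, ← H34.holHom_ker gV, MonoidHom.mem_ker]
    exact hno g hg.1 hg.2
  have hk3 := comp_cube hK hkK hko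
  have hfkD : f k ∈ (cD A) := hmap ▸ ⟨k, hkK, rfl⟩
  have hDgen : zpowers (f k) = (cD A) := zpowers_eq_of_card3 (ff_card S hA).2.1 hfkD hk1
  haveI hQn : ((pCoreOf 2 K).subgroupOf K).Normal :=
    normal_subgroupOf_of_le_normalizer (H72.le_normalizer_pCoreOf 2 K)
  have hKdec : ∀ y ∈ K, f y = 1 → y ∈ gO := fun y hy hy1 =>
    comp_ker h hK hy (by rw [← H34.holHom_ker gV, MonoidHom.mem_ker]; exact hy1)
  set π := QuotientGroup.mk' gO with hπ
  have hbM : b ∈ gM := j_le_m x hbJ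
  have hbinv : π (b * k * b⁻¹) = (π k)⁻¹ := by
    have hbk : b * k * b⁻¹ ∈ K := (mem_normalizer_iff.mp (hJK hbJ) k).mp hkK
    rw [← map_inv]
    refine QuotientGroup.eq.mpr ?_
    have hinv := ff_invert S hgen hA hB hW hbB hb1 hfkD
    have : (b * k * b⁻¹)⁻¹ * k⁻¹ ∈ gO := hKdec _ (mul_mem (inv_mem hbk) (inv_mem hkK)) (by
      rw [map_mul, map_inv, map_mul, map_mul, map_inv, map_inv, hinv, inv_inv, mul_inv_cancel])
    exact this
  have hY := plane_normal h hA hB hW (hKM hkK) hbM hfkD hk1 hbB hb1 hbinv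
  -- `K` is characteristic in `K O₂(Γ)`
  have hON : gO ≤ normalizer (K : Set Γ) := by
    refine normalizes_odd_generated hK.gen hx ((x • T).isPGroup'.to_le (H34.thompsonSubgroupOf_le _)) ?_ ?_
    · exact le_normalizer_of_normal
    · exact ((H19.pCore_le_sylow (x • T)).trans le_normalizer).trans (H34.normalizer_le_normalizer_thompson _)
  intro y hy
  refine mem_normalizer_of_conj_mem fun g hg => ?_
  have hle : K ≤ K.comap (MulAut.conj y).toMonoidHom := by
    conv_lhs => rw [← hK.gen]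
    rw [closure_le]
    rintro g ⟨hgK, hgo⟩
    show y * g * y⁻¹ ∈ K
    -- it lies in `K O₂(Γ)`
    have hmem : y * g * y⁻¹ ∈ K ⊔ gO := by
      haveI : Fact (Nat.Prime 3) := ⟨Nat.prime_three⟩
      have hfg : f g ∈ zpowers (f k) := hDgen ▸ hmap ▸ ⟨g, hgK, rfl⟩
      obtain ⟨i, hi⟩ := mem_zpowers_iff.mp hfg
      have hπg : π g = π k ^ i := by
        rw [← map_zpow]
        refine (QuotientGroup.eq.mpr (hKdec _ (mul_mem (inv_mem hgK) (zpow_mem hkK i)) ?_) : _)
        rw [map_mul, map_inv, map_zpow, hi, inv_mul_cancel]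
      obtain ⟨j, hj⟩ := mem_zpowers_iff.mp (hY y hy)
      have : π (y * g * y⁻¹) = π ((k ^ j) ^ i) := by
        have e9 : π (y * g * y⁻¹) = π y * π g * (π y)⁻¹ := by simp [map_mul]
        rw [e9, hπg, ← conj_zpow, ← map_inv, ← map_mul, ← map_mul, ← hj, map_zpow, map_zpow]
      have h9 := QuotientGroup.eq.mp this.symm
      have h10 : (k ^ j) ^ i * (((k ^ j) ^ i)⁻¹ * (y * g * y⁻¹)) ∈ K ⊔ gO :=
        mul_mem (mem_sup_left (zpow_mem (zpow_mem hkK j) i)) (mem_sup_right h9)
      rwa [mul_inv_cancel_left] at h10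
    rw [← SetLike.mem_coe, coe_mul_of_right_le_normalizer_left K gO hON] at hmem
    obtain ⟨k', hk', o, ho, hko'⟩ := hmem
    set X := normalizer (K : Set Γ)
    haveI : (K.subgroupOf X).Normal := normal_in_normalizer
    set φ := QuotientGroup.mk' (K.subgroupOf X)
    have hyX : y * g * y⁻¹ ∈ X := hko' ▸ mul_mem (le_normalizer hk') (hON ho)
    have h1 : φ ⟨_, hyX⟩ = φ ⟨o, hON ho⟩ := by
      refine QuotientGroup.eq.mpr ?_
      rw [mem_subgroupOf]
      simp only [coe_mul, coe_inv, ← hko']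
      have h2 := (mem_normalizer_iff.mp (hON (inv_mem ho)) k'⁻¹).mp (inv_mem hk')
      simpa [mul_assoc] using h2
    obtain ⟨i, hi⟩ := H19.pCore_isPGroup (G := Γ) 2 ⟨o, ho⟩
    have ho2 : o ^ 2 ^ i = 1 := by simpa using congrArg Subtype.val hi
    have h3 : φ ⟨o, hON ho⟩ = 1 := by
      refine orderOf_eq_one_iff.mp (Nat.eq_one_of_dvd_coprimes (Nat.Coprime.pow_left i hgo.coprime_two_left) ?_ ?_)
      · exact orderOf_dvd_of_pow_eq_one (by rw [← map_pow, ← map_one φ]; congr 1; exact Subtype.ext (by simpa using ho2))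
      · rw [← h1]
        refine (orderOf_map_dvd φ _).trans (dvd_of_eq ?_)
        rw [Subgroup.orderOf_mk]
        exact MulEquiv.orderOf_eq (MulAut.conj y) g
    have hoK : o ∈ K := mem_subgroupOf.mp ((QuotientGroup.eq_one_iff _).mp h3)
    rw [← hko']
    exact mul_mem hk' hoK
  exact hle hg

end Cfsg.Agent.H74.JC
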