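import Cfsg.Agent.H74.JSecondBasic

/-!
A graph on involutions whose neighbourhoods are four-groups: all vertices on walks commute.
-/

set_option autoImplicit false

namespace Cfsg.Agent.H74.JB

open Subgroup Cfsg

variable {G : Type*} [Group G] [Finite G]

/-- Walks of length `n`. -/
inductive Walk (Adj : G → G → Prop) : ℕ → G → G → Prop
  | nil (x : G) : Walk Adj 0 x x
  | cons {n : ℕ} {x y z : G} : Adj x y → Walk Adj n y z → Walk Adj (n + 1) x z

omit [Group G] [Finite G] in
/-- Walks can be extended at the end. -/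
theorem Walk.snoc {Adj : G → G → Prop} {n : ℕ} {x y z : G} (h : Walk Adj n x y) (h' : Adj y z) :
    Walk Adj (n + 1) x z := by
  induction h with
  | nil x => exact Walk.cons h' (Walk.nil z)
  | cons a _ ih => exact Walk.cons a (ih h')

omit [Group G] [Finite G] in
/-- Splitting off the last edge. -/
theorem Walk.last {Adj : G → G → Prop} : ∀ {n : ℕ} {x z : G}, Walk Adj (n + 1) x z → ∃ y, Walk Adj n x y ∧ Adj y z := by
  intro n
  induction n with
  | zero =>
    intro x z h
    cases h with
    | cons a h' => cases h'; exact ⟨x, Walk.nil x, a⟩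
  | succ n ih =>
    intro x z h
    cases h with
    | cons a h' =>
      obtain ⟨y, h1, h2⟩ := ih h'
      exact ⟨y, Walk.cons a h1, h2⟩

omit [Group G] [Finite G] in
/-- Walks can be reversed. -/
theorem Walk.rev {Adj : G → G → Prop} (hs : ∀ x y, Adj x y → Adj y x) {n : ℕ} {x y : G} (h : Walk Adj n x y) :
    Walk Adj n y x := by
  induction h with
  | nil x => exact Walk.nil x
  | cons a _ ih => exact ih.snoc (hs _ _ a)

/-- The neighbourhood hypotheses. -/
structure FourGraph (Adj : G → G → Prop) : Prop where
  symm : ∀ x y, Adj x y → Adj y x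
  irrefl : ∀ x, ¬ Adj x x
  equiv : ∀ g x y : G, Adj x y → Adj (g * x * g⁻¹) (g * y * g⁻¹)
  nbr : ∀ x y, Adj x y → ∃ W : Subgroup G, Nat.card W = 4 ∧ (∀ z ∈ W, z * z = 1) ∧
    ∀ z, Adj x z ↔ z ∈ W ∧ z ≠ 1
  comm : ∀ x y, Adj x y → Commute x y

variable {Adj : G → G → Prop} (hA : FourGraph Adj)
include hA

/-- Walks of length at most two join commuting vertices. -/
theorem FourGraph.short {n : ℕ} (hn : n ≤ 2) {x y : G} (h : Walk Adj n x y) : Commute x y := by
  obtain rfl | rfl | rfl : n = 0 ∨ n = 1 ∨ n = 2 := by omega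
  · cases h; exact Commute.refl x
  · cases h with
    | cons a h' => cases h'; exact hA.comm _ _ a
  · cases h with
    | cons a h' =>
      cases h' with
      | cons b h'' =>
        cases h''
        obtain ⟨W, -, hW2, hW⟩ := hA.nbr _ _ b
        have hx := ((hW x).mp (hA.symm _ _ a)).1
        have hy := ((hW y).mp b).1
        have h1 := hW2 _ (mul_mem hx hy)
        calc x * y = (x * y)⁻¹ := (inv_eq_of_mul_eq_one_left h1).symm
          _ = y⁻¹ * x⁻¹ := mul_inv_rev _ _
          _ = y * x := by rw [inv_eq_of_mul_eq_one_left (hW2 x hx), inv_eq_of_mul_eq_one_left (hW2 y hy)]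

/-- The two ends of a walk commute, or their commutator is the vertex two steps before the end. -/
theorem FourGraph.step {n : ℕ} (ih : ∀ m ≤ n + 1, ∀ x y, Walk Adj m x y → Commute x y) {x a b z : G}
    (hw : Walk Adj n x a) (hab : Adj a b) (hbz : Adj b z) : Commute x z ∨ x * z * x⁻¹ = a * z := by
  have hxa : Commute x a := ih n (by omega) x a hw
  have hxb : Commute x b := ih (n + 1) le_rfl x b (hw.snoc hab)
  obtain ⟨W, hW4, hW2, hW⟩ := hA.nbr _ _ hbz
  have hz := (hW z).mp hbz
  have ha := (hW a).mp (hA.symm _ _ hab)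
  have hxz := hA.equiv x b z hbz
  rw [hxb.eq, mul_inv_cancel_right] at hxz
  have hxz' := (hW _).mp hxz
  by_cases hne : a = z
  · exact Or.inl (hne ▸ hxa)
  rcases four_cases hW4.le ha.1 hz.1 ha.2 hz.2 hne (hW2 a ha.1) hxz'.1 with e | e | e | e
  · exact absurd e hxz'.2
  · refine absurd ?_ hne
    have : x * a * x⁻¹ = a := by rw [hxa.eq, mul_inv_cancel_right]
    exact (mul_left_cancel (mul_right_cancel (this.trans e.symm)))
  · exact Or.inl (mul_inv_eq_iff_eq_mul.mp e)
  · exact Or.inr e

/-- The commutator across a walk of length at least three. -/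
theorem FourGraph.step_two {n : ℕ} (hn : 1 ≤ n) (ih : ∀ m ≤ n + 1, ∀ x y, Walk Adj m x y → Commute x y) {x z : G}
    (hw : Walk Adj (n + 2) x z) :
    Commute x z ∨ ∃ p u q, Adj x p ∧ Adj p u ∧ Adj q z ∧ Adj u q ∧ Walk Adj n x u ∧ x * z * x⁻¹ = u * z := by
  cases hw with
  | cons a h' =>
    rename_i p
    cases h' with
    | cons b h'' =>
      rename_i u
      obtain ⟨q, h1, hqz⟩ := (Walk.cons a (Walk.cons b h'')).last
      obtain ⟨v, h2, hvq⟩ := h1.last
      rcases hA.step ih h2 hvq hqz with h3 | h3
      · exact Or.inl h3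
      rcases hA.step ih (h''.rev hA.symm) (hA.symm _ _ b) (hA.symm _ _ a) with h4 | h4
      · exact Or.inl h4.symm
      by_cases hc : Commute x z
      · exact Or.inl hc
      -- both commutators are the same element
      have e1 : x * z = v * z * x := mul_inv_eq_iff_eq_mul.mp h3
      have e2 : z * x = u * x * z := mul_inv_eq_iff_eq_mul.mp h4
      have e3 : v * u = 1 := by
        have h5 : x * z = (v * u) * (x * z) := by
          conv_lhs => rw [e1, mul_assoc, e2]
          group
        exact mul_right_cancel ((h5.symm).trans (one_mul _).symm)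
      have hu2 : u * u = 1 := by
        obtain ⟨W, -, hW2, hW⟩ := hA.nbr _ _ b
        exact hW2 u ((hW u).mp b).1
      have hvu : v = u := by rw [eq_inv_of_mul_eq_one_left e3, inv_eq_of_mul_eq_one_left hu2]
      subst hvu
      exact Or.inr ⟨p, v, q, a, b, hqz, hvq, h2, h3⟩

/-- If vertices at distance four commute then so do all vertices on walks. -/
theorem FourGraph.all_comm (h4 : ∀ x y, Walk Adj 4 x y → Commute x y) :
    ∀ n x y, Walk Adj n x y → Commute x y := by
  intro n
  induction n using Nat.strong_induction_on with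
  | _ n ih =>
    intro x z hw
    rcases (show n ≤ 2 ∨ n = 4 ∨ (3 ≤ n ∧ n ≠ 4) by omega) with hn | rfl | ⟨hn, hn4⟩
    · exact hA.short hn hw
    · exact h4 x z hw
    obtain ⟨m, rfl⟩ := Nat.exists_eq_add_of_le (show 2 ≤ n by omega)
    rw [add_comm] at hw
    rcases hA.step_two (by omega) (fun k hk => ih k (by omega)) hw with h | ⟨p, u, q, hxp, hpu, hqz, huq, -, -⟩
    · exact h
    exact h4 x z (Walk.cons hxp (Walk.cons hpu (Walk.cons huq (Walk.cons hqz (Walk.nil z)))))

/-- Ends of a walk of length three commute. -/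
theorem FourGraph.three {x z : G} (hw : Walk Adj 3 x z) : Commute x z := by
  cases hw with
  | cons a h' =>
    rename_i p
    cases h' with
    | cons b h'' =>
      rename_i u
      obtain ⟨W, hW4, hW2, hW⟩ := hA.nbr _ _ b
      have hp := (hW u).mp b
      cases h'' with
      | cons c h3 =>
        cases h3
        have ih : ∀ m ≤ 1 + 1, ∀ x y, Walk Adj m x y → Commute x y := fun m hm _ _ h => hA.short hm h
        rcases hA.step ih (Walk.cons a (Walk.nil p)) b c with h1 | h1
        · exact h1
        rcases hA.step ih (Walk.cons (hA.symm _ _ c) (Walk.nil u)) (hA.symm _ _ b) (hA.symm _ _ a) with h2 | h2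
        · exact h2.symm
        exfalso
        have e1 : x * z = p * z * x := mul_inv_eq_iff_eq_mul.mp h1
        have e2 : z * x = u * x * z := mul_inv_eq_iff_eq_mul.mp h2
        have e3 : p * u = 1 := by
          have h5 : x * z = (p * u) * (x * z) := by
            conv_lhs => rw [e1, mul_assoc, e2]
            group
          exact mul_right_cancel ((h5.symm).trans (one_mul _).symm)
        have hpu : p = u := by rw [eq_inv_of_mul_eq_one_left e3, inv_eq_of_mul_eq_one_left (hW2 u hp.1)]
        subst hpu
        exact hA.irrefl _ b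

end Cfsg.Agent.H74.JB
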