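import Cfsg.Agent.H74.JFarCentre
import Cfsg.Agent.H74.JGraph

/-!
The planes of two parabolics with different containers do not commute.
-/

set_option autoImplicit false

namespace Cfsg.Agent.H74.JB

open Subgroup Cfsg
open scoped commutatorElement Pointwise

variable {G : Type*} [Group G] [Finite G]

omit [Finite G] in
/-- Conjugates of commuting elements commute. -/
theorem commute_conj {a b : G} (g : G) (h : Commute a b) : Commute (g * a * g⁻¹) (g * b * g⁻¹) := by
  show g * a * g⁻¹ * (g * b * g⁻¹) = g * b * g⁻¹ * (g * a * g⁻¹)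
  calc g * a * g⁻¹ * (g * b * g⁻¹) = g * (a * b) * g⁻¹ := by group
    _ = g * (b * a) * g⁻¹ := by rw [h.eq]
    _ = _ := by group

/-- `c` and `c'` are crossing central elements. -/
structure Cross (T K L K' L' : Subgroup G) (c c' : G) : Prop where
  pl : Plane T K L
  pl' : Plane T K' L'
  diff : L ≠ L'
  ww : ∀ u ∈ wOf K, ∀ v ∈ wOf K', u * v = v * u
  c1 : c ≠ 1
  cC : c ∈ cZero T K
  cW : c ∈ wOf K'
  c'1 : c' ≠ 1
  c'C : c' ∈ cZero T K'
  c'W : c' ∈ wOf K

variable {T K L K' L' : Subgroup G} {c c' : G}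

omit [Finite G] in
theorem Cross.swap (h : Cross T K L K' L' c c') : Cross T K' L' K L c' c :=
  ⟨h.pl', h.pl, h.diff.symm, fun u hu v hv => (h.ww v hv u hu).symm, h.c'1, h.c'C, h.c'W, h.c1, h.cC, h.cW⟩

/-- The two elements differ. -/
theorem Cross.ne (h : Cross T K L K' L' c c') : c ≠ c' := fun e => h.c1 (mem_bot.mp
  ((z0_split h.pl.two h.pl.comp).2.2.1.le ⟨h.cC, e ▸ h.c'W⟩))

/-- The centralizer of `c` lies in the container. -/
theorem Cross.centralizer_le (h : Cross T K L K' L' c c') : centralizer ({c} : Set G) ≤ L :=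
  h.pl.cont.univ _ (centralizer_local ((z0_elem T).2 c h.cC.1) h.c1) (cZero_centralizer h.cC)

/-- `T` centralizes `c`. -/
theorem Cross.t_le (h : Cross T K L K' L' c c') : T ≤ centralizer ({c} : Set G) := fun _ ht =>
  mem_centralizer_singleton_iff.mpr (mem_centralizer_iff.mp (h.pl.cen ht) c h.cC.1).symm

/-- `K` is the only component in its container. -/
theorem Cross.unique (hZN : ZN G) (h : Cross T K L K' L' c c') {X : Subgroup G} (hX : IsJComponent T X) (hXL : X ≤ L) :
    X = K := by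
  by_contra hne
  have hKL : K ≤ L := le_sup_left.trans h.pl.cont.le
  have hKL' : K' ≤ L' := le_sup_left.trans h.pl'.cont.le
  obtain ⟨hW2, -, -, -⟩ := z0_split h.pl.two h.pl.comp
  have hw'Z : c' ∈ omegaCenterOf (thompsonSubgroupOf 2 T) := h.c'C.1
  -- `c'` centralizes `X`
  have hX' : X ⊔ thompsonSubgroupOf 2 T ≤ centralizer ({c'} : Set G) := sup_le
    (fun x hx => mem_centralizer_singleton_iff.mpr
      (mem_centralizer_iff.mp (comp_cross hZN h.pl.ne h.pl.ovg hX hXL h.pl.comp hKL hne hx) c' h.c'W).symm)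
    (le_sup_right.trans (cZero_centralizer h.c'C))
  have hXL' := hX'.trans h.swap.centralizer_le
  -- the container of `X` is `L`
  obtain ⟨hW2X, hsX, -, -⟩ := z0_split h.pl.two hX
  obtain ⟨x, hx, hx1⟩ : ∃ x ∈ omegaCenterOf (thompsonSubgroupOf 2 T) ⊓ wOf X, x ≠ 1 := by
    by_contra hh
    push Not at hh
    rw [(eq_bot_iff_forall _).mpr hh, card_bot] at hW2X
    omega
  have hxK : K ≤ centralizer ({x} : Set G) := fun k hk => mem_centralizer_singleton_iff.mpr
    (mem_centralizer_iff.mp (comp_cross hZN h.pl.ne h.pl.ovg h.pl.comp hKL hX hXL (Ne.symm hne) hk) x hx.2).symm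
  have hXK' : X ≤ L' := le_sup_left.trans hXL'
  by_cases hXe : X = K'
  · subst hXe
    exact h.diff (h.pl.cont.eq_of_le h.pl'.cont (sup_le hXL (le_sup_right.trans h.pl.cont.le))).symm
  have hc'K : K' ≤ centralizer ({x} : Set G) := fun k hk => mem_centralizer_singleton_iff.mpr
    (mem_centralizer_iff.mp (comp_cross hZN h.pl'.ne h.pl'.ovg h.pl'.comp hKL' hX hXK' (Ne.symm hXe) hk) x hx.2).symm
  have hJ : thompsonSubgroupOf 2 T ≤ centralizer ({x} : Set G) := fun j hj =>
    mem_centralizer_singleton_iff.mpr ((omega_mem hx.1).2.1 j hj)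
  have hloc := centralizer_local ((z0_elem T).2 x hx.1) hx1
  exact h.diff (h.pl.cont.eq_of_le h.pl'.cont ((sup_le hc'K hJ).trans (h.pl.cont.univ _ hloc (sup_le hxK hJ)))).symm

/-- The container normalizes `K`. -/
theorem Cross.le_normalizer (hZN : ZN G) (h : Cross T K L K' L' c c') : L ≤ normalizer (K : Set G) := fun g hg => by
  obtain ⟨h1, h2⟩ := comp_conj_overgroup hZN h.pl.ne h.pl.ovg h.pl.comp (le_sup_left.trans h.pl.cont.le) hg
  exact mem_normalizer_iff_map_conj_eq.mpr (h.unique hZN h1 h2)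

/-- `C(c)` normalizes `W_K`. -/
theorem Cross.normalizes (hZN : ZN G) (h : Cross T K L K' L' c c') :
    centralizer ({c} : Set G) ≤ normalizer (wOf K : Set G) :=
  (h.centralizer_le.trans (h.le_normalizer hZN)).trans (normalizer_le_normalizer_wOf K)

/-- Conjugation taking `c'` to `c` takes `W_{K'}` to `W_K`. -/
theorem Cross.transport (hZN : ZN G) (h : Cross T K L K' L' c c') {g : G} (hg : g * c' * g⁻¹ = c) :
    (wOf K').map (MulAut.conj g).toMonoidHom = wOf K := by
  haveI : Fact (Nat.Prime 2) := ⟨Nat.prime_two⟩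
  set C := centralizer ({c} : Set G) with hC
  have hTC : IsSylowTwoIn T C := by
    refine ⟨h.t_le, h.pl.two, ?_⟩
    have := relIndex_mul_relIndex T C L h.t_le h.centralizer_le
    exact Nat.Odd.of_mul_left (this ▸ h.pl.ovg.1.2.2 : Odd (T.relIndex C * C.relIndex L))
  have hle : T.map (MulAut.conj g).toMonoidHom ≤ C := by
    rintro _ ⟨t, ht, rfl⟩
    refine mem_centralizer_singleton_iff.mpr ?_
    show g * t * g⁻¹ * c = c * (g * t * g⁻¹)
    rw [← hg]
    calc g * t * g⁻¹ * (g * c' * g⁻¹) = g * (t * c') * g⁻¹ := by group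
      _ = g * (c' * t) * g⁻¹ := by rw [(mem_centralizer_singleton_iff.mp (h.swap.t_le ht))]
      _ = _ := by group
  obtain ⟨l, hl, hle'⟩ := exists_le_conj hTC (h.pl.two.map _) hle
  have he : T.map (MulAut.conj g).toMonoidHom = T.map (MulAut.conj l).toMonoidHom :=
    eq_of_le_of_card_ge hle' ((card_map_of_injective (MulAut.conj l).injective).trans
      (card_map_of_injective (MulAut.conj g).injective).symm).le
  set m := l⁻¹ * g with hm
  have hcomp : ∀ X : Subgroup G, (X.map (MulAut.conj m).toMonoidHom).map (MulAut.conj l).toMonoidHom =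
      X.map (MulAut.conj g).toMonoidHom := fun X => by
    rw [map_map]; congr 1; ext x; simp [hm, mul_assoc]
  have hmT : m ∈ normalizer (T : Set G) := by
    rw [mem_normalizer_iff_map_conj_eq]
    exact map_injective (f := (MulAut.conj l).toMonoidHom) (MulAut.conj l).injective ((hcomp T).trans he)
  have hmc : m * c' * m⁻¹ = c := by
    calc m * c' * m⁻¹ = l⁻¹ * (g * c' * g⁻¹) * l := by rw [hm]; group
      _ = l⁻¹ * (c * l) := by rw [hg]; group
      _ = l⁻¹ * (l * c) := by rw [mem_centralizer_singleton_iff.mp hl]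
      _ = c := inv_mul_cancel_left l c
  have hKm := isJComponent_conj_of_normalizes h.pl'.comp (H34.normalizer_le_normalizer_thompson T hmT)
  have hKmL : K'.map (MulAut.conj m).toMonoidHom ≤ L := by
    rintro _ ⟨k, hk, rfl⟩
    refine h.centralizer_le (mem_centralizer_singleton_iff.mpr ?_)
    show m * k * m⁻¹ * c = c * (m * k * m⁻¹)
    rw [← hmc]
    calc m * k * m⁻¹ * (m * c' * m⁻¹) = m * (k * c') * m⁻¹ := by group
      _ = m * (c' * k) * m⁻¹ := by rw [mem_centralizer_singleton_iff.mp (cZero_centralizer h.c'C (mem_sup_left hk))]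
      _ = _ := by group
  rw [← hcomp, map_wOf (MulAut.conj m).injective, h.unique hZN hKm hKmL]
  exact mem_normalizer_iff_map_conj_eq.mp (h.normalizes hZN hl)

/-- Every nontrivial member of `W_K` is a conjugate of `c'` by an element of `K`. -/
theorem Cross.conj_mem (h : Cross T K L K' L' c c') {u : G} (hu : u ∈ wOf K) (hu1 : u ≠ 1) :
    ∃ k ∈ K, k * c' * k⁻¹ = u := by
  obtain ⟨d, hd, hd3, -, -, -, hfpf⟩ := exists_generator h.pl.comp
  have hKW : K ≤ normalizer (wOf K : Set G) := Subgroup.le_normalizer.trans (normalizer_le_normalizer_wOf K)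
  set u₁ := d * c' * d⁻¹ with hu₁
  set u₂ := d * u₁ * d⁻¹ with hu₂
  have hu₁W : u₁ ∈ wOf K := (mem_normalizer_iff.mp (hKW hd) c').mp h.c'W
  have hu₂W : u₂ ∈ wOf K := (mem_normalizer_iff.mp (hKW hd) u₁).mp hu₁W
  have hu₁1 : u₁ ≠ 1 := fun e => h.c'1 (conj_eq_one_iff.mp e)
  have hu₂1 : u₂ ≠ 1 := fun e => hu₁1 (conj_eq_one_iff.mp e)
  have h10 : c' ≠ u₁ := fun e => h.c'1 (hfpf c' h.c'W e.symm)
  have h21 : u₂ ≠ u₁ := fun e => hu₁1 (hfpf u₁ hu₁W e)
  have h20 : u₂ ≠ c' := fun e => by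
    refine h.c'1 (hfpf c' h.c'W ?_)
    calc d * c' * d⁻¹ = d * (d * (d * c' * d⁻¹) * d⁻¹) * d⁻¹ := by rw [← hu₁, ← hu₂, e]
      _ = d ^ 3 * c' * (d ^ 3)⁻¹ := by rw [pow_three']; group
      _ = c' := by rw [hd3]; group
  have hcc := h.pl.comp.2.2.2.2.2 c' h.c'W
  have h4 := h.pl.comp.2.2.2.2.1.le
  have h2e : u₂ = c' * u₁ := by
    rcases four_cases h4 h.c'W hu₁W h.c'1 hu₁1 h10 hcc hu₂W with e | e | e | e
    · exact absurd e hu₂1
    · exact absurd e h20
    · exact absurd e h21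
    · exact e
  rcases four_cases h4 h.c'W hu₁W h.c'1 hu₁1 h10 hcc hu with e | e | e | e
  · exact absurd e hu1
  · exact ⟨1, one_mem K, by rw [e]; group⟩
  · exact ⟨d, hd, by rw [e]⟩
  · exact ⟨d * d, mul_mem hd hd, by rw [e, ← h2e, hu₂, hu₁]; group⟩

/-- Adjacency. -/
def crossAdj (K K' : Subgroup G) (c c' : G) (x y : G) : Prop :=
  y ≠ 1 ∧ ∃ g : G, (g * c * g⁻¹ = x ∧ g⁻¹ * y * g ∈ wOf K) ∨ (g * c' * g⁻¹ = x ∧ g⁻¹ * y * g ∈ wOf K')

omit [Finite G] in
theorem crossAdj_swap {x y : G} (h : crossAdj K K' c c' x y) : crossAdj K' K c' c x y := by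
  obtain ⟨h1, g, hg⟩ := h
  exact ⟨h1, g, hg.symm⟩

/-- One half of symmetry. -/
theorem Cross.adj_symm_aux (h : Cross T K L K' L' c c') {x y g : G} (hy : y ≠ 1) (hx : g * c * g⁻¹ = x)
    (hm : g⁻¹ * y * g ∈ wOf K) : crossAdj K K' c c' y x := by
  obtain ⟨k, hk, he⟩ := h.conj_mem hm (fun e => hy (by
    calc y = g * (g⁻¹ * y * g) * g⁻¹ := by group
      _ = 1 := by rw [e]; group))
  refine ⟨fun e => h.c1 (conj_eq_one_iff.mp (hx.trans e)), g * k, Or.inr ⟨?_, ?_⟩⟩
  · calc g * k * c' * (g * k)⁻¹ = g * (k * c' * k⁻¹) * g⁻¹ := by group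
      _ = y := by rw [he]; group
  · have hkc := mem_centralizer_singleton_iff.mp (cZero_centralizer h.cC (mem_sup_left hk))
    have : (g * k)⁻¹ * x * (g * k) = c := by
      calc (g * k)⁻¹ * x * (g * k) = k⁻¹ * (c * k) := by rw [← hx]; group
        _ = k⁻¹ * (k * c) := by rw [hkc]
        _ = c := inv_mul_cancel_left k c
    rw [this]
    exact h.cW

/-- Symmetry. -/
theorem Cross.adj_symm (h : Cross T K L K' L' c c') {x y : G} (ha : crossAdj K K' c c' x y) :
    crossAdj K K' c c' y x := by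
  obtain ⟨hy, g, ⟨h1, h2⟩ | ⟨h1, h2⟩⟩ := ha
  · exact h.adj_symm_aux hy h1 h2
  · exact crossAdj_swap (h.swap.adj_symm_aux hy h1 h2)

/-- Neighbourhoods of conjugates of `c`. -/
theorem Cross.nbr_aux (hZN : ZN G) (h : Cross T K L K' L' c c') {x g : G} (hx : g * c * g⁻¹ = x) (z : G) :
    crossAdj K K' c c' x z ↔ z ∈ (wOf K).map (MulAut.conj g).toMonoidHom ∧ z ≠ 1 := by
  constructor
  · rintro ⟨hz, g₁, hg₁⟩
    refine ⟨?_, hz⟩
    rcases hg₁ with ⟨h1, h2⟩ | ⟨h1, h2⟩
    · have hmem : g⁻¹ * g₁ ∈ centralizer ({c} : Set G) := by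
        refine mem_centralizer_singleton_iff.mpr (mul_inv_eq_iff_eq_mul.mp ?_)
        calc g⁻¹ * g₁ * c * (g⁻¹ * g₁)⁻¹ = g⁻¹ * (g₁ * c * g₁⁻¹) * g := by group
          _ = c := by rw [h1, ← hx]; group
      refine ⟨_, (mem_normalizer_iff.mp (h.normalizes hZN hmem) _).mp h2, ?_⟩
      show g * (g⁻¹ * g₁ * (g₁⁻¹ * z * g₁) * (g⁻¹ * g₁)⁻¹) * g⁻¹ = z
      group
    · have he := h.transport hZN (g := g⁻¹ * g₁) (by
        calc g⁻¹ * g₁ * c' * (g⁻¹ * g₁)⁻¹ = g⁻¹ * (g₁ * c' * g₁⁻¹) * g := by group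
          _ = c := by rw [h1, ← hx]; group)
      refine ⟨_, he.le ⟨_, h2, rfl⟩, ?_⟩
      show g * (g⁻¹ * g₁ * (g₁⁻¹ * z * g₁) * (g⁻¹ * g₁)⁻¹) * g⁻¹ = z
      group
  · rintro ⟨⟨u, hu, rfl⟩, hz⟩
    refine ⟨hz, g, Or.inl ⟨hx, ?_⟩⟩
    show g⁻¹ * (g * u * g⁻¹) * g ∈ wOf K
    rwa [show g⁻¹ * (g * u * g⁻¹) * g = u by group]

/-- The graph. -/
theorem Cross.graph (hZN : ZN G) (h : Cross T K L K' L' c c') : FourGraph (crossAdj K K' c c') := by
  have hcomm : ∀ {T K L K' L' : Subgroup G} {c c' : G}, Cross T K L K' L' c c' → ∀ u ∈ wOf K, Commute c u :=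
    fun {T K L K' L' c c'} h u hu => (mem_centralizer_singleton_iff.mp (cZero_centralizer h.cC
      (mem_sup_left (H72.pCoreOf_le 2 K ((wOf_facts h.pl.comp).2.2.1 hu))))).symm
  have hdisj : ∀ {T K L K' L' : Subgroup G} {c c' : G}, Cross T K L K' L' c c' → c ∉ wOf K :=
    fun {T K L K' L' c c'} h hc => h.c1 (mem_bot.mp ((z0_split h.pl.two h.pl.comp).2.2.1.le ⟨h.cC, hc⟩))
  refine ⟨fun x y => h.adj_symm, ?_, ?_, ?_, ?_⟩
  · rintro x ⟨-, g, ⟨h1, h2⟩ | ⟨h1, h2⟩⟩ <;> rw [← h1] at h2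
    · rw [show g⁻¹ * (g * c * g⁻¹) * g = c by group] at h2
      exact hdisj h h2
    · rw [show g⁻¹ * (g * c' * g⁻¹) * g = c' by group] at h2
      exact hdisj h.swap h2
  · rintro a x y ⟨hy, g, hg⟩
    refine ⟨fun e => hy (conj_eq_one_iff.mp e), a * g, ?_⟩
    have e : (a * g)⁻¹ * (a * y * a⁻¹) * (a * g) = g⁻¹ * y * g := by group
    rcases hg with ⟨h1, h2⟩ | ⟨h1, h2⟩
    · exact Or.inl ⟨by rw [← h1]; group, by rwa [e]⟩
    · exact Or.inr ⟨by rw [← h1]; group, by rwa [e]⟩
  · rintro x y ⟨-, g, hg⟩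
    rcases hg with ⟨h1, -⟩ | ⟨h1, -⟩
    · refine ⟨(wOf K).map (MulAut.conj g).toMonoidHom, ?_, ?_, fun z => h.nbr_aux hZN h1 z⟩
      · rw [card_map_of_injective (MulAut.conj g).injective]; exact h.pl.comp.2.2.2.2.1
      · rintro _ ⟨u, hu, rfl⟩
        rw [← map_mul, h.pl.comp.2.2.2.2.2 u hu, map_one]
    · refine ⟨(wOf K').map (MulAut.conj g).toMonoidHom, ?_, ?_, fun z =>
        ⟨fun hz => (h.swap.nbr_aux hZN h1 z).mp (crossAdj_swap hz),
          fun hz => crossAdj_swap ((h.swap.nbr_aux hZN h1 z).mpr hz)⟩⟩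
      · rw [card_map_of_injective (MulAut.conj g).injective]; exact h.pl'.comp.2.2.2.2.1
      · rintro _ ⟨u, hu, rfl⟩
        rw [← map_mul, h.pl'.comp.2.2.2.2.2 u hu, map_one]
  · rintro x y ⟨-, g, ⟨h1, h2⟩ | ⟨h1, h2⟩⟩
    · have := commute_conj g (hcomm h _ h2)
      rwa [h1, show g * (g⁻¹ * y * g) * g⁻¹ = y by group] at this
    · have := commute_conj g (hcomm h.swap _ h2)
      rwa [h1, show g * (g⁻¹ * y * g) * g⁻¹ = y by group] at this

omit [Finite G] in
/-- Walks compose. -/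
theorem Walk.append {Adj : G → G → Prop} {n m : ℕ} {x y z : G} (h : Walk Adj n x y) (h' : Walk Adj m y z) :
    Walk Adj (m + n) x z := by
  induction h with
  | nil x => exact h'
  | cons a _ ih => exact Walk.cons a (ih h')

/-- Conjugation maps walks to walks. -/
theorem FourGraph.walk_map {Adj : G → G → Prop} (hA : FourGraph Adj) (g : G) {n : ℕ} {x y : G} (h : Walk Adj n x y) :
    Walk Adj n (g * x * g⁻¹) (g * y * g⁻¹) := by
  induction h with
  | nil x => exact Walk.nil _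
  | cons a _ ih => exact Walk.cons (hA.equiv g _ _ a) ih

/-- Vertices at distance four around a conjugate of `c` commute. -/
theorem Cross.four_aux (hZN : ZN G) (h : Cross T K L K' L' c c') {x p q z g : G} (hpx : crossAdj K K' c c' p x)
    (hup : crossAdj K K' c c' (g * c * g⁻¹) p) (huq : crossAdj K K' c c' (g * c * g⁻¹) q)
    (hqz : crossAdj K K' c c' q z) : Commute x z := by
  have hA := h.graph hZN
  obtain ⟨hpW, hp1⟩ := (h.nbr_aux hZN rfl p).mp hup
  obtain ⟨hqW, hq1⟩ := (h.nbr_aux hZN rfl q).mp huq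
  obtain ⟨u, hu, hpu⟩ := hpW
  obtain ⟨v, hv, hqv⟩ := hqW
  have hpu' : g * u * g⁻¹ = p := hpu
  have hqv' : g * v * g⁻¹ = q := hqv
  obtain ⟨k₁, hk₁, e₁⟩ := h.conj_mem hu (fun e => hp1 (by rw [← hpu', e]; group))
  obtain ⟨k₂, hk₂, e₂⟩ := h.conj_mem hv (fun e => hq1 (by rw [← hqv', e]; group))
  obtain ⟨hxW, -⟩ := (h.swap.nbr_aux hZN (g := g * k₁) (x := p) (by rw [← hpu', ← e₁]; group) x).mp
    (crossAdj_swap hpx)
  obtain ⟨hzW, -⟩ := (h.swap.nbr_aux hZN (g := g * k₂) (x := q) (by rw [← hqv', ← e₂]; group) z).mp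
    (crossAdj_swap hqz)
  obtain ⟨a, ha, rfl⟩ := hxW
  obtain ⟨b, hb, rfl⟩ := hzW
  set k := k₁⁻¹ * k₂ with hk
  have hkK : k ∈ K := mul_mem (inv_mem hk₁) hk₂
  have hab : Commute a (k * b * k⁻¹) := by
    have hW'c : wOf K' ≤ centralizer ({c} : Set G) := fun w hw =>
      mem_centralizer_singleton_iff.mpr ((mem_centralizer_iff.mp (h.pl.cen
        ((h.pl'.w_le hZN hw).1)) c h.cC.1).symm)
    by_cases hb1 : b = 1
    · subst hb1; simp
    by_cases hbc : b = c
    · have : k * b * k⁻¹ = c := by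
        rw [hbc, mem_centralizer_singleton_iff.mp (cZero_centralizer h.cC (mem_sup_left hkK)), mul_inv_cancel_right]
      rw [this]
      exact mem_centralizer_singleton_iff.mp (hW'c ha)
    have hkc : Commute c k :=
      (mem_centralizer_singleton_iff.mp (cZero_centralizer h.cC (mem_sup_left hkK))).symm
    have hac : Commute a c := mem_centralizer_singleton_iff.mp (hW'c ha)
    have hbk := h.pl.centre_comm hZN h.pl' h.ww h.c1 h.cC h.cW h.c'1 h.c'C h.c'W h.ne hb hkK
    rcases four_cases h.pl'.comp.2.2.2.2.1.le h.cW hb h.c1 hb1 (Ne.symm hbc) (h.pl'.comp.2.2.2.2.2 c h.cW) ha with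
      e | e | e | e <;> rw [e]
    · exact Commute.one_left _
    · exact ((hkc.mul_right (mem_centralizer_singleton_iff.mp (hW'c hb)).symm).mul_right hkc.inv_right)
    · exact hbk
    · exact ((hkc.mul_right (mem_centralizer_singleton_iff.mp (hW'c hb)).symm).mul_right hkc.inv_right).mul_left hbk
  have := commute_conj (g * k₁) hab
  rwa [show g * k₁ * (k * b * k⁻¹) * (g * k₁)⁻¹ = g * k₂ * b * (g * k₂)⁻¹ by rw [hk]; group] at this

/-- The crossing situation is impossible. -/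
theorem Cross.absurd (hZN : ZN G) (h : Cross T K L K' L' c c') : False := by
  haveI : Fact (Nat.Prime 2) := ⟨Nat.prime_two⟩
  have hA := h.graph hZN
  have h4 : ∀ x y, Walk (crossAdj K K' c c') 4 x y → Commute x y := by
    intro x y hw
    cases hw with
    | cons a w1 => cases w1 with
      | cons b w2 => cases w2 with
        | cons e w3 => cases w3 with
          | cons f w4 =>
            cases w4
            have hu := hA.symm _ _ b
            obtain ⟨-, g, ⟨hg, -⟩ | ⟨hg, -⟩⟩ := hu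
            · subst hg
              exact h.four_aux hZN (hA.symm _ _ a) (hA.symm _ _ b) e f
            · subst hg
              exact h.swap.four_aux hZN (crossAdj_swap (hA.symm _ _ a)) (crossAdj_swap (hA.symm _ _ b))
                (crossAdj_swap e) (crossAdj_swap f)
  set S : Set G := {x | ∃ n, Walk (crossAdj K K' c c') n c x} with hS
  set N := Subgroup.closure S with hN
  have hcS : c ∈ S := ⟨0, Walk.nil c⟩
  have hadj : crossAdj K K' c c' c c' := by
    refine ⟨h.c'1, 1, Or.inl ⟨by group, ?_⟩⟩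
    rw [show (1 : G)⁻¹ * c' * 1 = c' by group]; exact h.c'W
  have hsq : ∀ x ∈ S, x * x = 1 := by
    rintro x ⟨n, hw⟩
    cases n with
    | zero => cases hw; exact (omega_mem h.cC.1).2.2
    | succ n =>
      obtain ⟨p, -, hpx⟩ := hw.last
      obtain ⟨W, -, hW2, hW⟩ := hA.nbr _ _ hpx
      exact hW2 x ((hW x).mp hpx).1
  have hcomm : ∀ x ∈ S, ∀ y ∈ S, x * y = y * x := by
    rintro x ⟨n, hn⟩ y ⟨m, hm⟩
    exact hA.all_comm h4 _ x y ((hn.rev hA.symm).append hm)
  haveI := Subgroup.isMulCommutative_closure hcomm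
  have hN2 : IsPGroup 2 N := by
    intro x
    refine ⟨1, Subtype.ext ?_⟩
    have hx : ∀ z ∈ N, z * z = 1 := by
      intro z hz
      induction hz using Subgroup.closure_induction with
      | mem z hz => exact hsq z hz
      | one => exact one_mul 1
      | mul a b ha hb iha ihb =>
        calc a * b * (a * b) = a * (b * a) * b := by group
          _ = a * (a * b) * b := by rw [setLike_mul_comm (s := N) hb ha]
          _ = (a * a) * (b * b) := by group
          _ = 1 := by rw [iha, ihb, one_mul]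
      | inv a ha iha => rw [← mul_inv_rev, iha, inv_one]
    simpa [pow_two] using hx x x.2
  have hne : N ≠ ⊥ := fun h0 => h.c1 (mem_bot.mp (h0 ▸ Subgroup.subset_closure hcS))
  have hnorm : ∀ b : G, (Commute b c ∨ Commute b c') → b ∈ normalizer (N : Set G) := by
    intro b hb
    refine mem_normalizer_of_conj_mem fun z hz => ?_
    have hle : N ≤ N.comap (MulAut.conj b).toMonoidHom := (Subgroup.closure_le _).mpr fun x hx => by
      obtain ⟨n, hn⟩ := hx
      have hb' := hA.walk_map b hn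
      refine Subgroup.subset_closure (?_ : b * x * b⁻¹ ∈ S)
      rcases hb with hb | hb
      · rw [hb.eq, mul_inv_cancel_right] at hb'
        exact ⟨n, hb'⟩
      · have h2 := hA.walk_map b ((Walk.cons hadj (Walk.nil c')).rev hA.symm)
        rw [hb.eq, mul_inv_cancel_right] at h2
        exact ⟨_, ((Walk.cons hadj (Walk.nil c')).append h2).append hb'⟩
    exact hle hz
  have hloc : IsTwoLocal (normalizer (N : Set G)) := ⟨N, hN2, hne, rfl⟩
  have h1 : K ⊔ thompsonSubgroupOf 2 T ≤ normalizer (N : Set G) := fun b hb =>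
    hnorm b (Or.inl (mem_centralizer_singleton_iff.mp (cZero_centralizer h.cC hb)))
  have h2 : K' ⊔ thompsonSubgroupOf 2 T ≤ normalizer (N : Set G) := fun b hb =>
    hnorm b (Or.inr (mem_centralizer_singleton_iff.mp (cZero_centralizer h.c'C hb)))
  exact h.diff (h.pl.cont.eq_of_le h.pl'.cont (h2.trans (h.pl.cont.univ _ hloc h1))).symm

/-- The planes of two parabolics with different containers do not commute. -/
theorem Plane.not_commute (hZN : ZN G) (h : Plane T K L) (h' : Plane T K' L') (hne : L ≠ L') :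
    ¬ ∀ u ∈ wOf K, ∀ v ∈ wOf K', u * v = v * u := by
  intro hWW
  obtain ⟨c, hc1, hcC, hcW⟩ := h.cross_center hZN h' hne hWW
  obtain ⟨c', hc'1, hc'C, hc'W⟩ := h'.cross_center hZN h hne.symm fun u hu v hv => (hWW v hv u hu).symm
  exact Cross.absurd hZN (⟨h, h', hne, hWW, hc1, hcC, hcW, hc'1, hc'C, hc'W⟩ : Cross T K L K' L' c c')

end Cfsg.Agent.H74.JB
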