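import Cfsg.Agent.H74.JPair

/-!
Two parabolics with commuting planes: the centres lie in each other's planes, and the three conjugates of the
other plane commute pairwise.
-/

set_option autoImplicit false

namespace Cfsg.Agent.H74.JB

open Subgroup Cfsg
open scoped commutatorElement Pointwise

variable {G : Type*} [Group G] [Finite G]

/-- `O₂` of one parabolic is not inside that of the other. -/
theorem Plane.core_not_le (hZN : ZN G) {T K L K' L' : Subgroup G} (h : Plane T K L) (h' : Plane T K' L')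
    (hne : L ≠ L') : ¬ pR T K ≤ pR T K' := by
  intro hle
  obtain ⟨-, -, -, -, -, hRT, -, hPR, -, hprod, -, -, -, -⟩ := Plane.facts hZN h
  obtain ⟨-, -, -, -, -, -, -, hPR', -, -, ⟨A', hA', a', ha'A, ha'R⟩, -, -, -⟩ := Plane.facts hZN h'
  have heq : pR T K = pR T K' := by
    refine le_antisymm hle fun t ht => ?_
    by_contra htn
    have ha'T := hA'.1 ha'A
    have ha'n : a' ∉ pR T K := fun hh => ha'R (hle hh)
    have := mul_mem (inv_mem ht) (hle (hprod t ht.1 a' ha'T htn ha'n))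
    rw [inv_mul_cancel_left] at this
    exact ha'R this
  obtain ⟨-, -, hWQ, -⟩ := wOf_facts h.comp
  have hWR : wOf K ≤ pR T K := hWQ.trans (Plane.facts hZN h).choose_spec.2.2.2.2.2.1
  have hR1 : pR T K ≠ ⊥ := fun h0 => (wOf_facts h.comp).2.1 (le_bot_iff.mp (h0 ▸ hWR))
  have hN := Plane.normalizer_le hZN h (h.two.to_le hRT) hR1 (le_sup_left.trans hPR) (le_sup_right.trans hPR)
  refine hne (h.cont.eq_of_le h'.cont ?_).symm
  exact ((sup_le_sup_left (H34.thompsonSubgroupOf_le _) K').trans (heq ▸ hPR')).trans hN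

/-- `W_K ≤ O₂` of the parabolic. -/
theorem Plane.w_le (hZN : ZN G) {T K L : Subgroup G} (h : Plane T K L) : wOf K ≤ pR T K :=
  (wOf_facts h.comp).2.2.1.trans (Plane.facts hZN h).choose_spec.2.2.2.2.2.1

/-- With commuting planes the centre of one parabolic lies in the plane of the other. -/
theorem Plane.cross_center (hZN : ZN G) {T K L K' L' : Subgroup G} (h : Plane T K L) (h' : Plane T K' L')
    (hne : L ≠ L') (hWW : ∀ u ∈ wOf K, ∀ v ∈ wOf K', u * v = v * u) :
    ∃ c, c ≠ 1 ∧ c ∈ cZero T K ∧ c ∈ wOf K' := by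
  haveI : Fact (Nat.Prime 2) := ⟨Nat.prime_two⟩
  obtain ⟨hW2, -, -, -⟩ := z0_split h'.two h'.comp
  obtain ⟨w, hw, hw1⟩ : ∃ w ∈ omegaCenterOf (thompsonSubgroupOf 2 T) ⊓ wOf K', w ≠ 1 := by
    by_contra hh
    push Not at hh
    rw [(eq_bot_iff_forall _).mpr hh, card_bot] at hW2
    omega
  refine ⟨w, hw1, ?_, hw.2⟩
  by_contra hwC
  have hW'R' := h'.w_le hZN
  have hW'R : wOf K' ≤ pR T K := fun v hv => ⟨(hW'R' hv).1, fun u hu => hWW u hu v hv⟩
  obtain ⟨-, -, -, -, hRV, hZV⟩ := Plane.module hZN h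
  have hwV : w ∈ pV T K := hZV hw.1
  have hRW' : pR T K ≤ centralizer (wOf K' : Set G) := by
    by_cases hle : wOf K' ≤ pV T K
    · exact hRV.trans (centralizer_le hle)
    refine Plane.four_group hZN h ⟨le_centralizer_iff_isMulCommutative.mp fun x hx y hy => (hW'R' hx).2 y hy,
      fun x hx => by rw [pow_two]; exact h'.comp.2.2.2.2.2 x hx⟩ h'.comp.2.2.2.2.1 hW'R
      (h'.norm.trans (normalizer_le_normalizer_wOf K')) hw.2 hw.1 hwC fun x hx hxV => ?_
    by_contra hh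
    push Not at hh
    refine hle fun v hv => ?_
    rcases four_cases h'.comp.2.2.2.2.1.le hw.2 hx hw1 hh.1 (Ne.symm hh.2) (omega_mem hw.1).2.2 hv with
      e | e | e | e <;> rw [e]
    · exact one_mem _
    · exact hwV
    · exact hxV
    · exact mul_mem hwV hxV
  exact h.core_not_le hZN h' hne fun r hr => ⟨hr.1, hRW' hr⟩

set_option maxHeartbeats 800000 in
/-- The conjugates of `W_{K'}` under `K` commute. -/
theorem Plane.centre_comm (hZN : ZN G) {T K L K' L' : Subgroup G} (h : Plane T K L) (h' : Plane T K' L')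
    (hWW : ∀ u ∈ wOf K, ∀ v ∈ wOf K', u * v = v * u)
    {c c' : G} (hc1 : c ≠ 1) (hc : c ∈ cZero T K) (hcW : c ∈ wOf K')
    (hc'1 : c' ≠ 1) (hc' : c' ∈ cZero T K') (hc'W : c' ∈ wOf K) (hcc' : c ≠ c')
    {y : G} (hy : y ∈ wOf K') {k : G} (hk : k ∈ K) : Commute y (k * y * k⁻¹) := by
  haveI : Fact (Nat.Prime 2) := ⟨Nat.prime_two⟩
  obtain ⟨-, -, -, -, -, hRT, hQR, hPR, -, -, -, -, -, -⟩ := Plane.facts hZN h
  obtain ⟨-, -, -, -, -, hRT', hQR', hPR', -, -, -, -, -, -⟩ := Plane.facts hZN h'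
  obtain ⟨d, hd, hd3, -, hdec, -, -⟩ := exists_generator h.comp
  obtain ⟨d', hd', -, -, -, -, hfpf'⟩ := exists_generator h'.comp
  set R := pR T K with hR
  set R' := pR T K' with hR'
  have hW'R' : wOf K' ≤ R' := h'.w_le hZN
  have hWR : wOf K ≤ R := h.w_le hZN
  have hcT : c ∈ T := (hW'R' hcW).1
  have hcc : c * c = 1 := h'.comp.2.2.2.2.2 c hcW
  have hcfix : ∀ t ∈ T, t * c * t⁻¹ = c := fun t ht => by
    rw [← mem_centralizer_iff.mp (h.cen ht) c hc.1, mul_inv_cancel_right]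
  have hc'fix : ∀ t ∈ T, t * c' * t⁻¹ = c' := fun t ht => by
    rw [← mem_centralizer_iff.mp (h.cen ht) c' hc'.1, mul_inv_cancel_right]
  have hcK : ∀ k ∈ K, Commute c k := fun k hk =>
    (mem_centralizer_singleton_iff.mp (cZero_centralizer hc (mem_sup_left hk))).symm
  by_cases hy1 : y = 1
  · subst hy1; exact Commute.one_left _
  by_cases hyc : y = c
  · subst hyc
    exact (hcK k hk).mul_right (Commute.refl y) |>.mul_right (hcK k hk).inv_right
  by_contra hno
  have hyR : y ∈ R := ⟨(hW'R' hy).1, fun u hu => hWW u hu y hy⟩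
  have hty : ∀ t ∈ T, t * y * t⁻¹ = y ∨ t * y * t⁻¹ = c * y := by
    intro t ht
    have h1 : t * y * t⁻¹ ∈ wOf K' :=
      (mem_normalizer_iff.mp (normalizer_le_normalizer_wOf K' (h'.norm ht)) y).mp hy
    rcases four_cases h'.comp.2.2.2.2.1.le hcW hy hc1 hy1 (Ne.symm hyc) hcc h1 with e | e | e | e
    · exact absurd (conj_eq_one_iff.mp e) hy1
    · exact absurd (mul_left_cancel (mul_right_cancel (e.trans (hcfix t ht).symm))) hyc
    · exact Or.inl e
    · exact Or.inr e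
  -- classes of the conjugates modulo `⟨c⟩`
  set y₁ := d * y * d⁻¹ with hy₁
  set y₂ := d * y₁ * d⁻¹ with hy₂
  have hdP : d ∈ K ⊔ T := mem_sup_left hd
  have hy1R : y₁ ∈ R := (mem_normalizer_iff.mp (hPR hdP) y).mp hyR
  have hy2R : y₂ ∈ R := (mem_normalizer_iff.mp (hPR hdP) y₁).mp hy1R
  let In : G → G → Prop := fun x e => x = e ∨ x = c * e
  have hcd : Commute c d := hcK d hd
  have hIn : ∀ {x e g : G}, Commute c g → In x e → In (g * x * g⁻¹) (g * e * g⁻¹) := by
    intro x e g hcg hx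
    rcases hx with rfl | rfl
    · exact Or.inl rfl
    · refine Or.inr ?_
      calc g * (c * e) * g⁻¹ = (g * c) * e * g⁻¹ := by group
        _ = (c * g) * e * g⁻¹ := by rw [hcg.eq]
        _ = _ := by group
  have hclass : ∀ k ∈ K, ∀ x, In x y → In (k * x * k⁻¹) y ∨ In (k * x * k⁻¹) y₁ ∨ In (k * x * k⁻¹) y₂ := by
    intro k hk x hx
    obtain ⟨n, q, hq, rfl⟩ := hdec k hk
    have hqT : q ∈ T := hRT (hQR hq)
    have hcq : Commute c q := mem_centralizer_iff.mp (h.cen hqT) c hc.1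
    have hq1 : In (q * x * q⁻¹) y := by
      rcases hIn hcq hx with e | e <;> rcases hty q hqT with e' | e' <;> rw [e'] at e
      · exact Or.inl e
      · exact Or.inr e
      · exact Or.inr e
      · exact Or.inl (by rw [e, ← mul_assoc, hcc, one_mul])
    rw [show d ^ n * q * x * (d ^ n * q)⁻¹ = d ^ n * (q * x * q⁻¹) * (d ^ n)⁻¹ by group, pow_eq_pow_mod n hd3]
    rcases (show n % 3 = 0 ∨ n % 3 = 1 ∨ n % 3 = 2 by omega) with h3 | h3 | h3 <;> rw [h3]
    · exact Or.inl (by simpa using hq1)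
    · exact Or.inr (Or.inl (by rw [pow_one]; exact hIn hcd hq1))
    · refine Or.inr (Or.inr ?_)
      have := hIn hcd (hIn hcd hq1)
      rw [pow_two]
      rwa [show d * (d * (q * x * q⁻¹) * d⁻¹) * d⁻¹ = d * d * (q * x * q⁻¹) * (d * d)⁻¹ by group] at this
  have hd3' : d * y₂ * d⁻¹ = y := by
    calc d * y₂ * d⁻¹ = d ^ 3 * y * (d ^ 3)⁻¹ := by rw [hy₂, hy₁, pow_three']; group
      _ = y := by rw [hd3]; group
  have hcR : ∀ r ∈ R, Commute c r := fun r hr => mem_centralizer_iff.mp (h.cen (hRT hr)) c hc.1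
  have hInComm : ∀ {x e z : G}, In x e → Commute c z → Commute x z → Commute e z := by
    intro x e z hx hcz hxz
    rcases hx with rfl | rfl
    · exact hxz
    · have := hcz.mul_left hxz
      rwa [← mul_assoc, hcc, one_mul] at this
  have hInSymm : ∀ {x e : G}, In x e → In e x := fun {x e} he =>
    he.elim (fun e' => Or.inl e'.symm) fun e' => Or.inr (by rw [e', ← mul_assoc, hcc, one_mul])
  have hcj : ∀ {a b : G} (g : G), Commute a b → Commute (g * a * g⁻¹) (g * b * g⁻¹) := fun {a b} g hab => by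
    show g * a * g⁻¹ * (g * b * g⁻¹) = g * b * g⁻¹ * (g * a * g⁻¹)
    calc g * a * g⁻¹ * (g * b * g⁻¹) = g * (a * b) * g⁻¹ := by group
      _ = g * (b * a) * g⁻¹ := by rw [hab.eq]
      _ = _ := by group
  -- the three conjugates pairwise fail to commute
  have hno01 : ¬ Commute y y₁ := by
    intro h01
    have h20 : Commute y₂ y := by
      have h2 := hcj d (hcj d h01)
      rwa [← hy₁, ← hy₂, hd3'] at h2
    refine hno ?_
    rcases hclass k hk y (Or.inl rfl) with e | e | e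
    · exact (hInComm (hInSymm e) (hcR y hyR) (Commute.refl y)).symm
    · exact (hInComm (hInSymm e) (hcR y hyR) h01.symm).symm
    · exact (hInComm (hInSymm e) (hcR y hyR) h20).symm
  have hno12 : ¬ Commute y₁ y₂ := fun h12 => hno01 (by
    have h2 := hcj d (hcj d h12)
    rwa [← hy₂, hd3', ← hy₁] at h2)
  have hno02 : ¬ Commute y y₂ := fun h02 => hno12 (by
    have h2 := hcj d (hcj d h02)
    rw [hd3', ← hy₁, ← hy₂] at h2
    exact h2.symm)
  have hcom1 : ∀ r ∈ R, r * y₁ * r⁻¹ = y₁ ∨ r * y₁ * r⁻¹ = c * y₁ := by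
    intro r hr
    have hrd : d⁻¹ * r * d ∈ R := by
      have := (mem_normalizer_iff.mp (hPR (inv_mem hdP)) r).mp hr
      rwa [inv_inv] at this
    have e : r * y₁ * r⁻¹ = d * ((d⁻¹ * r * d) * y * (d⁻¹ * r * d)⁻¹) * d⁻¹ := by rw [hy₁]; group
    rw [e]
    exact hIn hcd (hty _ (hRT hrd))
  have hc01 : y₁ * y = c * (y * y₁) := by
    rcases hty y₁ (hRT hy1R) with e | e
    · exact absurd (mul_inv_eq_iff_eq_mul.mp e).symm hno01
    · rw [mul_inv_eq_iff_eq_mul.mp e, mul_assoc]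
  have hc02 : y₂ * y = c * (y * y₂) := by
    rcases hty y₂ (hRT hy2R) with e | e
    · exact absurd (mul_inv_eq_iff_eq_mul.mp e).symm hno02
    · rw [mul_inv_eq_iff_eq_mul.mp e, mul_assoc]
  have hc12 : y₂ * y₁ = c * (y₁ * y₂) := by
    rcases hcom1 y₂ hy2R with e | e
    · exact absurd (mul_inv_eq_iff_eq_mul.mp e).symm hno12
    · rw [mul_inv_eq_iff_eq_mul.mp e, mul_assoc]
  have hyy : y * y = 1 := h'.comp.2.2.2.2.2 y hy
  have hy11 : y₁ * y₁ = 1 := by
    rw [hy₁, show d * y * d⁻¹ * (d * y * d⁻¹) = d * (y * y) * d⁻¹ by group, hyy]; group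
  have hy22 : y₂ * y₂ = 1 := by
    rw [hy₂, show d * y₁ * d⁻¹ * (d * y₁ * d⁻¹) = d * (y₁ * y₁) * d⁻¹ by group, hy11]; group
  set s := y * y₁ * y₂ with hs
  have hsR : s ∈ R := mul_mem (mul_mem hyR hy1R) hy2R
  have hsT : s ∈ T := hRT hsR
  have hsy : s * y = y * s := by
    calc s * y = y * y₁ * (y₂ * y) := by rw [hs]; group
      _ = y * (y₁ * c) * (y * y₂) := by rw [hc02]; group
      _ = y * c * (y₁ * y) * y₂ := by rw [← (hcR y₁ hy1R).eq]; group
      _ = y * (c * c) * (y * y₁) * y₂ := by rw [hc01]; group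
      _ = _ := by rw [hcc, hs]; group
  have hssq : s * s = c := by
    calc s * s = (s * y) * (y₁ * y₂) := by rw [hs]; group
      _ = y * y * y₁ * y₂ * y₁ * y₂ := by rw [hsy, hs]; group
      _ = y₁ * (y₂ * y₁) * y₂ := by rw [hyy, one_mul]; group
      _ = (y₁ * c) * y₁ * (y₂ * y₂) := by rw [hc12]; group
      _ = c * (y₁ * y₁) := by rw [← (hcR y₁ hy1R).eq, hy22]; group
      _ = c := by rw [hy11, mul_one]
  have hW'cases : ∀ v ∈ wOf K', v = 1 ∨ v = c ∨ v = y ∨ v = c * y := fun v hv =>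
    four_cases h'.comp.2.2.2.2.1.le hcW hy hc1 hy1 (Ne.symm hyc) hcc hv
  have hsR' : s ∈ R' := by
    refine ⟨hsT, fun v hv => ?_⟩
    rcases hW'cases v hv with rfl | rfl | rfl | rfl
    · rw [one_mul, mul_one]
    · exact (hcR s hsR).eq
    · exact hsy.symm
    · rw [mul_assoc, ← hsy, ← mul_assoc, (hcR s hsR).eq, mul_assoc]
  -- `T` fixes the coset `s⟨c⟩`
  have hTs : ∀ t ∈ T, In (t * s * t⁻¹) s := by
    intro t ht
    have htd : ∀ k ∈ K, t * k * t⁻¹ ∈ K := fun k hk => (mem_normalizer_iff.mp (h.norm ht) k).mp hk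
    have key : ∀ k ∈ K, In (t * (k * y * k⁻¹) * t⁻¹) y ∨ In (t * (k * y * k⁻¹) * t⁻¹) y₁ ∨
        In (t * (k * y * k⁻¹) * t⁻¹) y₂ := by
      intro k hk
      rw [show t * (k * y * k⁻¹) * t⁻¹ = (t * k * t⁻¹) * (t * y * t⁻¹) * (t * k * t⁻¹)⁻¹ by group]
      exact hclass _ (htd k hk) _ (hty t ht)
    have e0 : In (t * y * t⁻¹) y := hty t ht
    have e1 : In (t * y₁ * t⁻¹) y ∨ In (t * y₁ * t⁻¹) y₁ ∨ In (t * y₁ * t⁻¹) y₂ := key d hd
    have e2 : In (t * y₂ * t⁻¹) y ∨ In (t * y₂ * t⁻¹) y₁ ∨ In (t * y₂ * t⁻¹) y₂ := by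
      have := key (d * d) (mul_mem hd hd)
      rwa [show d * d * y * (d * d)⁻¹ = y₂ by rw [hy₂, hy₁]; group] at this
    have hct : Commute c t := mem_centralizer_iff.mp (h.cen ht) c hc.1
    have hncomm : ∀ {a b e : G}, ¬ Commute a b → In (t * a * t⁻¹) e → In (t * b * t⁻¹) e → Commute c e → False := by
      intro a b e hab ha hb hce
      refine hab ?_
      have h1 : Commute (t * a * t⁻¹) (t * b * t⁻¹) := by
        rcases ha with ha | ha <;> rcases hb with hb | hb <;> rw [ha, hb]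
        · exact hce.symm.mul_right (Commute.refl e)
        · exact (hce.mul_left (Commute.refl e))
      have := Commute.map h1 (MulAut.conj t⁻¹).toMonoidHom
      simpa [mul_assoc] using this
    have hcy : Commute c y := hcR y hyR
    have hcy1 : Commute c y₁ := hcR y₁ hy1R
    have hcy2 : Commute c y₂ := hcR y₂ hy2R
    have hprod3 : ∀ {a b e f : G}, Commute c a → In f a → ∀ {g' : G}, In g' b → In (f * g') (a * b) := by
      intro a b e f hca hf g' hg'
      rcases hf with rfl | rfl <;> rcases hg' with rfl | rfl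
      · exact Or.inl rfl
      · exact Or.inr (by rw [← mul_assoc, ← hca.eq, mul_assoc])
      · exact Or.inr (mul_assoc _ _ _)
      · exact Or.inl (by rw [mul_assoc c a, ← mul_assoc a c, ← hca.eq, mul_assoc c a b, ← mul_assoc, hcc, one_mul])
    rw [show t * s * t⁻¹ = (t * y * t⁻¹) * (t * y₁ * t⁻¹) * (t * y₂ * t⁻¹) by rw [hs]; group]
    rcases e1 with e1 | e1 | e1
    · exact (hncomm hno01 e0 e1 hcy).elim
    · rcases e2 with e2 | e2 | e2
      · exact (hncomm hno02 e0 e2 hcy).elim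
      · exact (hncomm hno12 e1 e2 hcy1).elim
      · exact hprod3 (e := c) (hcy.mul_right hcy1) (hprod3 (e := c) hcy e0 e1) e2
    · rcases e2 with e2 | e2 | e2
      · exact (hncomm hno02 e0 e2 hcy).elim
      · have h1 : In _ (y * y₂ * y₁) := hprod3 (e := c) (hcy.mul_right hcy2) (hprod3 (e := c) hcy e0 e1) e2
        have e : y * y₂ * y₁ = c * s := by rw [mul_assoc, hc12, ← mul_assoc, ← hcy.eq, hs]; group
        rcases h1 with h1 | h1 <;> rw [e] at h1
        · exact Or.inr h1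
        · exact Or.inl (by rw [h1, ← mul_assoc, hcc, one_mul])
      · exact (hncomm hno12 e1 e2 hcy2).elim
  -- `s` centralizes the conjugates of `W_K` under `K'`
  have hsk : ∀ k ∈ K', k⁻¹ * s * k ∈ R := by
    intro k hk
    have hkP : k ∈ K' ⊔ T := mem_sup_left hk
    have hskR' : k⁻¹ * s * k ∈ R' := by
      have := (mem_normalizer_iff.mp (hPR' (inv_mem hkP)) s).mp hsR'
      rwa [inv_inv] at this
    refine ⟨hRT' hskR', fun u hu => ?_⟩
    have huR' : u ∈ R' := ⟨(hWR hu).1, fun v hv => (hWW u hu v hv).symm⟩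
    set f := k * u * k⁻¹ with hf
    have hfT : f ∈ T := hRT' ((mem_normalizer_iff.mp (hPR' hkP) u).mp huR')
    have hck : Commute c' k := (mem_centralizer_singleton_iff.mp (cZero_centralizer hc' (mem_sup_left hk))).symm
    have hfs : f * s = s * f := by
      rcases hTs f hfT with e | e
      · exact mul_inv_eq_iff_eq_mul.mp e
      by_cases huc : u = c'
      · have : f = c' := by rw [hf, huc, ← hck.eq, mul_inv_cancel_right]
        rw [this]
        exact mem_centralizer_iff.mp (h.cen hsT) c' hc'.1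
      by_cases hu1 : u = 1
      · simp [hf, hu1]
      exfalso
      have htu : (k⁻¹ * s * k) * u * (k⁻¹ * s * k)⁻¹ = u ∨ (k⁻¹ * s * k) * u * (k⁻¹ * s * k)⁻¹ = c' * u := by
        have ht := hRT' hskR'
        have h1 := (mem_normalizer_iff.mp (normalizer_le_normalizer_wOf K (h.norm ht)) u).mp hu
        rcases four_cases h.comp.2.2.2.2.1.le hc'W hu hc'1 hu1 (Ne.symm huc) (h.comp.2.2.2.2.2 c' hc'W) h1 with
          e' | e' | e' | e'
        · exact absurd (conj_eq_one_iff.mp e') hu1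
        · exact absurd (mul_left_cancel (mul_right_cancel (e'.trans (hc'fix _ ht).symm))) huc
        · exact Or.inl e'
        · exact Or.inr e'
      have hsf : s * f * s⁻¹ = f ∨ s * f * s⁻¹ = c' * f := by
        rcases htu with e' | e'
        · left
          calc s * f * s⁻¹ = k * ((k⁻¹ * s * k) * u * (k⁻¹ * s * k)⁻¹) * k⁻¹ := by rw [hf]; group
            _ = _ := by rw [e', hf]
        · right
          calc s * f * s⁻¹ = k * ((k⁻¹ * s * k) * u * (k⁻¹ * s * k)⁻¹) * k⁻¹ := by rw [hf]; group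
            _ = (k * c') * u * k⁻¹ := by rw [e']; group
            _ = _ := by rw [← hck.eq, hf]; group
      have e1 : f * s = c * (s * f) := (mul_inv_eq_iff_eq_mul.mp e).trans (mul_assoc _ _ _)
      rcases hsf with e2 | e2
      · exact hc1 (mul_right_cancel (b := s * f)
          (e1.symm.trans ((mul_inv_eq_iff_eq_mul.mp e2).symm.trans (one_mul _).symm)))
      · have e2' : s * f = c' * (f * s) := (mul_inv_eq_iff_eq_mul.mp e2).trans (mul_assoc _ _ _)
        have e3 : c' * c = 1 := mul_right_cancel (b := s * f) ((mul_assoc _ _ _).trans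
          ((congrArg (c' * ·) e1.symm).trans (e2'.symm.trans (one_mul _).symm)))
        exact hcc' ((inv_eq_of_mul_eq_one_left hcc).symm.trans (eq_inv_of_mul_eq_one_left e3).symm)
    calc u * (k⁻¹ * s * k) = k⁻¹ * (f * s) * k := by rw [hf]; group
      _ = k⁻¹ * (s * f) * k := by rw [hfs]
      _ = _ := by rw [hf]; group
  -- the contradiction
  set j := y₁ * d' * y₁⁻¹ * d'⁻¹ with hj
  have hy1T : y₁ ∈ T := hRT hy1R
  have hy1i : y₁⁻¹ = y₁ := inv_eq_of_mul_eq_one_left hy11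
  have hW'T : ∀ t ∈ T, ∀ v ∈ wOf K', t * v * t⁻¹ ∈ wOf K' := fun t ht v hv =>
    (mem_normalizer_iff.mp (normalizer_le_normalizer_wOf K' (h'.norm ht)) v).mp hv
  have hd'W : ∀ v ∈ wOf K', d' * v * d'⁻¹ ∈ wOf K' := fun v hv =>
    (mem_normalizer_iff.mp ((le_normalizer.trans (normalizer_le_normalizer_wOf K')) hd') v).mp hv
  obtain ⟨w, hw, hjs⟩ : ∃ w ∈ wOf K', j * s * j⁻¹ = w * s := by
    obtain ⟨t₀, ht₀, hx⟩ : ∃ t₀ ∈ wOf K', y₁⁻¹ * (d'⁻¹ * s * d') * y₁ = t₀ * (d'⁻¹ * s * d') := by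
      have hxR := hsk d' hd'
      set x := d'⁻¹ * s * d' with hx
      rw [hy1i]
      rcases hcom1 x hxR with e | e
      · refine ⟨1, one_mem _, ?_⟩
        rw [one_mul, mul_assoc, mul_inv_eq_iff_eq_mul.mp e, ← mul_assoc, hy11, one_mul]
      · refine ⟨c, hcW, ?_⟩
        have e' : x * y₁ = c * (y₁ * x) := by rw [mul_inv_eq_iff_eq_mul.mp e, mul_assoc]
        calc y₁ * x * y₁ = y₁ * (x * y₁) := mul_assoc _ _ _
          _ = (y₁ * c) * (y₁ * x) := by rw [e']; group
          _ = c * (y₁ * y₁) * x := by rw [← (hcR y₁ hy1R).eq]; group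
          _ = _ := by rw [hy11, mul_one]
    obtain ⟨t₁, ht₁, hs1⟩ : ∃ t₁ ∈ wOf K', y₁ * s * y₁⁻¹ = t₁ * s := by
      rcases hTs y₁ hy1T with e | e
      · exact ⟨1, one_mem _, by rw [one_mul]; exact e⟩
      · exact ⟨c, hcW, e⟩
    refine ⟨y₁ * (d' * t₀ * d'⁻¹) * y₁⁻¹ * t₁, mul_mem (hW'T _ hy1T _ (hd'W _ ht₀)) ht₁, ?_⟩
    calc j * s * j⁻¹ = y₁ * (d' * (y₁⁻¹ * (d'⁻¹ * s * d') * y₁) * d'⁻¹) * y₁⁻¹ := by rw [hj]; group
      _ = y₁ * (d' * t₀ * d'⁻¹) * y₁⁻¹ * (y₁ * s * y₁⁻¹) := by rw [hx]; group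
      _ = _ := by rw [hs1]; group
  have hjc : j * c * j⁻¹ = c := by
    calc j * c * j⁻¹ = (j * s * j⁻¹) * (j * s * j⁻¹) := by rw [← hssq]; group
      _ = w * (s * w) * s := by rw [hjs]; group
      _ = w * w * (s * s) := by rw [← mem_centralizer_iff.mp hsR'.2 w hw]; group
      _ = c := by rw [h'.comp.2.2.2.2.2 w hw, hssq, one_mul]
  set u₀ := d'⁻¹ * c * d' with hu₀
  have hu₀W : u₀ ∈ wOf K' := by
    have := (mem_normalizer_iff.mp ((le_normalizer.trans (normalizer_le_normalizer_wOf K')) (inv_mem hd')) c).mp hcW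
    rwa [inv_inv] at this
  have hfix : y₁⁻¹ * u₀ * y₁ = u₀ := by
    have e : d' * (y₁⁻¹ * u₀ * y₁) * d'⁻¹ = y₁⁻¹ * (j * c * j⁻¹) * y₁ := by rw [hu₀, hj]; group
    have e2 : y₁⁻¹ * c * y₁ = c := by rw [hy1i, mul_assoc, (hcR y₁ hy1R).eq, ← mul_assoc, hy11, one_mul]
    rw [hjc, e2] at e
    calc y₁⁻¹ * u₀ * y₁ = d'⁻¹ * (d' * (y₁⁻¹ * u₀ * y₁) * d'⁻¹) * d' := by group
      _ = u₀ := by rw [e, ← hu₀]
  have hu₀y : Commute u₀ y₁ := by
    show u₀ * y₁ = y₁ * u₀
    conv_rhs => rw [← hfix]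
    group
  rcases hW'cases u₀ hu₀W with e | e | e | e
  · refine hc1 ?_
    have : c = d' * u₀ * d'⁻¹ := by rw [hu₀]; group
    rw [this, e]; group
  · refine hc1 (hfpf' c hcW ?_)
    calc d' * c * d'⁻¹ = d' * u₀ * d'⁻¹ := by rw [e]
      _ = c := by rw [hu₀]; group
  · exact hno01 (e ▸ hu₀y)
  · exact hno01 (hInComm (Or.inr e) (hcR y₁ hy1R) hu₀y)

end Cfsg.Agent.H74.JB
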