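import Cfsg.Agent.H74.JBridge

/-!
Ambient consequences: subnormality, normalizers of `W_K`.
-/

set_option autoImplicit false

namespace Cfsg.Agent.H74.JB

open Subgroup Cfsg
open scoped commutatorElement Pointwise

variable {G : Type*} [Group G] [Finite G] {T L : Subgroup G}

omit [Finite G] in
/-- The trivial subgroup is elementary abelian. -/
theorem elem_bot : IsElementaryAbelian 2 (⊥ : Subgroup G) :=
  ⟨inferInstance, fun a ha => by rw [mem_bot.mp ha, one_pow]⟩

/-- Components with the same `W` in one overgroup coincide; otherwise their planes meet trivially. -/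
theorem comp_eq_or_disjoint (hZN : ZN G) (hT1 : T ≠ ⊥) (hLT : L ∈ jOvergroups T) {K K' : Subgroup G}
    (hK : IsJComponent T K) (hKL : K ≤ L) (hK' : IsJComponent T K') (hKL' : K' ≤ L) :
    K = K' ∨ wOf K ⊓ wOf K' = ⊥ := by
  haveI : Fact (Nat.Prime 2) := ⟨Nat.prime_two⟩
  obtain ⟨P, hP⟩ := exists_sylow_map hLT.1
  have h := jHyp hZN hT1 hLT hP
  obtain ⟨hc, hm, hw⟩ := isComp_of_isJComponent hZN hT1 hLT hP hK hKL
  obtain ⟨hc', hm', hw'⟩ := isComp_of_isJComponent hZN hT1 hLT hP hK' hKL'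
  by_cases he : K.subgroupOf L = K'.subgroupOf L
  · exact Or.inl (by rw [← hm, ← hm', he])
  · right
    rw [← hw, ← hw', ← map_inf _ _ _ L.subtype_injective, JC.comp_inf h hc hc' he, Subgroup.map_bot]

/-- A component is subnormal in each overgroup containing it. -/
theorem comp_subnormal (hZN : ZN G) (hT1 : T ≠ ⊥) (hLT : L ∈ jOvergroups T) {K : Subgroup G}
    (hK : IsJComponent T K) (hKL : K ≤ L) : (K.subgroupOf L).IsSubnormal := by
  haveI : Fact (Nat.Prime 2) := ⟨Nat.prime_two⟩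
  obtain ⟨P, hP⟩ := exists_sylow_map hLT.1
  have h := jHyp hZN hT1 hLT hP
  obtain ⟨hc, -, -⟩ := isComp_of_isJComponent hZN hT1 hLT hP hK hKL
  obtain ⟨hKM, -⟩ := JC.comp_basic h hc
  have hn : ((K.subgroupOf L).subgroupOf (thompsonSubgroup 2 ↥L)).Normal :=
    (normal_subgroupOf_iff_le_normalizer hKM).mpr (JC.comp_normal h hc)
  rw [← inf_eq_left.mpr hKM, ← subgroupOf_map_subtype]
  exact hn.isSubnormal.trans' JC.thompsonNormal.isSubnormal

/-- A conjugate, by an element of an overgroup, of a component is a component. -/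
theorem comp_conj_overgroup (hZN : ZN G) (hT1 : T ≠ ⊥) (hLT : L ∈ jOvergroups T) {K : Subgroup G}
    (hK : IsJComponent T K) (hKL : K ≤ L) {u : G} (hu : u ∈ L) :
    IsJComponent T (K.map (MulAut.conj u).toMonoidHom) ∧ K.map (MulAut.conj u).toMonoidHom ≤ L := by
  haveI : Fact (Nat.Prime 2) := ⟨Nat.prime_two⟩
  obtain ⟨P, hP⟩ := exists_sylow_map hLT.1
  obtain ⟨hc, hm, -⟩ := isComp_of_isJComponent hZN hT1 hLT hP hK hKL
  have e : ((K.subgroupOf L).map (MulAut.conj (⟨u, hu⟩ : ↥L)).toMonoidHom).map L.subtype =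
      K.map (MulAut.conj u).toMonoidHom := by
    conv_rhs => rw [← hm]
    rw [map_map, map_map]
    rfl
  rw [← e]
  exact ⟨isJComponent_of hZN hT1 hLT hP (JC.comp_conj hc _).1, map_subtype_le _⟩

/-- A Sylow subgroup meeting `W_K` centrally normalizes `K`. -/
theorem normalizes_of_meets_center (hZN : ZN G) (hT1 : T ≠ ⊥) (hLT : L ∈ jOvergroups T) {K : Subgroup G}
    (hK : IsJComponent T K) (hKL : K ≤ L) (hZW : T ⊓ centralizer (T : Set G) ⊓ wOf K ≠ ⊥) :
    T ≤ normalizer (K : Set G) := by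
  intro t ht
  obtain ⟨hK', hKL'⟩ := comp_conj_overgroup hZN hT1 hLT hK hKL (hLT.1.1 ht)
  rw [mem_normalizer_iff_map_conj_eq]
  rcases comp_eq_or_disjoint hZN hT1 hLT hK' hKL' hK hKL with h | h
  · exact h
  exfalso
  refine hZW (eq_bot_iff.mpr fun z hz => ?_)
  rw [← h]
  refine ⟨?_, hz.2⟩
  rw [← map_wOf (MulAut.conj t).injective]
  refine ⟨z, hz.2, ?_⟩
  show t * z * t⁻¹ = z
  rw [mem_centralizer_iff.mp hz.1.2 t ht, mul_inv_cancel_right]

omit [Finite G] in
/-- A `J(T)`-component has an element of order three outside its two-core. -/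
theorem not_two_group {K : Subgroup G} (hidx : (pCoreOf 2 K).relIndex K = 3) : ¬ IsPGroup 2 K := fun hp => by
  rw [le_antisymm (H72.pCoreOf_le 2 K) (H72.le_pCoreOf le_rfl le_normalizer hp), relIndex_self] at hidx
  omega

/-- `W_K` is a nontrivial two-group inside `O₂(K)`. -/
theorem wOf_facts {K : Subgroup G} (hK : IsJComponent T K) :
    IsPGroup 2 ↥(wOf K) ∧ wOf K ≠ ⊥ ∧ wOf K ≤ pCoreOf 2 K ∧ K ⊔ thompsonSubgroupOf 2 T ≤ normalizer (wOf K : Set G) := by
  obtain ⟨hgen, hc, hidx, -, h4, -⟩ := hK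
  have hQ : wOf K ≤ pCoreOf 2 K := by
    refine commutator_le.mpr fun u hu k hk => ?_
    have huQ : u ∈ pCoreOf 2 K := ((H34.omegaOne_le _).trans inf_le_left) hu
    rw [commutatorElement_def, mul_assoc u, mul_assoc u]
    exact mul_mem huQ ((mem_normalizer_iff.mp (H72.le_normalizer_pCoreOf 2 K hk) _).mp (inv_mem huQ))
  refine ⟨(H72.pCoreOf_isPGroup 2 K).to_le hQ, fun h0 => ?_, hQ, ?_⟩
  · rw [h0, card_bot] at h4
    omega
  · refine (sup_le le_normalizer ?_).trans (normalizer_le_normalizer_wOf K)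
    have := normalizer_commutator_ge_right (H₁ := K) (H₂ := thompsonSubgroupOf 2 T)
    rwa [hc] at this

/-- The normalizer of `W_K` is an overgroup for its Sylow subgroups containing `J(T)`. -/
theorem normalizer_wOf_overgroup (hZN : ZN G) {K : Subgroup G} (hK : K ∈ jComponentsZero T)
    {S : Subgroup G} (hS : IsSylowTwoIn S (normalizer (wOf K : Set G))) (hJS : thompsonSubgroupOf 2 T ≤ S) :
    thompsonSubgroupOf 2 S = thompsonSubgroupOf 2 T ∧ S ≠ ⊥ ∧
      normalizer (wOf K : Set G) ∈ jOvergroups S ∧ IsTwoLocal (normalizer (wOf K : Set G)) := by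
  haveI : Fact (Nat.Prime 2) := ⟨Nat.prime_two⟩
  obtain ⟨hW2, hW1, -, hN⟩ := wOf_facts hK.1
  set N := normalizer (wOf K : Set G) with hNdef
  have hloc : IsTwoLocal N := ⟨_, hW2, hW1, rfl⟩
  have hJ := hK.2 S hJS hS
  have hWle : wOf K ≤ pCoreOf 2 N := H72.le_pCoreOf le_normalizer le_rfl hW2
  have hJ1 : ¬ thompsonSubgroupOf 2 S ≤ pCoreOf 2 N := by
    intro hle
    have hO : ⁅K, thompsonSubgroupOf 2 S⁆ ≤ pCoreOf 2 N := by
      refine commutator_le.mpr fun k hk j hj => ?_
      rw [commutatorElement_def]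
      exact mul_mem ((mem_normalizer_iff.mp (H72.le_normalizer_pCoreOf 2 N (hN (mem_sup_left hk))) _).mp (hle hj))
        (inv_mem (hle hj))
    rw [hJ, hK.1.2.1] at hO
    exact not_two_group hK.1.2.2.1 ((H72.pCoreOf_isPGroup 2 N).to_le hO)
  refine ⟨hJ, fun h0 => hJ1 ((H34.thompsonSubgroupOf_le _).trans (h0.le.trans bot_le)), ⟨hS, hJ1, ?_⟩, hloc⟩
  intro x hx
  have hxN : x ∈ N := centralizer_le_normalizer _ (centralizer_le hWle hx)
  have h1 : (⟨x, hxN⟩ : ↥N) ∈ pCore 2 ↥N := by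
    refine hZN.char.2 _ hW2 hW1 fun y hy => Subtype.ext ?_
    exact hx (y : G) ⟨y, hy, rfl⟩
  exact H72.mem_pCoreOf.mpr ⟨hxN, h1⟩

/-- `N(K) = N(W_K)`, and `K` is a component for every conjugate with `J` in `N(W_K)`. -/
theorem zero_normalizer (hZN : ZN G) (hT : IsPGroup 2 T) {K : Subgroup G} (hK : K ∈ jComponentsZero T) :
    normalizer (K : Set G) = normalizer (wOf K : Set G) ∧
      ∀ g : G, thompsonSubgroupOf 2 (T.map (MulAut.conj g).toMonoidHom) ≤ normalizer (wOf K : Set G) →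
        IsJComponent (T.map (MulAut.conj g).toMonoidHom) K := by
  haveI : Fact (Nat.Prime 2) := ⟨Nat.prime_two⟩
  obtain ⟨hW2, hW1, -, hN⟩ := wOf_facts hK.1
  set N := normalizer (wOf K : Set G) with hNdef
  set J := thompsonSubgroupOf 2 T with hJdef
  have hJN : J ≤ N := le_sup_right.trans hN
  have hKN : K ≤ N := le_sup_left.trans hN
  have hJ2 : IsPGroup 2 J := hT.to_le (H34.thompsonSubgroupOf_le _)
  obtain ⟨S, hS, hJS⟩ := exists_sylowTwoIn_ge hJ2 hJN
  obtain ⟨hJS', hS1, hNS, -⟩ := normalizer_wOf_overgroup hZN hK hS hJS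
  have hKS : IsJComponent S K := by
    refine ⟨hK.1.1, ?_, hK.1.2.2.1, ?_, hK.1.2.2.2.2⟩
    · rw [hJS']; exact hK.1.2.1
    · rw [hJS']; exact hK.1.2.2.2.1
  have heq : normalizer (K : Set G) = N := by
    refine le_antisymm (normalizer_le_normalizer_wOf K) fun n hn => ?_
    obtain ⟨hK', hKN'⟩ := comp_conj_overgroup hZN hS1 hNS hKS hKN hn
    rw [mem_normalizer_iff_map_conj_eq]
    rcases comp_eq_or_disjoint hZN hS1 hNS hK' hKN' hKS hKN with h | h
    · exact h
    · exfalso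
      have hwn : wOf (K.map (MulAut.conj n).toMonoidHom) = wOf K := by
        rw [← map_wOf (MulAut.conj n).injective]
        exact mem_normalizer_iff_map_conj_eq.mp hn
      rw [hwn, inf_idem] at h
      exact hW1 h
  refine ⟨heq, fun g hg => ?_⟩
  set J' := thompsonSubgroupOf 2 (T.map (MulAut.conj g).toMonoidHom) with hJ'
  have hJ'2 : IsPGroup 2 J' := (hT.map _).to_le (H34.thompsonSubgroupOf_le _)
  obtain ⟨S', hS', hJS2⟩ := exists_sylowTwoIn_ge hJ'2 hg
  obtain ⟨n, hn, hSn⟩ := exists_le_conj hS hS'.2.1 hS'.1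
  -- `J'` is the conjugate of `J` by `n`
  have hJ'eq : J' = J.map (MulAut.conj n).toMonoidHom := by
    have hJn : thompsonSubgroupOf 2 (S.map (MulAut.conj n).toMonoidHom) = J.map (MulAut.conj n).toMonoidHom := by
      rw [← H34.map_thompsonSubgroupOf, hJS']
    have hJeq : J' = J.map (MulAut.conj g).toMonoidHom := by rw [hJ', ← H34.map_thompsonSubgroupOf]
    have hle : J' ≤ J.map (MulAut.conj n).toMonoidHom := by
      rw [← hJn, H34.thompsonSubgroupOf_eq, hJ', H34.thompsonSubgroupOf_eq]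
      refine sSup_le fun A hA => le_sSup ⟨(le_trans ?_ (hJS2.trans hSn)), hA.2.1, fun C hC hC' => ?_⟩
      · rw [hJ', H34.thompsonSubgroupOf_eq]; exact le_sSup hA
      · -- the largest orders agree
        obtain ⟨B, hB, hBS⟩ : ∃ B, (B ≤ T ∧ IsElementaryAbelian 2 B ∧
            ∀ D : Subgroup G, D ≤ T → IsElementaryAbelian 2 D → Nat.card D ≤ Nat.card B) ∧ B ≤ S := by
          obtain ⟨B, ⟨hB1, hB2⟩, hmax⟩ := Set.exists_max_image
            {A : Subgroup G | A ≤ T ∧ IsElementaryAbelian 2 A} (fun A => Nat.card A) (Set.toFinite _)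
            ⟨⊥, bot_le, elem_bot⟩
          refine ⟨B, ⟨hB1, hB2, fun D h1 h2 => hmax D ⟨h1, h2⟩⟩, le_trans ?_ hJS⟩
          rw [hJdef, H34.thompsonSubgroupOf_eq]
          exact le_sSup ⟨hB1, hB2, fun D h1 h2 => hmax D ⟨h1, h2⟩⟩
        have hCS : C.map (MulAut.conj n).symm.toMonoidHom ≤ S := by
          rintro _ ⟨c, hc, rfl⟩
          obtain ⟨s, hs, rfl⟩ := hC hc
          show (MulAut.conj n).symm ((MulAut.conj n) s) ∈ S
          rw [MulEquiv.symm_apply_apply]
          exact hs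
        have hBA : Nat.card B ≤ Nat.card A := by
          have := hA.2.2 (B.map (MulAut.conj g).toMonoidHom) (map_mono hB.1) (H34.isElementaryAbelian_map hB.2.1 _)
          rwa [card_map_of_injective (MulAut.conj g).injective] at this
        -- a largest elementary abelian subgroup of `S` lies in `T`
        obtain ⟨D, ⟨hD1, hD2⟩, hDmax⟩ := Set.exists_max_image
          {A : Subgroup G | A ≤ S ∧ IsElementaryAbelian 2 A} (fun A => Nat.card A) (Set.toFinite _)
          ⟨⊥, bot_le, elem_bot⟩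
        have hDT : D ≤ T := by
          refine le_trans ?_ (H34.thompsonSubgroupOf_le (p := 2) T)
          rw [show thompsonSubgroupOf 2 T = thompsonSubgroupOf 2 S from hJS'.symm, H34.thompsonSubgroupOf_eq]
          exact le_sSup ⟨hD1, hD2, fun D' h1 h2 => hDmax D' ⟨h1, h2⟩⟩
        have h1 := hDmax _ ⟨hCS, H34.isElementaryAbelian_map hC' _⟩
        rw [card_map_of_injective (MulAut.conj n).symm.injective] at h1
        exact (h1.trans (hB.2.2 D hDT hD2)).trans hBA
    refine eq_of_le_of_card_ge hle (le_of_eq ?_)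
    rw [hJeq, card_map_of_injective (MulAut.conj n).injective, card_map_of_injective (MulAut.conj g).injective]
  have hKn : K.map (MulAut.conj n).toMonoidHom = K := mem_normalizer_iff_map_conj_eq.mp (heq ▸ hn)
  refine ⟨hK.1.1, ?_, hK.1.2.2.1, fun S₂ hS₂ hJS₂ => ?_, hK.1.2.2.2.2⟩
  · show ⁅K, J'⁆ = K
    rw [hJ'eq]
    conv_lhs => rw [← hKn]
    rw [← map_commutator, hK.1.2.1, hKn]
  · show thompsonSubgroupOf 2 S₂ = J'
    have hJn : thompsonSubgroupOf 2 (S.map (MulAut.conj n).toMonoidHom) = J' := by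
      rw [hJ'eq, ← H34.map_thompsonSubgroupOf, hJS']
    rw [← hJn]
    refine j_eq (isSylowTwoIn_conj hS (le_normalizer hn)) hS₂.2.1 (hS₂.1.trans (sup_le hKN hg)) ?_
    rw [hJn]
    exact hJS₂

end Cfsg.Agent.H74.JB
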