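import Cfsg.Agent.H74.JSecondBasic

/-!
An involution outside `O₂` of the parabolic with `[T, y] ≤ ⟨z⟩` forces the normalizer of `T` into the container.
-/

set_option autoImplicit false

namespace Cfsg.Agent.H74.JB

open Subgroup Cfsg
open scoped commutatorElement Pointwise

variable {G : Type*} [Group G] [Finite G]

set_option maxHeartbeats 800000 in
/-- No element of `N(T)` outside the container fixes such a four-group `⟨z, y⟩`. -/
theorem Plane.outside_absurd (hZN : ZN G) {T K L : Subgroup G} (h : Plane T K L)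
    (hC2 : Nat.card ↥(cZero T K) ≤ 2) {g z y : G} (hg : g ∈ normalizer (T : Set G)) (hgL : g ∉ L)
    (hz : z ∈ omegaCenterOf (thompsonSubgroupOf 2 T)) (hzC : z ∉ cZero T K) (hgz : g * z * g⁻¹ = z)
    (hy : y ∈ T) (hyR : y ∉ pR T K) (hyy : y * y = 1)
    (hty : ∀ t ∈ T, t * y * t⁻¹ = y ∨ t * y * t⁻¹ = z * y) (hgy : g * y * g⁻¹ = y ∨ g * y * g⁻¹ = z * y) : False := by
  haveI : Fact (Nat.Prime 2) := ⟨Nat.prime_two⟩
  obtain ⟨d, hd, hd3, hdT, -, hRT, hQR, hPR, hinv, hprod, -, -, -, -⟩ := Plane.facts hZN h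
  obtain ⟨hVe, -, hVR, hPV, hRV, hZV⟩ := Plane.module hZN h
  haveI := hVe.1
  obtain ⟨d₀, hd₀, hd₀3, -, hdec, hQW, hfpf⟩ := exists_generator h.comp
  obtain ⟨hW2, -, hWQ, -⟩ := wOf_facts h.comp
  set R := pR T K with hR
  set W := wOf K with hW
  have hWR : W ≤ R := hWQ.trans hQR
  have hWV : W ≤ pV T K := le_sup_right
  have hzT : z ∈ T := hRT (hVR (hZV hz))
  have hzz : z * z = 1 := (omega_mem hz).2.2
  have hzc : ∀ t ∈ T, t * z = z * t := fun t ht => (mem_centralizer_iff.mp (h.cen ht) z hz).symm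
  have hz1 : z ≠ 1 := fun e => hzC (e ▸ one_mem _)
  have hyi : y⁻¹ = y := inv_eq_of_mul_eq_one_left hyy
  have hKW : K ≤ normalizer (W : Set G) := le_normalizer.trans (normalizer_le_normalizer_wOf K)
  have hTW : T ≤ normalizer (W : Set G) := h.norm.trans (normalizer_le_normalizer_wOf K)
  have hWc : ∀ r ∈ R, ∀ w ∈ W, w * r = r * w := fun r hr w hw => mem_centralizer_iff.mp hr.2 w hw
  have hzy : ∀ t ∈ T, y * t * y⁻¹ = t ∨ y * t * y⁻¹ = z * t := by
    intro t ht
    rcases hty t ht with e | e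
    · exact Or.inl (mul_inv_eq_iff_eq_mul.mpr (mul_inv_eq_iff_eq_mul.mp e).symm)
    · refine Or.inr (mul_inv_eq_iff_eq_mul.mpr ?_)
      have e1 : t * y = z * y * t := mul_inv_eq_iff_eq_mul.mp e
      calc y * t = (z * z) * (y * t) := by rw [hzz, one_mul]
        _ = z * (z * y * t) := by group
        _ = z * (t * y) := by rw [e1]
        _ = _ := by group
  -- `z ∈ W`
  obtain ⟨w₀, hw₀, hw₀y⟩ : ∃ w ∈ W, w * y ≠ y * w := by
    by_contra hno
    push Not at hno
    exact hyR ⟨hy, hno⟩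
  have hw₀z : y * w₀ * y⁻¹ = z * w₀ := (hzy w₀ (hRT (hWR hw₀))).resolve_left fun e =>
    hw₀y (mul_inv_eq_iff_eq_mul.mp e).symm
  have hzW : z ∈ W := by
    have h1 : y * w₀ * y⁻¹ * w₀⁻¹ ∈ W := mul_mem ((mem_normalizer_iff.mp (hTW hy) w₀).mp hw₀) (inv_mem hw₀)
    rwa [hw₀z, mul_inv_cancel_right] at h1
  have hzR : z ∈ R := hWR hzW
  have hWe : ∀ w ∈ W, w * w = 1 := fun w hw => h.comp.2.2.2.2.2 w hw
  have hWfix : ∀ w ∈ W, w * y = y * w → w = 1 ∨ w = z := by
    intro w hw hwy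
    have hne : z ≠ w₀ := fun e => hw₀y (e ▸ (hzc y hy).symm)
    have hne1 : w₀ ≠ 1 := fun e => hw₀y (by rw [e, one_mul, mul_one])
    rcases four_cases h.comp.2.2.2.2.1.le hzW hw₀ hz1 hne1 hne hzz hw with e | e | e | e
    · exact Or.inl e
    · exact Or.inr e
    · exact absurd (e ▸ hwy) hw₀y
    · refine absurd ?_ hw₀y
      rw [e] at hwy
      refine mul_left_cancel (a := z) ?_
      rw [← mul_assoc, hwy, ← mul_assoc, hzc y hy, mul_assoc]
  -- an element of order three inverted by `y`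
  obtain ⟨q, hq, hqe⟩ := hinv y hy hyR
  have hdP : d ∈ K ⊔ T := mem_sup_left hd
  set x := y * d * y⁻¹ * d⁻¹ with hx
  have hxK : x ∈ K := mul_mem ((mem_normalizer_iff.mp (h.norm hy) d).mp hd) (inv_mem hd)
  have hx1 : x = d * (d * q * d⁻¹) := by rw [hx, hqe, pow_two]; group
  have hr₀ : d * q * d⁻¹ ∈ R := (mem_normalizer_iff.mp (hPR hdP) q).mp (hQR hq)
  have hxT : x ∉ T := fun hh => hdT (by
    have := mul_mem hh (inv_mem (hRT hr₀))
    rwa [hx1, mul_inv_cancel_right] at this)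
  have hx3 : x ^ 3 ∈ R := by
    set r := d * q * d⁻¹ with hr
    have e : x ^ 3 = (d * r * d⁻¹) * (d ^ 2 * r * (d ^ 2)⁻¹) * (d ^ 3 * r) := by rw [hx1, pow_three', pow_two, pow_three']; group
    rw [e, hd3, one_mul]
    exact mul_mem (mul_mem ((mem_normalizer_iff.mp (hPR hdP) r).mp hr₀)
      ((mem_normalizer_iff.mp (hPR (pow_mem hdP 2)) r).mp hr₀)) hr₀
  obtain ⟨a, ha⟩ := h.two ⟨x ^ 3, hRT hx3⟩
  have ha' : (x ^ 3) ^ 2 ^ a = 1 := by simpa using congrArg Subtype.val ha
  set k := x ^ 2 ^ a with hk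
  have hk3 : k ^ 3 = 1 := by rw [hk, ← pow_mul, mul_comm, pow_mul]; exact ha'
  have hkK : k ∈ K := pow_mem hxK _
  have hkT : k ∉ T := by
    intro hkT
    have hm : ∀ j : ℕ, x ^ (3 * j) ∈ T := fun j => by rw [pow_mul]; exact pow_mem (hRT hx3) j
    have h3 : 2 ^ a % 3 = 1 ∨ 2 ^ a % 3 = 2 := by
      have : ¬ 3 ∣ 2 ^ a := fun hd' => absurd (Nat.prime_three.dvd_of_dvd_pow hd') (by omega)
      omega
    rw [hk, ← Nat.mod_add_div (2 ^ a) 3, pow_add] at hkT
    have h1 := (mul_mem_cancel_right (hm _)).mp hkT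
    rcases h3 with e | e <;> rw [e] at h1
    · exact hxT (by rwa [pow_one] at h1)
    · have := mul_mem (inv_mem h1) (hm 1)
      rw [mul_one, pow_two, pow_three'] at this
      exact hxT (by simpa [mul_assoc] using this)
  have hyx : y * x * y⁻¹ = x⁻¹ := by
    rw [hx, hyi]
    calc y * (y * d * y * d⁻¹) * y = (y * y) * (d * y * d⁻¹ * y) := by group
      _ = d * y * d⁻¹ * y := by rw [hyy, one_mul]
      _ = d * y⁻¹ * d⁻¹ * y⁻¹ := by rw [hyi]
      _ = _ := by group
  have hyk : y * k * y⁻¹ = k⁻¹ := by rw [hk, ← conj_pow, hyx, inv_pow]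
  have hyk' : y * k⁻¹ * y⁻¹ = k := by
    calc y * k⁻¹ * y⁻¹ = (y * k * y⁻¹)⁻¹ := by group
      _ = k := by rw [hyk, inv_inv]
  have hkfix : ∀ w ∈ W, k * w * k⁻¹ = w → w = 1 := by
    intro w hw he
    obtain ⟨n, q', hq', hkn⟩ := hdec k hkK
    have hq'T : q' ∈ T := hRT (hQR hq')
    rw [hkn] at he
    have e1 : d₀ ^ n * w * (d₀ ^ n)⁻¹ = w := by
      calc d₀ ^ n * w * (d₀ ^ n)⁻¹ = d₀ ^ n * (q' * w * q'⁻¹) * (d₀ ^ n)⁻¹ := by
            rw [hQW q' hq' w hw, mul_inv_cancel_right]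
        _ = d₀ ^ n * q' * w * (d₀ ^ n * q')⁻¹ := by group
        _ = _ := he
    rw [pow_eq_pow_mod n hd₀3] at e1 hkn
    rcases (show n % 3 = 0 ∨ n % 3 = 1 ∨ n % 3 = 2 by omega) with h3 | h3 | h3 <;> rw [h3] at e1 hkn
    · exact absurd (by rw [hkn, pow_zero, one_mul]; exact hq'T) hkT
    · rw [pow_one] at e1
      exact hfpf w hw e1
    · refine hfpf w hw ?_
      calc d₀ * w * d₀⁻¹ = d₀ * (d₀ ^ 2 * w * (d₀ ^ 2)⁻¹) * d₀⁻¹ := by rw [e1]
        _ = d₀ ^ 3 * w * (d₀ ^ 3)⁻¹ := by rw [pow_three', pow_two]; group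
        _ = w := by rw [hd₀3]; group
  -- `k` centralizes `R` modulo `W`
  have hkP : k ∈ K ⊔ T := mem_sup_left hkK
  have hkW : ∀ w ∈ W, k * w * k⁻¹ ∈ W := fun w hw => (mem_normalizer_iff.mp (hKW hkK) w).mp hw
  have hstep : ∀ r ∈ R, k * k * r * (k * k)⁻¹ * r⁻¹ ∈ W := by
    intro r hr
    have hr1 : k⁻¹ * r * k ∈ R := by
      have := (mem_normalizer_iff.mp (hPR (inv_mem hkP)) r).mp hr
      rwa [inv_inv] at this
    have ht1 : y * (k⁻¹ * r * k) * y⁻¹ * (k⁻¹ * r * k)⁻¹ ∈ W := by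
      rcases hzy _ (hRT hr1) with e | e <;> rw [e]
      · rw [mul_inv_cancel]; exact one_mem _
      · rw [mul_inv_cancel_right]; exact hzW
    have h2 := hkW _ ht1
    have h3 : k * k * (y * r * y⁻¹) * (k * k)⁻¹ * r⁻¹ ∈ W := by
      convert h2 using 1
      have e : k * y * k⁻¹ = k * k * y := by
        calc k * y * k⁻¹ = k * (y * k⁻¹ * y⁻¹) * y := by group
          _ = _ := by rw [hyk']
      calc k * k * (y * r * y⁻¹) * (k * k)⁻¹ * r⁻¹ = (k * k * y) * r * (k * k * y)⁻¹ * r⁻¹ := by group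
        _ = (k * y * k⁻¹) * r * (k * y * k⁻¹)⁻¹ * r⁻¹ := by rw [e]
        _ = _ := by group
    obtain ⟨t₀, ht₀, he₀⟩ : ∃ t₀ ∈ W, y * r * y⁻¹ = t₀ * r := by
      rcases hzy r (hRT hr) with e | e
      · exact ⟨1, one_mem _, by rw [one_mul]; exact e⟩
      · exact ⟨z, hzW, e⟩
    rw [he₀] at h3
    have h4 : k * k * t₀ * (k * k)⁻¹ ∈ W :=
      (mem_normalizer_iff.mp (hKW (mul_mem hkK hkK)) t₀).mp ht₀
    have := mul_mem (inv_mem h4) h3
    rwa [show (k * k * t₀ * (k * k)⁻¹)⁻¹ * (k * k * (t₀ * r) * (k * k)⁻¹ * r⁻¹) = k * k * r * (k * k)⁻¹ * r⁻¹ by generalize k * k = b; group]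
      at this
  have hkR : ∀ r ∈ R, k * r * k⁻¹ * r⁻¹ ∈ W := by
    intro r hr
    have hr' : k * k * r * (k * k)⁻¹ ∈ R := (mem_normalizer_iff.mp (hPR (mul_mem hkP hkP)) r).mp hr
    have := mul_mem (hstep _ hr') (hstep r hr)
    have hk4 : k * k * (k * k) = k := by
      calc k * k * (k * k) = k ^ 3 * k := by rw [pow_three']; group
        _ = k := by rw [hk3, one_mul]
    rwa [show k * k * (k * k * r * (k * k)⁻¹) * (k * k)⁻¹ * (k * k * r * (k * k)⁻¹)⁻¹ * (k * k * r * (k * k)⁻¹ * r⁻¹) =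
        (k * k * (k * k)) * r * (k * k * (k * k))⁻¹ * r⁻¹ by generalize k * k = b; group, hk4] at this
  -- the complement `E`
  set E := R ⊓ centralizer ({k} : Set G) with hE
  have hsplit : ∀ r ∈ R, ∃ v ∈ W, r * v ∈ E := by
    intro r hr
    have hinj : Function.Injective (fun v : ↥W => (⟨(v : G) * (k * v * k⁻¹)⁻¹, mul_mem v.2 (inv_mem (hkW v v.2))⟩ : ↥W)) := by
      intro v v' e
      have e' : (v : G) * (k * v * k⁻¹)⁻¹ = (v' : G) * (k * v' * k⁻¹)⁻¹ := congrArg Subtype.val e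
      refine Subtype.ext (inv_mul_eq_one.mp (hkfix _ (mul_mem (inv_mem v.2) v'.2) ?_))
      calc k * ((v : G)⁻¹ * v') * k⁻¹ = (k * v * k⁻¹)⁻¹ * (k * v' * k⁻¹) := by group
        _ = (v : G)⁻¹ * ((v : G) * (k * v * k⁻¹)⁻¹) * (k * v' * k⁻¹) := by group
        _ = (v : G)⁻¹ * v' := by rw [e']; group
    obtain ⟨v, hv⟩ := Finite.injective_iff_surjective.mp hinj ⟨_, hkR r hr⟩
    have hv' : (v : G) * (k * v * k⁻¹)⁻¹ = k * r * k⁻¹ * r⁻¹ := congrArg Subtype.val hv
    refine ⟨v, v.2, mul_mem hr (hWR v.2), mem_centralizer_singleton_iff.mpr (mul_inv_eq_iff_eq_mul.mp ?_).symm⟩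
    calc k * (r * v) * k⁻¹ = (k * r * k⁻¹ * r⁻¹) * r * (k * v * k⁻¹) := by group
      _ = (v : G) * ((k * v * k⁻¹)⁻¹ * r) * (k * v * k⁻¹) := by rw [← hv']; group
      _ = (v : G) * r := by rw [hWc r hr _ (inv_mem (hkW v v.2))]; group
      _ = _ := hWc r hr v v.2
  have hEk : ∀ e ∈ E, e * k = k * e := fun e he => mem_centralizer_singleton_iff.mp he.2
  have hEy : ∀ e ∈ E, y * e = e * y := by
    intro e he
    rcases hzy e (hRT he.1) with e' | e'
    · exact mul_inv_eq_iff_eq_mul.mp e'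
    · exfalso
      have hc : k * (y * e * y⁻¹) = (y * e * y⁻¹) * k := by
        calc k * (y * e * y⁻¹) = (y * k⁻¹ * y⁻¹) * (y * e * y⁻¹) := by rw [hyk']
          _ = y * (k⁻¹ * e) * y⁻¹ := by group
          _ = y * (e * k⁻¹) * y⁻¹ := by rw [((show Commute e k from hEk e he).inv_right).eq]
          _ = (y * e * y⁻¹) * (y * k⁻¹ * y⁻¹) := by group
          _ = _ := by rw [hyk']
      rw [e'] at hc
      refine hz1 (hkfix z hzW (mul_inv_eq_iff_eq_mul.mpr ?_))
      refine mul_right_cancel (b := e) ?_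
      calc k * z * e = z * e * k := by rw [mul_assoc]; exact hc
        _ = z * (e * k) := mul_assoc _ _ _
        _ = z * k * e := by rw [hEk e he, mul_assoc]
  have hEW : ∀ e ∈ E, ∀ w ∈ W, w * e = e * w := fun e he w hw => hWc e he.1 w hw
  have hdich : ∀ t ∈ T, t ∈ R ∨ y * t ∈ R := fun t ht => (em (t ∈ R)).imp id (fun hn => hprod y hy t ht hyR hn)
  have hEcent : ∀ e ∈ E, (∀ e' ∈ E, e * e' = e' * e) → ∀ t ∈ T, t * e = e * t := by
    intro e he hcom
    have hR' : ∀ r ∈ R, r * e = e * r := by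
      intro r hr
      obtain ⟨v, hv, hrv⟩ := hsplit r hr
      have c1 : Commute e (r * v) := hcom _ hrv
      have c2 : Commute e v := (hEW e he v hv).symm
      have c3 := (c1.mul_right c2.inv_right).eq
      rw [mul_inv_cancel_right] at c3
      exact c3.symm
    intro t ht
    rcases hdich t ht with hr | hr
    · exact hR' t hr
    · have c1 : Commute e (y * t) := (hR' _ hr).symm
      have c2 : Commute e y := (hEy e he).symm
      have c3 := (c2.mul_right c1).eq
      rw [← mul_assoc y y t, hyy, one_mul] at c3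
      exact c3.symm
  have hEZ : ∀ e ∈ E, e ∈ omegaCenterOf (thompsonSubgroupOf 2 T) → e ∈ cZero T K := by
    intro e he heZ
    by_contra hne
    have hc := cZero_centralizer (z0_mul_mem h.two h.comp heZ hz hne hzC)
    have hek : k * (e * z) = e * z * k := mem_centralizer_singleton_iff.mp (hc (mem_sup_left hkK))
    refine hz1 (hkfix z hzW (mul_inv_eq_iff_eq_mul.mpr (mul_left_cancel (a := e) ?_)))
    rw [← mul_assoc, hEk e he, mul_assoc, hek, mul_assoc]
  -- the centralizer of `y` in `T`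
  set C := T ⊓ centralizer ({y} : Set G) with hC
  have hCy : ∀ c ∈ C, c * y = y * c := fun c hc => mem_centralizer_singleton_iff.mp hc.2
  have hEC : E ≤ C := fun e he => ⟨hRT he.1, mem_centralizer_singleton_iff.mpr (hEy e he).symm⟩
  have hgC : g ∈ normalizer (C : Set G) := by
    refine mem_normalizer_of_conj_mem fun c hc => ?_
    have hcT := (mem_normalizer_iff.mp hg c).mp hc.1
    refine ⟨hcT, mem_centralizer_singleton_iff.mpr ?_⟩
    have e1 : (g * c * g⁻¹) * (g * y * g⁻¹) = (g * y * g⁻¹) * (g * c * g⁻¹) := by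
      calc (g * c * g⁻¹) * (g * y * g⁻¹) = g * (c * y) * g⁻¹ := by group
        _ = g * (y * c) * g⁻¹ := by rw [hCy c hc]
        _ = _ := by group
    rcases hgy with e | e <;> rw [e] at e1
    · exact e1
    · refine mul_left_cancel (a := z) ?_
      rw [← mul_assoc z, ← hzc _ hcT, mul_assoc _ z y, e1, mul_assoc]
  have hCE : ∀ c ∈ C, c * c ∈ E := by
    have hRC : ∀ r ∈ R, r * y = y * r → r * r ∈ E := by
      intro r hr hry
      obtain ⟨v, hv, hrv⟩ := hsplit r hr
      have c1 : Commute y (r * v) := hEy _ hrv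
      have hvy : v * y = y * v := by
        have c2 : Commute y r := hry.symm
        have c3 := (c2.inv_right.mul_right c1).eq
        rw [inv_mul_cancel_left] at c3
        exact c3.symm
      have : (r * v) * (r * v) = r * r := by
        calc (r * v) * (r * v) = r * (v * r) * v := by group
          _ = r * r * (v * v) := by rw [hWc r hr v hv]; group
          _ = r * r := by rw [hWe v hv, mul_one]
      exact this ▸ mul_mem hrv hrv
    intro c hc
    rcases hdich c hc.1 with hr | hr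
    · exact hRC c hr (hCy c hc)
    · have := hRC _ hr (by rw [mul_assoc, hCy c hc])
      rwa [show y * c * (y * c) = c * c by
        rw [mul_assoc, ← mul_assoc c, hCy c hc, mul_assoc, ← mul_assoc, hyy, one_mul]] at this
  set D := Subgroup.closure ((fun c => c * c) '' (C : Set G)) with hD
  have hDE : D ≤ E := ((Subgroup.closure_le _)).mpr (by rintro _ ⟨c, hc, rfl⟩; exact hCE c hc)
  have hDconj : ∀ x, x ∈ normalizer (C : Set G) → ∀ e ∈ D, x * e * x⁻¹ ∈ D := by
    intro x hx e he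
    have hle : D ≤ D.comap (MulAut.conj x).toMonoidHom := ((Subgroup.closure_le _)).mpr (by
      rintro _ ⟨c, hc, rfl⟩
      refine Subgroup.subset_closure ⟨x * c * x⁻¹, (mem_normalizer_iff.mp hx c).mp hc, ?_⟩
      show x * c * x⁻¹ * (x * c * x⁻¹) = x * (c * c) * x⁻¹
      group)
    exact hle he
  have hsq : ∀ c ∈ C, c * c = 1 := by
    by_contra hne
    push Not at hne
    obtain ⟨c, hc, hc1⟩ := hne
    have hD1 : D.subgroupOf E ≠ ⊥ := by
      intro h0
      have hm : (⟨c * c, hCE c hc⟩ : ↥E) ∈ D.subgroupOf E := Subgroup.subset_closure ⟨c, hc, rfl⟩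
      rw [h0, mem_bot] at hm
      exact hc1 (congrArg Subtype.val hm)
    haveI : (D.subgroupOf E).Normal := normal_subgroupOf_of_le_normalizer fun x hx =>
      mem_normalizer_of_conj_mem (hDconj x (le_normalizer (hEC hx)))
    have hE2 : IsPGroup 2 E := h.two.to_le (inf_le_left.trans hRT)
    haveI := nontrivial_iff_ne_bot _ |>.mpr (H24.inf_center_ne_bot hE2 hD1)
    obtain ⟨u, hu⟩ := exists_prime_orderOf_dvd_card' (G := ↥(D.subgroupOf E ⊓ center ↥E)) 2
      ((hE2.to_subgroup _).card_eq_or_dvd.resolve_left Finite.one_lt_card.ne')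
    set e : G := ((u : ↥E) : G) with he
    have heE : e ∈ E := (u : ↥E).2
    have heD : e ∈ D := u.2.1
    have hee : e * e = 1 := by
      have h2 : u ^ 2 = 1 := hu ▸ pow_orderOf_eq_one u
      have := congrArg (fun v : ↥(D.subgroupOf E ⊓ center ↥E) => ((v : ↥E) : G)) h2
      simpa [pow_two] using this
    have he1 : e ≠ 1 := fun e1 => by
      have : u = 1 := Subtype.ext (Subtype.ext e1)
      rw [this, orderOf_one] at hu
      omega
    have hecent := hEcent e heE fun e' he' =>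
      (congrArg Subtype.val (mem_center_iff.mp u.2.2 ⟨e', he'⟩)).symm
    have heZ := mem_z0_of_central (hRT heE.1) hee hecent
    have heC := hEZ e heE heZ
    have hgeD := hDconj g hgC e heD
    have hgeZ : g * e * g⁻¹ ∈ omegaCenterOf (thompsonSubgroupOf 2 T) := by
      have hJ : (thompsonSubgroupOf 2 T).map (MulAut.conj g).toMonoidHom = thompsonSubgroupOf 2 T :=
        mem_normalizer_iff_map_conj_eq.mp (H34.normalizer_le_normalizer_thompson T hg)
      have h1 : (omegaCenterOf (thompsonSubgroupOf 2 T)).map (MulAut.conj g).toMonoidHom =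
          omegaCenterOf (thompsonSubgroupOf 2 T) := by
        rw [map_omegaCenterOf (MulAut.conj g).injective, hJ]
      exact h1.le ⟨e, heZ, rfl⟩
    have hgeC := hEZ _ (hDE hgeD) hgeZ
    have hcz : cZero T K = zpowers e := (eq_of_le_of_card_ge (zpowers_le.mpr heC) (hC2.trans_eq (by
      rw [Nat.card_zpowers, orderOf_eq_prime (by rwa [pow_two]) he1]))).symm
    rcases eq_of_mem_zpowers hee (hcz ▸ hgeC) with e2 | e2
    · exact he1 (conj_eq_one_iff.mp e2)
    · refine hgL (h.cont.univ _ (centralizer_local (by rwa [pow_two]) he1) (cZero_centralizer heC) ?_)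
      exact mem_centralizer_singleton_iff.mpr (mul_inv_eq_iff_eq_mul.mp e2)
  -- so `E ≤ C₀` and `R ≤ V`
  have hEV : E ≤ cZero T K := by
    intro e he
    refine hEZ e he (mem_z0_of_central (hRT he.1) (hsq e (hEC he)) (hEcent e he fun e' he' => ?_))
    have h1 := hsq _ (hEC (mul_mem he he'))
    calc e * e' = (e * e')⁻¹ := (inv_eq_of_mul_eq_one_left h1).symm
      _ = e'⁻¹ * e⁻¹ := mul_inv_rev _ _
      _ = e' * e := by rw [inv_eq_of_mul_eq_one_left (hsq e (hEC he)), inv_eq_of_mul_eq_one_left (hsq e' (hEC he'))]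
  have hRe : ∀ r ∈ R, r * r = 1 := by
    intro r hr
    obtain ⟨v, hv, hrv⟩ := hsplit r hr
    have : r ∈ pV T K := by
      have := mul_mem (show r * v ∈ pV T K from mem_sup_left (hEV hrv)) (inv_mem (hWV hv))
      rwa [mul_inv_cancel_right] at this
    rw [← pow_two]; exact hVe.2 r this
  have hinvol : ∀ t ∈ T, t * t = 1 → t ∉ C → t ∈ R := by
    intro t ht htt htC
    rcases hdich t ht with hr | hr
    · exact hr
    · refine absurd ⟨ht, mem_centralizer_singleton_iff.mpr ?_⟩ htC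
      have h1 := hRe _ hr
      calc t * y = (y * t)⁻¹ := by rw [mul_inv_rev, hyi, inv_eq_of_mul_eq_one_left htt]
        _ = y * t := inv_eq_of_mul_eq_one_left h1
  have hw₀C : w₀ ∉ C := fun hh => hw₀y (hCy _ hh)
  have hgR : g ∈ normalizer (R : Set G) := by
    have key : ∀ r ∈ R, r ∉ C → g * r * g⁻¹ ∈ R := by
      intro r hr hrC
      refine hinvol _ ((mem_normalizer_iff.mp hg r).mp (hRT hr)) ?_ fun hh => hrC ((mem_normalizer_iff.mp hgC r).mpr hh)
      calc g * r * g⁻¹ * (g * r * g⁻¹) = g * (r * r) * g⁻¹ := by group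
        _ = 1 := by rw [hRe r hr]; group
    refine mem_normalizer_of_conj_mem fun r hr => ?_
    by_cases hrC : r ∈ C
    · have h1 := key _ (mul_mem hr (hWR hw₀)) fun hh => hw₀C (by
        have := mul_mem (inv_mem hrC) hh
        rwa [inv_mul_cancel_left] at this)
      have h2 := mul_mem h1 (inv_mem (key _ (hWR hw₀) hw₀C))
      rwa [show g * (r * w₀) * g⁻¹ * (g * w₀ * g⁻¹)⁻¹ = g * r * g⁻¹ by group] at h2
    · exact key r hr hrC
  refine hgL (Plane.normalizer_le hZN h (h.two.to_le hRT) (fun h0 => hz1 ?_) (le_sup_left.trans hPR)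
    (le_sup_right.trans hPR) hgR)
  exact mem_bot.mp (h0 ▸ hzR)

end Cfsg.Agent.H74.JB
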