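import Cfsg.Agent.H74.JSecond

/-!
The two parabolics attached to a maximal straddling subgroup.
-/

set_option autoImplicit false

namespace Cfsg.Agent.H74.JB

open Subgroup Cfsg
open scoped commutatorElement Pointwise

variable {G : Type*} [Group G] [Finite G]

/-- A straddling subgroup lies in a Sylow subgroup satisfying the hypothesis on `M`. -/
theorem exists_sylow_above (S : Sylow 2 G) {M T : Subgroup G}
    (hMJ : normalizer (thompsonSubgroupOf 2 (S : Subgroup G) : Set G) ≤ M) (hT : T ∈ maxStraddlingTwoSubgroups M) :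
    ∃ S' : Sylow 2 G, normalizer (thompsonSubgroupOf 2 (S' : Subgroup G) : Set G) ≤ M ∧ T ≤ (S' : Subgroup G) := by
  haveI : Fact (Nat.Prime 2) := ⟨Nat.prime_two⟩
  obtain ⟨hT2, -, hTM, -⟩ := hT.1
  have hSM : (S : Subgroup G) ≤ M := (le_normalizer.trans (H34.normalizer_le_normalizer_thompson _)).trans hMJ
  have hodd : Odd (S : Subgroup G).index := Nat.odd_iff.mpr (Nat.two_dvd_ne_zero.mp S.not_dvd_index)
  have hS : IsSylowTwoIn (S : Subgroup G) M :=
    ⟨hSM, S.isPGroup', hodd.of_dvd_nat (relIndex_dvd_index_of_le hSM)⟩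
  obtain ⟨m, hm, hle⟩ := exists_le_conj hS hT2 hTM
  refine ⟨MulAut.conj m • S, ?_, hle⟩
  have he : ((MulAut.conj m • S : Sylow 2 G) : Subgroup G) = (S : Subgroup G).map (MulAut.conj m).toMonoidHom := rfl
  rw [he, ← H34.map_thompsonSubgroupOf]
  have h1 := Subgroup.map_normalizer_eq_of_bijective (thompsonSubgroupOf 2 (S : Subgroup G))
    (f := (MulAut.conj m).toMonoidHom) (MulAut.conj m).bijective
  have hMm : M.map (MulAut.conj m).toMonoidHom = M := mem_normalizer_iff_map_conj_eq.mp (le_normalizer hm)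
  exact h1.ge.trans ((map_mono hMJ).trans hMm.le)

/-- The two parabolics. -/
theorem exists_pair (hZN : ZN G) (hO : pCore 2 G = ⊥) (S : Sylow 2 G) {M T K : Subgroup G}
    (hMJ : normalizer (thompsonSubgroupOf 2 (S : Subgroup G) : Set G) ≤ M) (hT : T ∈ maxStraddlingTwoSubgroups M)
    (hTS : T ≤ (S : Subgroup G)) (hK : K ∈ jComponentsOutside M T) :
    ∃ L K' L', Plane T K L ∧ Plane T K' L' ∧ L ≠ L' ∧
      Nat.card ↥(omegaCenterOf (thompsonSubgroupOf 2 T)) ≤ 4 ∧ ¬ L ≤ M := by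
  obtain ⟨hT2, hT1, -, -⟩ := hT.1
  obtain ⟨L, h1, h2, h3, h4, -, -, h7⟩ := unique_local hZN S hMJ hT hK
  have h : IsContainer T K L := ⟨h1, h2, h4, T, rfl, hT1, h7⟩
  obtain ⟨K', L', hK', h', hL', hne⟩ := second_component hZN hO S hMJ hT hTS hK.1.1 h h7
  obtain ⟨hP, h4'⟩ := plane_of_two hZN hT2 hT1 hK.1.1 hK' h h' hne h7
  obtain ⟨hP', -⟩ := plane_of_two hZN hT2 hT1 hK' hK.1.1 h' h hne.symm hL'
  exact ⟨L, K', L', hP, hP', hne, h4', h3⟩

/-- `T` is the centre-containing part: `Ω₁(Z(T)) = Z₀(T)`. -/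
theorem Plane.omega_eq {T K L : Subgroup G} (h : Plane T K L) :
    omegaCenterOf T = omegaCenterOf (thompsonSubgroupOf 2 T) := by
  refine le_antisymm (omega_le_z0 T) fun x hx => ?_
  exact H34.mem_omegaOne ⟨H34.thompsonSubgroupOf_le _ (omega_mem hx).1,
    fun t ht => (mem_centralizer_iff.mp (h.cen ht) x hx).symm⟩ (by rw [pow_two]; exact (omega_mem hx).2.2)

/-- The facts on one parabolic. -/
theorem Plane.amalgam_facts (hZN : ZN G) {T K L : Subgroup G} (h : Plane T K L) :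
    centralizer (pCoreOf 2 (K ⊔ T) : Set G) ≤ pCoreOf 2 (K ⊔ T) ∧ IsSylowTwoIn T (K ⊔ T) ∧
      (pCoreOf 2 (K ⊔ T)).relIndex (K ⊔ T) = 6 ∧ ¬ ⁅K ⊔ T, K ⊔ T⁆ ≤ pCoreOf 2 (K ⊔ T) ∧
      ⁅omegaCenterOf T, K ⊔ T⁆ ≠ ⊥ ∧
      ∃ L₀ : Subgroup G, IsMaximalTwoLocal L₀ ∧ K ⊔ T ≤ L₀ ∧ IsSylowTwoIn T L₀ ∧
        ∀ L' : Subgroup G, IsMaximalTwoLocal L' → K ⊔ T ≤ L' → L' = L₀ := by
  haveI : Fact (Nat.Prime 2) := ⟨Nat.prime_two⟩
  obtain ⟨d, hd, -, hdT, hfpf, hRT, -, hPR, hinv, -, ⟨A, hA, a, haA, haR⟩, hO, hTP, h6⟩ := Plane.facts hZN h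
  have hOT := (overgroup_facts h.ne h.ovg).2.1
  have hKL : K ≤ L := le_sup_left.trans h.cont.le
  refine ⟨?_, hTP, hO ▸ h6, ?_, ?_, L, h.cont.max, sup_le hKL h.ovg.1.1, h.ovg.1,
    fun L' hL' hle => (hL'.2 L h.cont.max.1 (h.cont.univ L' hL'.1
      ((sup_le_sup_left (H34.thompsonSubgroupOf_le _) K).trans hle))).symm⟩
  · rw [hO]
    have hle : pCoreOf 2 L ≤ pR T K := by
      refine le_inf hOT fun o ho w hw => ?_
      obtain ⟨P, hP⟩ := exists_sylow_map h.ovg.1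
      have hJ := jHyp hZN h.ne h.ovg hP
      obtain ⟨hc, -, hW⟩ := isComp_of_isJComponent hZN h.ne h.ovg hP h.comp hKL
      obtain ⟨-, -, -, hwK, -⟩ := JC.comp_basic hJ hc
      rw [← hW] at hw
      obtain ⟨v, hv, rfl⟩ := hw
      rw [hwK] at hv
      have hvU : v ∈ H34.omegaZ 2 ↥L := commutator_le_left _ _ hv
      obtain ⟨o', ho', rfl⟩ := ho
      exact (congrArg Subtype.val ((H34.omegaOne_le _ (JC.v_le_o hJ hvU)).2 o' ho')).symm
    exact fun x hx => hle (h.ovg.2.2 (centralizer_le hle hx))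
  · intro hle
    rw [hO] at hle
    have hc : ⁅a, d⁆ ∈ pR T K := hle (commutator_mem_commutator (mem_sup_right (hA.1 haA)) (mem_sup_left hd))
    obtain ⟨q, hq, he⟩ := hinv a (hA.1 haA) haR
    rw [commutatorElement_def, he] at hc
    have h1 := (mem_normalizer_iff.mp (hPR (inv_mem (mem_sup_left hd))) _).mp hc
    rw [inv_inv, show d⁻¹ * (d ^ 2 * q * d⁻¹) * d = d * q by rw [pow_two]; group] at h1
    have hqT : q ∈ T := comp_core_le hZN h.ne h.ovg h.comp hKL hq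
    exact hdT (by simpa using mul_mem (hRT h1) (inv_mem hqT))
  · intro h0
    obtain ⟨hW2, -, -, -⟩ := z0_split h.two h.comp
    obtain ⟨w, hw, hw1⟩ : ∃ w ∈ omegaCenterOf (thompsonSubgroupOf 2 T) ⊓ wOf K, w ≠ 1 := by
      by_contra hh
      push Not at hh
      rw [(eq_bot_iff_forall _).mpr hh, card_bot] at hW2
      omega
    have hm := commutator_mem_commutator (h.omega_eq.ge hw.1) (mem_sup_left hd : d ∈ K ⊔ T)
    rw [h0, mem_bot, commutatorElement_eq_one_iff_mul_comm] at hm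
    exact hw1 (hfpf w hw.2 (mul_inv_eq_iff_eq_mul.mpr hm.symm))

/-- The two-core of the join of two parabolics with different containers is trivial. -/
theorem Plane.join_core {T K L K' L' : Subgroup G} (h : Plane T K L) (h' : Plane T K' L') (hne : L ≠ L') :
    pCoreOf 2 ((K ⊔ T) ⊔ (K' ⊔ T)) = ⊥ := by
  by_contra h0
  set X := normalizer (pCoreOf 2 ((K ⊔ T) ⊔ (K' ⊔ T)) : Set G) with hX
  have hloc : IsTwoLocal X := ⟨_, H72.pCoreOf_isPGroup 2 _, h0, rfl⟩
  have hle : (K ⊔ T) ⊔ (K' ⊔ T) ≤ X := H72.le_normalizer_pCoreOf 2 _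
  have hJ := H34.thompsonSubgroupOf_le (p := 2) T
  have h1 := h.cont.univ X hloc ((sup_le_sup_left hJ K).trans (le_sup_left.trans hle))
  refine hne (h.cont.eq_of_le h'.cont ?_).symm
  exact ((sup_le_sup_left hJ K').trans (le_sup_right.trans hle)).trans h1

end Cfsg.Agent.H74.JB
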