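import Cfsg.Agent.H74.JContainer

/-!
The parabolic `⟨K, T⟩` of a component normalized by `T`, and the four-group lemma.
-/

set_option autoImplicit false

namespace Cfsg.Agent.H74.JB

open Subgroup Cfsg
open scoped commutatorElement Pointwise

variable {G : Type*} [Group G] [Finite G]

/-- The standing situation: a component normalized by `T`, with `T` centralizing `Ω₁(Z(J(T)))`. -/
structure Plane (T K L : Subgroup G) : Prop where
  two : IsPGroup 2 T
  ne : T ≠ ⊥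
  comp : IsJComponent T K
  cont : IsContainer T K L
  ovg : L ∈ jOvergroups T
  norm : T ≤ normalizer (K : Set G)
  cen : T ≤ centralizer (omegaCenterOf (thompsonSubgroupOf 2 T) : Set G)

variable {T K L : Subgroup G}

/-- The two-core of the parabolic. -/
def pR (T K : Subgroup G) : Subgroup G := T ⊓ centralizer (wOf K : Set G)

/-- The module of the parabolic. -/
def pV (T K : Subgroup G) : Subgroup G := cZero T K ⊔ wOf K

variable (hZN : ZN G) (h : Plane T K L)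
include hZN h

/-- A two-subgroup normal in the parabolic has its normalizer inside the container. -/
theorem Plane.normalizer_le {X : Subgroup G} (hX : IsPGroup 2 X) (h1 : X ≠ ⊥)
    (hK : K ≤ normalizer (X : Set G)) (hT : T ≤ normalizer (X : Set G)) : normalizer (X : Set G) ≤ L :=
  h.cont.univ _ ⟨_, hX, h1, rfl⟩ (sup_le hK ((H34.thompsonSubgroupOf_le _).trans hT))

omit hZN in
/-- `W_K ≤ O₂(K) ≤ T`. -/
theorem Plane.q_le (hZN : ZN G) : pCoreOf 2 K ≤ T ∧ wOf K ≤ pCoreOf 2 K := by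
  haveI : Fact (Nat.Prime 2) := ⟨Nat.prime_two⟩
  have hKL : K ≤ L := le_sup_left.trans h.cont.le
  refine ⟨?_, (wOf_facts h.comp).2.2.1⟩
  have hsn := comp_subnormal hZN h.ne h.ovg h.comp hKL
  have hn : (((pCoreOf 2 K).subgroupOf L).subgroupOf (K.subgroupOf L)).Normal :=
    normal_subgroupOf_of_le_normalizer fun x hx => mem_normalizer_iff.mpr fun y => by
      simpa [mem_subgroupOf] using mem_normalizer_iff.mp (H72.le_normalizer_pCoreOf 2 K hx) (y : G)
  have hle : (pCoreOf 2 K).subgroupOf L ≤ K.subgroupOf L := comap_mono (H72.pCoreOf_le 2 K)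
  have hsn2 : ((pCoreOf 2 K).subgroupOf L).IsSubnormal := by
    rw [← inf_eq_left.mpr hle, ← subgroupOf_map_subtype]
    exact hn.isSubnormal.trans' hsn
  have hO := H72.le_pCore_of_isSubnormal hsn2
    ((H72.pCoreOf_isPGroup 2 K).comap_of_injective _ L.subtype_injective)
  intro q hq
  exact (overgroup_facts h.ne h.ovg).2.1 ⟨⟨q, hKL (H72.pCoreOf_le 2 K hq)⟩, hO hq, rfl⟩

/-- The structure of the parabolic. -/
theorem Plane.facts : ∃ d ∈ K, d ^ 3 = 1 ∧ d ∉ T ∧
    (∀ w ∈ wOf K, d * w * d⁻¹ = w → w = 1) ∧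
    pR T K ≤ T ∧ pCoreOf 2 K ≤ pR T K ∧ K ⊔ T ≤ normalizer (pR T K : Set G) ∧
    (∀ t ∈ T, t ∉ pR T K → ∃ q ∈ pCoreOf 2 K, t * d * t⁻¹ = d ^ 2 * q) ∧
    (∀ t ∈ T, ∀ t' ∈ T, t ∉ pR T K → t' ∉ pR T K → t * t' ∈ pR T K) ∧
    (∃ A, (A ≤ T ∧ IsElementaryAbelian 2 A ∧ ∀ B ≤ T, IsElementaryAbelian 2 B → Nat.card B ≤ Nat.card A) ∧
      ∃ a ∈ A, a ∉ pR T K) ∧
    pCoreOf 2 (K ⊔ T) = pR T K ∧ IsSylowTwoIn T (K ⊔ T) ∧ (pR T K).relIndex (K ⊔ T) = 6 := by
  haveI : Fact (Nat.Prime 2) := ⟨Nat.prime_two⟩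
  obtain ⟨d, hd, hd3, hdQ, hdec, hQW, hfpf⟩ := exists_generator h.comp
  obtain ⟨hQT, hWQ⟩ := Plane.q_le h hZN
  obtain ⟨-, hc, hidx, -, h4, -⟩ := h.comp
  set Q := pCoreOf 2 K with hQ
  set W := wOf K with hW
  set R := pR T K with hR
  have hKW : K ≤ normalizer (W : Set G) := le_normalizer.trans (normalizer_le_normalizer_wOf K)
  have hTW : T ≤ normalizer (W : Set G) := h.norm.trans (normalizer_le_normalizer_wOf K)
  have hQN : normalizer (K : Set G) ≤ normalizer (Q : Set G) := by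
    intro g hg
    rw [mem_normalizer_iff_map_conj_eq] at hg ⊢
    exact (map_pCoreOf (MulAut.conj g).injective K).trans (congrArg (pCoreOf 2) hg)
  have hQR : Q ≤ R := le_inf hQT fun q hq w hw => (hQW q hq w hw).symm
  have hdT : d ∉ T := by
    intro hdT
    obtain ⟨i, hi⟩ := h.two ⟨d, hdT⟩
    have hi' : d ^ 2 ^ i = 1 := by simpa using congrArg Subtype.val hi
    exact hdQ (by
      rw [orderOf_eq_one_iff.mp (Nat.eq_one_of_dvd_coprimes (Nat.Coprime.pow_left i (by decide : Nat.Coprime 2 3))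
        (orderOf_dvd_of_pow_eq_one hi') (orderOf_dvd_of_pow_eq_one hd3))]
      exact one_mem _)
  have hdW : ∀ w ∈ W, d * w * d⁻¹ ∈ W := fun w hw => (mem_normalizer_iff.mp (hKW hd) w).mp hw
  -- the two kinds of elements of `T`
  have hdich : ∀ y ∈ T, (∃ q ∈ Q, y * d * y⁻¹ = d * q) ∨ (∃ q ∈ Q, y * d * y⁻¹ = d ^ 2 * q) := by
    intro y hy
    obtain ⟨n, q, hq, he⟩ := hdec _ ((mem_normalizer_iff.mp (h.norm hy) d).mp hd)
    rw [pow_eq_pow_mod n hd3] at he
    rcases (show n % 3 = 0 ∨ n % 3 = 1 ∨ n % 3 = 2 by omega) with h3 | h3 | h3 <;> rw [h3] at he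
    · exfalso
      refine hdQ ?_
      have := (mem_normalizer_iff.mp (inv_mem (hQN (h.norm hy))) q).mp hq
      rw [show y⁻¹ * q * y⁻¹⁻¹ = d by
        rw [pow_zero, one_mul] at he
        rw [← he]; group] at this
      exact this
    · exact Or.inl ⟨q, hq, by rwa [pow_one] at he⟩
    · exact Or.inr ⟨q, hq, he⟩
  obtain ⟨w₀, hw₀, hw₀1⟩ : ∃ w ∈ omegaCenterOf (thompsonSubgroupOf 2 T) ⊓ W, w ≠ 1 := by
    by_contra hh
    push Not at hh
    have := (z0_split h.two h.comp).1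
    rw [(eq_bot_iff_forall _).mpr hh, card_bot] at this
    omega
  have hfix₀ : ∀ t ∈ T, t * w₀ * t⁻¹ = w₀ := fun t ht => by
    rw [← mem_centralizer_iff.mp (h.cen ht) w₀ hw₀.1, mul_inv_cancel_right]
  have hact : ∀ t ∈ T, ∀ q ∈ Q, ∀ n : ℕ, t * d * t⁻¹ = d ^ n * q → ∀ w ∈ W,
      t * (d * w * d⁻¹) * t⁻¹ = d ^ n * (t * w * t⁻¹) * (d ^ n)⁻¹ := by
    intro t ht q hq n he w hw
    have hw' := (mem_normalizer_iff.mp (hTW ht) w).mp hw
    calc t * (d * w * d⁻¹) * t⁻¹ = (t * d * t⁻¹) * (t * w * t⁻¹) * (t * d * t⁻¹)⁻¹ := by group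
      _ = d ^ n * (q * (t * w * t⁻¹)) * q⁻¹ * (d ^ n)⁻¹ := by rw [he]; group
      _ = _ := by rw [hQW q hq _ hw']; group
  have hmemR : ∀ t ∈ T, (∃ q ∈ Q, t * d * t⁻¹ = d * q) → t ∈ R := by
    rintro t ht ⟨q, hq, he⟩
    refine ⟨ht, fun w hw => ?_⟩
    set C := W ⊓ centralizer ({t} : Set G) with hC
    have hm : ∀ v ∈ W, t * v * t⁻¹ = v → v ∈ C := fun v hv hfix =>
      ⟨hv, mem_centralizer_singleton_iff.mpr (mul_inv_eq_iff_eq_mul.mp hfix).symm⟩
    have h1 := hm w₀ hw₀.2 (hfix₀ t ht)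
    have e1 : t * (d * w₀ * d⁻¹) * t⁻¹ = d * w₀ * d⁻¹ := by
      rw [hact t ht q hq 1 (by rw [pow_one]; exact he) w₀ hw₀.2, hfix₀ t ht, pow_one]
    have h2 := hm _ (hdW _ hw₀.2) e1
    have hne2 : d * w₀ * d⁻¹ ≠ w₀ := fun e => hw₀1 (hfpf w₀ hw₀.2 e)
    have hne1 : d * w₀ * d⁻¹ ≠ 1 := fun e => hw₀1 (conj_eq_one_iff.mp e)
    have h3 : 3 ≤ Nat.card ↥C := by
      classical
      haveI : Fintype ↥C := Fintype.ofFinite _
      rw [Nat.card_eq_fintype_card]
      refine le_trans ?_ (Finset.card_le_univ ({⟨1, one_mem C⟩, ⟨w₀, h1⟩, ⟨_, h2⟩} : Finset ↥C))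
      rw [Finset.card_insert_of_notMem (by simp [Subtype.ext_iff, Ne.symm hw₀1, Ne.symm hne1]),
        Finset.card_pair (by simpa [Subtype.ext_iff] using Ne.symm hne2)]
    have hdvd : Nat.card ↥C ∣ 4 := h4 ▸ card_dvd_of_le inf_le_left
    have hle := Nat.le_of_dvd (by norm_num) hdvd
    have hCW : C = W := eq_of_le_of_card_ge inf_le_left (by
      rw [h4]
      interval_cases hcC : Nat.card ↥C <;> omega)
    exact mem_centralizer_singleton_iff.mp ((hCW.ge hw).2)
  have hR_inv : ∀ t ∈ R, ∃ q ∈ Q, t * d * t⁻¹ = d * q := by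
    intro t ht
    refine (hdich t ht.1).resolve_right ?_
    rintro ⟨q, hq, he⟩
    have e := hact t ht.1 q hq 2 he w₀ hw₀.2
    rw [← mem_centralizer_iff.mp ht.2 _ (hdW _ hw₀.2), mul_inv_cancel_right, hfix₀ t ht.1] at e
    refine hw₀1 (hfpf w₀ hw₀.2 ?_)
    have e2 : d ^ 2 * w₀ * (d ^ 2)⁻¹ = d * (d * w₀ * d⁻¹) * d⁻¹ := by rw [pow_two]; group
    rw [e2] at e
    exact (mul_left_cancel (mul_right_cancel e)).symm
  have hinv : ∀ t ∈ T, t ∉ R → ∃ q ∈ Q, t * d * t⁻¹ = d ^ 2 * q := fun t ht hn =>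
    (hdich t ht).resolve_left fun h' => hn (hmemR t ht h')
  have hprod : ∀ t ∈ T, ∀ t' ∈ T, t ∉ R → t' ∉ R → t * t' ∈ R := by
    intro t ht t' ht' hn hn'
    obtain ⟨q, hq, he⟩ := hinv t ht hn
    obtain ⟨q', hq', he'⟩ := hinv t' ht' hn'
    refine hmemR _ (mul_mem ht ht') ⟨(d ^ 2)⁻¹ * q * d ^ 2 * q * (t * q' * t⁻¹), ?_, ?_⟩
    · refine mul_mem (mul_mem ?_ hq) ((mem_normalizer_iff.mp (hQN (h.norm ht)) q').mp hq')
      have := (mem_normalizer_iff.mp (H72.le_normalizer_pCoreOf 2 K (inv_mem (pow_mem hd 2))) q).mp hq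
      rwa [inv_inv] at this
    · calc t * t' * d * (t * t')⁻¹ = t * (t' * d * t'⁻¹) * t⁻¹ := by group
        _ = (t * d * t⁻¹) * (t * d * t⁻¹) * (t * q' * t⁻¹) := by rw [he', pow_two]; group
        _ = d ^ 3 * d * ((d ^ 2)⁻¹ * q * d ^ 2 * q * (t * q' * t⁻¹)) := by
          rw [he]; simp only [mul_assoc, pow_succ, pow_zero, one_mul, mul_inv_rev, inv_mul_cancel_left, mul_inv_cancel_left]
        _ = _ := by rw [hd3, one_mul]
  -- `R` is normal
  have hTR : T ≤ normalizer (R : Set G) := le_trans (le_inf le_normalizer (H20.le_normalizer_centralizer hTW))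
    inf_normalizer_le_normalizer_inf
  have hKR : K ≤ normalizer (R : Set G) := by
    intro k hk
    obtain ⟨n, q, hq, rfl⟩ := hdec k hk
    refine mul_mem (pow_mem ?_ n) (le_normalizer (hQR hq))
    refine mem_normalizer_of_conj_mem fun r hr => ?_
    obtain ⟨q', hq', he⟩ := hR_inv r hr
    have e : d * r * d⁻¹ = (d * q'⁻¹ * d⁻¹) * r := by
      have : r * d = d * q' * r := mul_inv_eq_iff_eq_mul.mp he
      calc d * r * d⁻¹ = d * q'⁻¹ * d⁻¹ * (d * q' * r) * d⁻¹ := by group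
        _ = d * q'⁻¹ * d⁻¹ * (r * d) * d⁻¹ := by rw [this]
        _ = _ := by group
    rw [e]
    exact mul_mem (hQR ((mem_normalizer_iff.mp (H72.le_normalizer_pCoreOf 2 K hd) _).mp (inv_mem hq'))) hr
  obtain ⟨A, hA, a, haA, haR⟩ : ∃ A : Subgroup G, (A ≤ T ∧ IsElementaryAbelian 2 A ∧
      ∀ B ≤ T, IsElementaryAbelian 2 B → Nat.card B ≤ Nat.card A) ∧ ∃ a ∈ A, a ∉ R := by
    by_contra hno
    push Not at hno
    have hJR : thompsonSubgroupOf 2 T ≤ R := by
      rw [H34.thompsonSubgroupOf_eq]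
      exact sSup_le fun A hA x hx => hno A hA x hx
    have hK : K ≤ R := by
      conv_lhs => rw [← hc]
      rw [commutator_le]
      intro k hk j hj
      rw [commutatorElement_def]
      exact mul_mem ((mem_normalizer_iff.mp (hKR hk) j).mp (hJR hj)) (inv_mem (hJR hj))
    exact not_two_group hidx (h.two.to_le (hK.trans inf_le_left))
  -- the parabolic
  set P := K ⊔ T with hP
  have hKL : K ≤ L := le_sup_left.trans h.cont.le
  have hTP : IsSylowTwoIn T P := by
    refine ⟨le_sup_right, h.two, ?_⟩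
    have hdvd := relIndex_mul_relIndex T P L le_sup_right (sup_le hKL h.ovg.1.1)
    exact Nat.Odd.of_mul_left (hdvd ▸ h.ovg.1.2.2 : Odd (T.relIndex P * P.relIndex L))
  have hRO : R ≤ pCoreOf 2 P :=
    H72.le_pCoreOf (inf_le_left.trans le_sup_right) (sup_le hKR hTR) (h.two.to_le inf_le_left)
  have hOR : pCoreOf 2 P ≤ R := by
    have hOT : pCoreOf 2 P ≤ T := by
      obtain ⟨P', hP'⟩ := exists_sylow_map hTP
      exact hP' ▸ map_mono (H19.pCore_le_sylow P')
    intro x hx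
    refine hmemR x (hOT hx) ⟨d⁻¹ * (x * d * x⁻¹), ?_, by group⟩
    have h1 : d⁻¹ * x * d⁻¹⁻¹ ∈ pCoreOf 2 P :=
      (mem_normalizer_iff.mp (H72.le_normalizer_pCoreOf 2 P (mem_sup_left (inv_mem hd))) x).mp hx
    have h2 : d⁻¹ * (x * d * x⁻¹) ∈ pCoreOf 2 P := by
      have := mul_mem h1 (inv_mem hx)
      rwa [show d⁻¹ * x * d⁻¹⁻¹ * x⁻¹ = d⁻¹ * (x * d * x⁻¹) by group] at this
    have h3 : d⁻¹ * (x * d * x⁻¹) ∈ K :=
      mul_mem (inv_mem hd) ((mem_normalizer_iff.mp (h.norm (hOT hx)) d).mp hd)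
    have hle : pCoreOf 2 P ⊓ K ≤ Q := H72.le_pCoreOf inf_le_right
      (le_trans (le_inf (le_sup_left.trans (H72.le_normalizer_pCoreOf 2 P)) le_normalizer)
        inf_normalizer_le_normalizer_inf) ((H72.pCoreOf_isPGroup 2 P).to_le inf_le_left)
    exact hle ⟨h2, h3⟩
  have h6 : R.relIndex P = 6 := by
    have hRT : R.relIndex T = 2 := by
      rw [relIndex, index_eq_two_iff]
      refine ⟨⟨a, hA.1 haA⟩, fun b => ?_⟩
      simp only [mem_subgroupOf, Subgroup.coe_mul]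
      by_cases hb : (b : G) ∈ R
      · refine Or.inr ⟨hb, fun hba => haR ?_⟩
        simpa using mul_mem (inv_mem hb) hba
      · exact Or.inl ⟨hprod _ b.2 _ (hA.1 haA) hb haR, hb⟩
    have hle3 : T.relIndex P ≤ 3 := by
      have hcard : Nat.card ↥P ≤ 3 * Nat.card ↥T := by
        have hsub : ∀ x : ↥P, ∃ p : Fin 3 × ↥T, d ^ (p.1 : ℕ) * p.2 = x := fun x => by
          have hx : (x : G) ∈ ((K ⊔ T : Subgroup G) : Set G) := x.2
          rw [coe_mul_of_right_le_normalizer_left _ _ h.norm] at hx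
          obtain ⟨k, hk, t, ht, hkt⟩ := hx
          obtain ⟨n, q, hq, rfl⟩ := hdec k hk
          refine ⟨(⟨n % 3, by omega⟩, ⟨q * t, mul_mem (hQT hq) ht⟩), ?_⟩
          show d ^ (n % 3) * (q * t) = x
          rw [← pow_eq_pow_mod n hd3, ← mul_assoc]
          exact hkt
        choose f hf using hsub
        refine (Nat.card_le_card_of_injective f fun x y e => Subtype.ext (by rw [← hf x, ← hf y, e])).trans ?_
        rw [Nat.card_prod, Nat.card_fin]
      have hmul := (T.subgroupOf P).card_mul_index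
      rw [Nat.card_congr (subgroupOfEquivOfLe (le_sup_right : T ≤ P)).toEquiv] at hmul
      rw [← hmul, mul_comm 3] at hcard
      exact Nat.le_of_mul_le_mul_left hcard Nat.card_pos
    have hne : T.relIndex P ≠ 1 := fun h1 => hdT (relIndex_eq_one.mp h1 (mem_sup_left hd))
    obtain ⟨m, hm⟩ := hTP.2.2
    have h3 : T.relIndex P = 3 := by omega
    rw [← relIndex_mul_relIndex R T P inf_le_left le_sup_right, hRT, h3]
  exact ⟨d, hd, hd3, hdT, hfpf, inf_le_left, hQR, sup_le hKR hTR, hinv, hprod, ⟨A, hA, a, haA, haR⟩,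
    le_antisymm hOR hRO, hTP, h6⟩

/-- The module of the parabolic. -/
theorem Plane.module : IsElementaryAbelian 2 (pV T K) ∧ pV T K ≠ ⊥ ∧ pV T K ≤ pR T K ∧
    K ⊔ T ≤ normalizer (pV T K : Set G) ∧ pR T K ≤ centralizer (pV T K : Set G) ∧
    omegaCenterOf (thompsonSubgroupOf 2 T) ≤ pV T K := by
  haveI : Fact (Nat.Prime 2) := ⟨Nat.prime_two⟩
  obtain ⟨d, hd, -, -, -, -, hQR, -, -⟩ := Plane.facts hZN h
  obtain ⟨hW2, hW1, hWQ, hN⟩ := wOf_facts h.comp
  set Z := omegaCenterOf (thompsonSubgroupOf 2 T) with hZ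
  set C := cZero T K with hC
  set W := wOf K with hW
  have hWR : W ≤ pR T K := hWQ.trans hQR
  have hWe : IsElementaryAbelian 2 W :=
    ⟨le_centralizer_iff_isMulCommutative.mp fun x hx y hy => (hWR hx).2 y hy,
      fun w hw => by rw [pow_two]; exact h.comp.2.2.2.2.2 w hw⟩
  have hCe : IsElementaryAbelian 2 C := H34.isElementaryAbelian_mono (z0_elem T) inf_le_left
  have hCW : C ≤ centralizer (W : Set G) := fun c hc w hw => by
    have hwX : w ∈ K ⊔ thompsonSubgroupOf 2 T := mem_sup_left (H72.pCoreOf_le 2 K (hWQ hw))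
    exact mem_centralizer_singleton_iff.mp (cZero_centralizer hc hwX)
  have hCT : C ≤ T := inf_le_left.trans ((H34.omegaOne_le _).trans (inf_le_left.trans (H34.thompsonSubgroupOf_le _)))
  have hfix : ∀ x ∈ K ⊔ T, ∀ c ∈ C, x * c * x⁻¹ = c := by
    have hle : K ⊔ T ≤ centralizer (C : Set G) := sup_le
      (fun k hk c hc => (mem_centralizer_singleton_iff.mp (cZero_centralizer hc (mem_sup_left hk))).symm)
      (h.cen.trans (centralizer_le fun c (hc : c ∈ C) => hc.1))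
    intro x hx c hc
    rw [← mem_centralizer_iff.mp (hle hx) c hc, mul_inv_cancel_right]
  refine ⟨H34.isElementaryAbelian_sup hCe hWe hCW, fun h0 => hW1 (le_bot_iff.mp (h0 ▸ le_sup_right)),
    sup_le (le_inf hCT hCW) hWR, ?_, ?_, ?_⟩
  · intro x hx
    refine mem_normalizer_of_conj_mem fun v hv => ?_
    have hxW : x ∈ normalizer (W : Set G) :=
      (sup_le (le_sup_left.trans hN) (h.norm.trans (normalizer_le_normalizer_wOf K)) : K ⊔ T ≤ _) hx
    have hle : C ⊔ W ≤ (C ⊔ W).comap (MulAut.conj x).toMonoidHom := sup_le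
      (fun c hc => by show x * c * x⁻¹ ∈ C ⊔ W; rw [hfix x hx c hc]; exact mem_sup_left hc)
      (fun w hw => mem_sup_right ((mem_normalizer_iff.mp hxW w).mp hw))
    exact hle hv
  · rw [le_centralizer_iff]
    refine sup_le (fun c hc r hr => ?_) fun w hw r hr => (mem_centralizer_iff.mp hr.2 w hw).symm
    exact (mem_centralizer_iff.mp (h.cen hr.1) c hc.1).symm
  · rw [hZ, ← (z0_split h.two h.comp).2.1]
    exact sup_le le_sup_left (inf_le_right.trans le_sup_right)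

set_option maxHeartbeats 1000000 in
/-- The four-group lemma: a `T`-invariant four-group in `R` meeting `V` in `⟨u⟩` is centralized by `R`. -/
theorem Plane.four_group {Y : Subgroup G} (hY : IsElementaryAbelian 2 Y) (h4 : Nat.card Y = 4)
    (hYR : Y ≤ pR T K) (hTY : T ≤ normalizer (Y : Set G)) {u : G} (huY : u ∈ Y)
    (huZ : u ∈ omegaCenterOf (thompsonSubgroupOf 2 T)) (huC : u ∉ cZero T K)
    (hYV : ∀ y ∈ Y, y ∈ pV T K → y = 1 ∨ y = u) :
    pR T K ≤ centralizer (Y : Set G) := by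
  haveI : Fact (Nat.Prime 2) := ⟨Nat.prime_two⟩
  obtain ⟨d, hd, hd3, -, hfpf, hRT, hQR, hPR, hinv, hprod, ⟨A, hA, a, haA, haR⟩, -, -, -⟩ := Plane.facts hZN h
  obtain ⟨hVe, -, hVR, hPV, hRV, hZV⟩ := Plane.module hZN h
  haveI := hY.1
  haveI := hVe.1
  haveI := hA.2.1.1
  set R := pR T K with hR
  set V := pV T K with hV
  have hu1 : u ≠ 1 := fun e => huC (e ▸ one_mem _)
  have huV : u ∈ V := hZV huZ
  obtain ⟨y, hy, hy1, hyu⟩ : ∃ y ∈ Y, y ≠ 1 ∧ y ≠ u := by
    by_contra hno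
    push Not at hno
    have hle : Y ≤ zpowers u := fun y hy => by
      by_cases e : y = 1
      · rw [e]; exact one_mem _
      · rw [hno y hy e]; exact mem_zpowers u
    have := card_le_of_le hle
    rw [h4, Nat.card_zpowers, orderOf_eq_prime (hY.2 u huY) hu1] at this
    omega
  have hyV : y ∉ V := fun hm => (hYV y hy hm).elim hy1 hyu
  have huu : u * u = 1 := by rw [← pow_two]; exact hY.2 u huY
  have hycases : ∀ x ∈ Y, x = 1 ∨ x = u ∨ x = y ∨ x = u * y := by
    intro x hx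
    by_contra hh
    push Not at hh
    obtain ⟨n1, n2, n3, n4⟩ := hh
    classical
    haveI : Fintype ↥Y := Fintype.ofFinite _
    have hfive := Finset.card_le_univ ({⟨1, one_mem Y⟩, ⟨x, hx⟩, ⟨u, huY⟩, ⟨y, hy⟩,
      ⟨u * y, mul_mem huY hy⟩} : Finset ↥Y)
    rw [← Nat.card_eq_fintype_card, h4] at hfive
    have m1 : u * y ≠ 1 := fun e => hyu (mul_left_cancel (e.trans huu.symm))
    have m2 : u * y ≠ u := fun e => hy1 (mul_left_cancel (e.trans (mul_one u).symm))
    have m3 : u * y ≠ y := fun e => hu1 (mul_right_cancel (e.trans (one_mul y).symm))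
    simp [Subtype.ext_iff, Ne.symm hy1, Ne.symm hu1, Ne.symm n1, n2, n3, n4, Ne.symm hyu, Ne.symm m1, Ne.symm m2,
      Ne.symm m3] at hfive
  have hVc : ∀ r ∈ R, ∀ v ∈ V, r * v * r⁻¹ = v := fun r hr v hv => by
    rw [← mem_centralizer_iff.mp (hRV hr) v hv, mul_inv_cancel_right]
  -- conjugates of `y` under `T`
  have hty : ∀ t ∈ T, t * y * t⁻¹ = y ∨ t * y * t⁻¹ = u * y := by
    intro t ht
    have htu : t * u * t⁻¹ = u := by rw [← mem_centralizer_iff.mp (h.cen ht) u huZ, mul_inv_cancel_right]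
    rcases hycases _ ((mem_normalizer_iff.mp (hTY ht) y).mp hy) with e | e | e | e
    · exact absurd (conj_eq_one_iff.mp e) hy1
    · exact absurd (mul_left_cancel (mul_right_cancel (e.trans htu.symm))) hyu
    · exact Or.inl e
    · exact Or.inr e
  by_contra hno
  obtain ⟨r₀, hr₀, hr₀y⟩ : ∃ r ∈ R, r * y * r⁻¹ = u * y := by
    by_contra hh
    push Not at hh
    refine hno fun r hr x hx => ?_
    have hfy : r * y * r⁻¹ = y := (hty r (hRT hr)).resolve_right (hh r hr)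
    have hfu : r * u * r⁻¹ = u := hVc r hr u huV
    refine (mul_inv_eq_iff_eq_mul.mp ?_).symm
    rcases hycases x hx with rfl | rfl | rfl | rfl
    · group
    · exact hfu
    · exact hfy
    · calc r * (u * y) * r⁻¹ = (r * u * r⁻¹) * (r * y * r⁻¹) := by group
        _ = _ := by rw [hfu, hfy]
  have hyR : y ∈ R := hYR hy
  have hdP : d ∈ K ⊔ T := mem_sup_left hd
  have hdR : ∀ r ∈ R, d * r * d⁻¹ ∈ R := fun r hr => (mem_normalizer_iff.mp (hPR hdP) r).mp hr
  have hdR' : ∀ r ∈ R, d⁻¹ * r * d ∈ R := fun r hr => by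
    have := (mem_normalizer_iff.mp (hPR (inv_mem hdP)) r).mp hr
    rwa [inv_inv] at this
  have hdV : ∀ v ∈ V, d * v * d⁻¹ ∈ V := fun v hv => (mem_normalizer_iff.mp (hPV hdP) v).mp hv
  set u₁ := d * u * d⁻¹ with hu₁
  set u₂ := d * u₁ * d⁻¹ with hu₂
  set y₁ := d * y * d⁻¹ with hy₁
  set y₂ := d * y₁ * d⁻¹ with hy₂
  have hu₁V : u₁ ∈ V := hdV u huV
  have hu₂V : u₂ ∈ V := hdV u₁ hu₁V
  have hy₁R : y₁ ∈ R := hdR y hyR
  have hy₂R : y₂ ∈ R := hdR y₁ hy₁R
  have hd3' : ∀ x : G, d * (d * (d * x * d⁻¹) * d⁻¹) * d⁻¹ = x := fun x => by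
    calc d * (d * (d * x * d⁻¹) * d⁻¹) * d⁻¹ = d ^ 3 * x * (d ^ 3)⁻¹ := by rw [pow_three']; group
      _ = x := by rw [hd3]; group
  have hcase1 : ∀ r ∈ R, r * y₁ * r⁻¹ = y₁ ∨ r * y₁ * r⁻¹ = u₁ * y₁ := by
    intro r hr
    have e : r * y₁ * r⁻¹ = d * ((d⁻¹ * r * d) * y * (d⁻¹ * r * d)⁻¹) * d⁻¹ := by rw [hy₁]; group
    rcases hty _ (hRT (hdR' r hr)) with h' | h'
    · exact Or.inl (by rw [e, h'])
    · exact Or.inr (by rw [e, h', hy₁, hu₁]; group)
  have hcase2 : ∀ r ∈ R, r * y₂ * r⁻¹ = y₂ ∨ r * y₂ * r⁻¹ = u₂ * y₂ := by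
    intro r hr
    have e : r * y₂ * r⁻¹ = d * ((d⁻¹ * r * d) * y₁ * (d⁻¹ * r * d)⁻¹) * d⁻¹ := by rw [hy₂]; group
    rcases hcase1 _ (hdR' r hr) with h' | h'
    · exact Or.inl (by rw [e, h'])
    · exact Or.inr (by rw [e, h', hy₂, hu₂]; group)
  -- `u` is moved by `d`
  have hu01 : u₁ ≠ u := by
    intro e
    have hus := huZ
    rw [← (z0_split h.two h.comp).2.1, ← SetLike.mem_coe,
      coe_mul_of_right_le_normalizer_left _ _ (le_trans (fun x hx => mem_centralizer_iff.mpr fun c hc => by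
        haveI := (z0_elem T).1
        exact setLike_mul_comm (s := omegaCenterOf (thompsonSubgroupOf 2 T)) hc.1 hx.1)
        (centralizer_le_normalizer _))] at hus
    obtain ⟨c, hc, w, hw, hcw⟩ := hus
    have hcw' : c * w = u := hcw
    have hdc : d * c * d⁻¹ = c := by
      rw [mem_centralizer_singleton_iff.mp (cZero_centralizer hc (mem_sup_left hd)), mul_inv_cancel_right]
    have hdw : d * w * d⁻¹ = w := by
      refine mul_left_cancel (a := c) ?_
      calc c * (d * w * d⁻¹) = (d * c * d⁻¹) * (d * w * d⁻¹) := by rw [hdc]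
        _ = d * (c * w) * d⁻¹ := by group
        _ = _ := by rw [hcw', ← hu₁, e]
    exact huC (by rw [← hcw', hfpf w hw.2 hdw, mul_one]; exact hc)
  have hu12 : u₂ ≠ u₁ := fun e => hu01 (mul_left_cancel (mul_right_cancel e))
  have hu1' : u₁ ≠ 1 := fun e => hu1 (conj_eq_one_iff.mp e)
  have hu2' : u₂ ≠ 1 := fun e => hu1' (conj_eq_one_iff.mp e)
  have hy1V : y₁ ∉ V := fun hm => hyV (by rw [← hd3' y, ← hy₁]; exact hdV _ (hdV _ hm))
  have hy2V : y₂ ∉ V := fun hm => hy1V (by rw [← hd3' y₁, ← hy₂]; exact hdV _ (by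
    exact hdV _ hm))
  set r₁ := d * r₀ * d⁻¹ with hr₁
  have hr₁R : r₁ ∈ R := hdR r₀ hr₀
  have hr₁y : r₁ * y₁ * r₁⁻¹ = u₁ * y₁ := by
    calc r₁ * y₁ * r₁⁻¹ = d * (r₀ * y * r₀⁻¹) * d⁻¹ := by rw [hr₁, hy₁]; group
      _ = _ := by rw [hr₀y, hy₁, hu₁]; group
  have hy12 : y₁⁻¹ * y₂ ∉ V := by
    intro hm
    set v := y₁⁻¹ * y₂ with hv
    have e : r₁ * y₂ * r₁⁻¹ = u₁ * y₂ := by
      calc r₁ * y₂ * r₁⁻¹ = (r₁ * y₁ * r₁⁻¹) * (r₁ * v * r₁⁻¹) := by rw [hv]; group
        _ = u₁ * y₁ * v := by rw [hr₁y, hVc r₁ hr₁R v hm]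
        _ = _ := by rw [hv]; group
    rcases hcase2 r₁ hr₁R with h' | h' <;> rw [e] at h'
    · exact hu1' (mul_right_cancel (h'.trans (one_mul y₂).symm))
    · exact hu12 (mul_right_cancel h').symm
  have hcy : y₁ * y₂ = y₂ * y₁ := by
    rcases hcase2 y₁ hy₁R with h' | h'
    · exact mul_inv_eq_iff_eq_mul.mp h'
    · rcases hcase1 y₂ hy₂R with h'' | h''
      · exact (mul_inv_eq_iff_eq_mul.mp h'').symm
      · exfalso
        have e1 : y₁ * y₂ = u₂ * y₂ * y₁ := mul_inv_eq_iff_eq_mul.mp h'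
        have e2 : y₂ * y₁ = u₁ * y₁ * y₂ := mul_inv_eq_iff_eq_mul.mp h''
        have e3 : y₁ * y₂ = u₂ * u₁ * (y₁ * y₂) := by
          conv_lhs => rw [e1, mul_assoc, e2]
          group
        have e4 : u₂ * u₁ = 1 := mul_right_cancel (e3.symm.trans (one_mul _).symm)
        refine hu12 ?_
        rw [eq_inv_of_mul_eq_one_left e4]
        exact inv_eq_of_mul_eq_one_left (by rw [← pow_two]; exact hVe.2 u₁ hu₁V)
  -- `a` interchanges the two conjugates
  have haa : a * a = 1 := by rw [← pow_two]; exact hA.2.1.2 a haA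
  have haT := hA.1 haA
  obtain ⟨qa, hqa, hainv⟩ := hinv a haT haR
  have hqaR : qa ∈ R := hQR hqa
  have hay1 : ∃ v ∈ V, a * y₁ * a⁻¹ = v * y₂ := by
    have hqy : qa * (a * y * a⁻¹) * qa⁻¹ = y ∨ qa * (a * y * a⁻¹) * qa⁻¹ = u * y := by
      have e : qa * (a * y * a⁻¹) * qa⁻¹ = (qa * a) * y * (qa * a)⁻¹ := by group
      rw [e]
      exact hty _ (mul_mem (hRT hqaR) haT)
    have e : a * y₁ * a⁻¹ = d ^ 2 * (qa * (a * y * a⁻¹) * qa⁻¹) * (d ^ 2)⁻¹ := by
      calc a * y₁ * a⁻¹ = (a * d * a⁻¹) * (a * y * a⁻¹) * (a * d * a⁻¹)⁻¹ := by rw [hy₁]; group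
        _ = _ := by rw [hainv]; group
    have e2 : ∀ x : G, d ^ 2 * x * (d ^ 2)⁻¹ = d * (d * x * d⁻¹) * d⁻¹ := fun x => by rw [pow_two]; group
    rcases hqy with h' | h'
    · exact ⟨1, one_mem _, by rw [e, h', e2, one_mul, hy₂, hy₁]⟩
    · refine ⟨u₂, hu₂V, ?_⟩
      rw [e, h', e2, hy₂, hy₁, hu₂, hu₁]; group
  obtain ⟨v₂, hv₂, hav⟩ := hay1
  have haV : ∀ v ∈ V, a * v * a⁻¹ ∈ V := fun v hv =>
    (mem_normalizer_iff.mp (hPV (mem_sup_right haT)) v).mp hv
  have hai : a⁻¹ = a := inv_eq_of_mul_eq_one_left haa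
  have hay2 : a * y₂ * a⁻¹ = (a * v₂⁻¹ * a⁻¹) * y₁ := by
    have e : y₂ = v₂⁻¹ * (a * y₁ * a⁻¹) := by rw [hav]; group
    calc a * y₂ * a⁻¹ = a * v₂⁻¹ * a⁻¹ * ((a * a) * y₁ * (a * a)⁻¹) := by
          conv_lhs => rw [e]
          group
      _ = _ := by rw [haa]; group
  -- the large abelian subgroup
  have hy1e : y₁ * y₁ = 1 := by
    rw [hy₁]
    calc d * y * d⁻¹ * (d * y * d⁻¹) = d * (y * y) * d⁻¹ := by group
      _ = 1 := by rw [← pow_two, hY.2 y hy]; group
  have hy2e : y₂ * y₂ = 1 := by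
    rw [hy₂]
    calc d * y₁ * d⁻¹ * (d * y₁ * d⁻¹) = d * (y₁ * y₁) * d⁻¹ := by group
      _ = 1 := by rw [hy1e]; group
  have hz : ∀ z : G, z * z = 1 → IsElementaryAbelian 2 (zpowers z) := fun z hz2 => ⟨inferInstance, fun x hx => by
    obtain ⟨i, rfl⟩ := mem_zpowers_iff.mp hx
    rw [← zpow_natCast, ← zpow_mul, mul_comm, zpow_mul, zpow_natCast, pow_two, hz2, one_zpow]⟩
  set U := V ⊔ zpowers y₁ ⊔ zpowers y₂ with hU
  have hUe : IsElementaryAbelian 2 U := by
    refine H34.isElementaryAbelian_sup (H34.isElementaryAbelian_sup hVe (hz y₁ hy1e) ?_) (hz y₂ hy2e) ?_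
    · exact le_centralizer_iff.mp (zpowers_le.mpr (hRV hy₁R))
    · refine sup_le (le_centralizer_iff.mp (zpowers_le.mpr (hRV hy₂R))) ?_
      rw [zpowers_le]
      intro x hx
      obtain ⟨i, rfl⟩ := mem_zpowers_iff.mp hx
      exact (Commute.zpow_left (show Commute y₂ y₁ from hcy.symm) i).eq
  have hUR : U ≤ R := sup_le (sup_le hVR (zpowers_le.mpr hy₁R)) (zpowers_le.mpr hy₂R)
  haveI := hUe.1
  have hy1U : y₁ ∈ U := mem_sup_left (mem_sup_right (mem_zpowers _))
  have hy2U : y₂ ∈ U := mem_sup_right (mem_zpowers _)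
  have hVU : ∀ v ∈ V, v ∈ U := fun v hv => mem_sup_left (mem_sup_left hv)
  have hUmem : ∀ x ∈ U, ∃ v ∈ V, x = v ∨ x = v * y₁ ∨ x = v * y₂ ∨ x = v * (y₁ * y₂) := by
    intro x hx
    have hn1 : zpowers y₁ ≤ normalizer (V : Set G) := (zpowers_le.mpr (hRV hy₁R)).trans (centralizer_le_normalizer _)
    have hn2 : zpowers y₂ ≤ normalizer ((V ⊔ zpowers y₁ : Subgroup G) : Set G) :=
      (zpowers_le.mpr hy2U).trans ((Subgroup.le_centralizer U).trans
        ((centralizer_le (le_sup_left : V ⊔ zpowers y₁ ≤ U)).trans (centralizer_le_normalizer _)))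
    rw [← SetLike.mem_coe, coe_mul_of_right_le_normalizer_left _ _ hn2] at hx
    obtain ⟨p, hp, z₂, hz₂, hpz⟩ := hx
    rw [coe_mul_of_right_le_normalizer_left _ _ hn1] at hp
    obtain ⟨v, hv, z₁, hz₁, hvz⟩ := hp
    have hzp : ∀ z : G, z * z = 1 → ∀ x ∈ zpowers z, x = 1 ∨ x = z := fun z hz2 x hx => by
      obtain ⟨i, rfl⟩ := mem_zpowers_iff.mp hx
      have hsq : z ^ (2 : ℤ) = 1 := by rw [zpow_ofNat, pow_two]; exact hz2
      obtain ⟨j, rfl | rfl⟩ := Int.even_or_odd' i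
      · exact Or.inl (by rw [zpow_mul, hsq, one_zpow])
      · exact Or.inr (by rw [zpow_add, zpow_mul, hsq, one_zpow, one_mul, zpow_one])
    refine ⟨v, hv, ?_⟩
    have hx' : x = v * z₁ * z₂ := by rw [← hpz, ← hvz]
    rcases hzp y₁ hy1e z₁ hz₁ with rfl | rfl <;> rcases hzp y₂ hy2e z₂ hz₂ with rfl | rfl <;>
      simp [hx', mul_assoc]
  have hUcard : 4 * Nat.card V ≤ Nat.card U := by
    rw [show 4 * Nat.card V = Nat.card (↥V × Bool × Bool) by simp [Nat.card_prod]; ring]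
    refine Nat.card_le_card_of_injective (fun p => (⟨(p.1 : G) * ((if p.2.1 then y₁ else 1) * (if p.2.2 then y₂ else 1)),
      mul_mem (hVU _ p.1.2) (mul_mem (by split_ifs <;> simp [hy1U]) (by split_ifs <;> simp [hy2U]))⟩ : ↥U)) ?_
    rintro ⟨v, b, c⟩ ⟨v', b', c'⟩ e
    have e' : (v : G) * ((if b then y₁ else 1) * (if c then y₂ else 1)) =
        (v' : G) * ((if b' then y₁ else 1) * (if c' then y₂ else 1)) := congrArg Subtype.val e
    have hmem : ((if b then y₁ else 1) * (if c then y₂ else 1)) *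
        ((if b' then y₁ else 1) * (if c' then y₂ else 1))⁻¹ ∈ V := by
      have : ((if b then y₁ else 1) * (if c then y₂ else 1)) *
          ((if b' then y₁ else 1) * (if c' then y₂ else 1))⁻¹ = (v : G)⁻¹ * v' := by
        rw [eq_inv_mul_iff_mul_eq, ← mul_assoc, e', mul_inv_cancel_right]
      rw [this]
      exact mul_mem (inv_mem v.2) v'.2
    have hi1 : y₁⁻¹ = y₁ := inv_eq_of_mul_eq_one_left hy1e
    have hi2 : y₂⁻¹ = y₂ := inv_eq_of_mul_eq_one_left hy2e
    have h12 : y₁ * y₂ ∉ V := hi1 ▸ hy12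
    have h21 : y₂ * y₁ ∉ V := hcy ▸ h12
    have hB : ∀ p p' : Bool, (if p then y₁ else 1) * (if p' then y₁ else 1)⁻¹ = if (p ^^ p') then y₁ else 1 := by
      intro p p'
      cases p <;> cases p' <;> simp [hy1e, hi1]
    have hC : ∀ p p' : Bool, (if p then y₂ else 1) * (if p' then y₂ else 1)⁻¹ = if (p ^^ p') then y₂ else 1 := by
      intro p p'
      cases p <;> cases p' <;> simp [hy2e, hi2]
    have hcomm : ∀ p p' : Bool, Commute (if p then y₁ else 1) (if p' then y₂ else 1) := by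
      intro p p'
      cases p <;> cases p'
      · exact Commute.refl 1
      · exact Commute.one_left _
      · exact Commute.one_right _
      · exact hcy
    rw [show (if b then y₁ else 1) * (if c then y₂ else 1) * ((if b' then y₁ else 1) * (if c' then y₂ else 1))⁻¹ =
        (if b then y₁ else 1) * (((if c then y₂ else 1) * (if c' then y₂ else 1)⁻¹) * (if b' then y₁ else 1)⁻¹) by
      group, hC, ← ((hcomm b' (c ^^ c')).inv_left).eq, ← mul_assoc, hB] at hmem
    have hbc : (b ^^ b') = false ∧ (c ^^ c') = false := by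
      generalize (b ^^ b') = p at hmem
      generalize (c ^^ c') = q at hmem
      cases p <;> cases q
      · exact ⟨rfl, rfl⟩
      · exact absurd (by simpa using hmem) hy2V
      · exact absurd (by simpa using hmem) hy1V
      · exact absurd (by simpa using hmem) h12
    obtain rfl : b = b' := by revert hbc; cases b <;> cases b' <;> simp
    obtain rfl : c = c' := by revert hbc; cases c <;> cases c' <;> simp
    have hv : v = v' := Subtype.ext (mul_right_cancel e')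
    rw [hv]
  set A1 := A ⊓ R with hA1
  set A0 := A1 ⊓ centralizer ({y₁} : Set G) with hA0
  have hA1idx : Nat.card A ≤ 2 * Nat.card A1 := by
    classical
    rw [mul_comm, ← show Nat.card Bool = 2 by simp, ← Nat.card_prod]
    refine Nat.card_le_card_of_injective (fun x : ↥A => if hx : (x : G) ∈ R then ((⟨x, x.2, hx⟩ : ↥A1), true)
      else ((⟨a * x, mul_mem haA x.2, hprod a haT x (hA.1 x.2) haR hx⟩ : ↥A1), false)) fun x x' e => ?_
    simp only at e
    split_ifs at e with h1 h1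
    · exact Subtype.ext (congrArg (fun p : ↥A1 × Bool => (p.1 : G)) e)
    · simp at e
    · simp at e
    · exact Subtype.ext (mul_left_cancel (congrArg (fun p : ↥A1 × Bool => (p.1 : G)) e))
  have hA0U : A0 ≤ centralizer (U : Set G) := by
    rw [le_centralizer_iff]
    refine sup_le (sup_le (fun v hv b hb => (mem_centralizer_iff.mp (hRV hb.1.2) v hv).symm) ?_) ?_
    · rw [zpowers_le]
      exact fun b hb => (mem_centralizer_singleton_iff.mp hb.2)
    · rw [zpowers_le]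
      intro b hb
      have hbR := hb.1.2
      have hab : a * b * a⁻¹ = b := by rw [setLike_mul_comm (s := A) haA hb.1.1, mul_inv_cancel_right]
      have hfix1 : b * y₁ * b⁻¹ = y₁ := by rw [mem_centralizer_singleton_iff.mp hb.2, mul_inv_cancel_right]
      have hfix2 : b * (a * y₁ * a⁻¹) * b⁻¹ = a * y₁ * a⁻¹ := by
        calc b * (a * y₁ * a⁻¹) * b⁻¹ = (a * b * a⁻¹) * (a * y₁ * a⁻¹) * (a * b * a⁻¹)⁻¹ := by rw [hab]
          _ = a * (b * y₁ * b⁻¹) * a⁻¹ := by group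
          _ = _ := by rw [hfix1]
      rw [hav] at hfix2
      have e : b * y₂ * b⁻¹ = y₂ := by
        refine mul_left_cancel (a := v₂) ?_
        calc v₂ * (b * y₂ * b⁻¹) = (b * v₂ * b⁻¹) * (b * y₂ * b⁻¹) := by rw [hVc b hbR v₂ hv₂]
          _ = b * (v₂ * y₂) * b⁻¹ := by group
          _ = _ := hfix2
      exact mul_inv_eq_iff_eq_mul.mp e
  set CV := V ⊓ centralizer ({a} : Set G) with hCV
  have hCV2 : 2 * Nat.card CV ≤ Nat.card V := by
    have hne : CV.relIndex V ≠ 1 := by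
      intro h1
      refine haR ⟨haT, fun w hw => ?_⟩
      exact mem_centralizer_singleton_iff.mp ((relIndex_eq_one.mp h1 (mem_sup_right hw)).2)
    have h2 := (CV.subgroupOf V).card_mul_index
    rw [Nat.card_congr (subgroupOfEquivOfLe (inf_le_left : CV ≤ V)).toEquiv] at h2
    have h0 : CV.relIndex V ≠ 0 := fun h' => by
      rw [relIndex] at h'; rw [h'] at h2
      have := Nat.card_pos (α := V); omega
    rw [← h2, mul_comm 2]
    exact Nat.mul_le_mul_left _ (by rw [relIndex] at hne h0; omega)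
  -- fixed points of `a` on `U`
  have hfixU : ∀ x ∈ U, a * x * a⁻¹ = x → ∃ v ∈ V, x = v ∨ x = v * (y₁ * y₂) := by
    intro x hx hax
    obtain ⟨v, hv, hc⟩ := hUmem x hx
    have hav' := haV v hv
    rcases hc with rfl | rfl | rfl | rfl
    · exact ⟨x, hv, Or.inl rfl⟩
    · exfalso
      have e : a * v * a⁻¹ * (v₂ * y₂) = v * y₁ := by rw [← hav, ← hax]; group
      refine hy12 ?_
      have hy : y₁⁻¹ * y₂ = (a * v * a⁻¹ * v₂)⁻¹ * v := by
        have hi1 : y₁⁻¹ = y₁ := inv_eq_of_mul_eq_one_left hy1e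
        have e2 : y₂ = (a * v * a⁻¹ * v₂)⁻¹ * (v * y₁) := by rw [← e]; group
        calc y₁⁻¹ * y₂ = y₁ * ((a * v * a⁻¹ * v₂)⁻¹ * (v * y₁)) := by rw [hi1, ← e2]
          _ = ((a * v * a⁻¹ * v₂)⁻¹ * v) * (y₁ * y₁) := by
            rw [← mul_assoc _ v, ← mul_assoc y₁,
              setLike_mul_comm (s := U) hy1U (hVU _ (mul_mem (inv_mem (mul_mem hav' hv₂)) hv)), mul_assoc]
          _ = _ := by rw [hy1e, mul_one]
      rw [hy]
      exact mul_mem (inv_mem (mul_mem hav' hv₂)) hv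
    · exfalso
      have e : a * v * a⁻¹ * (a * v₂⁻¹ * a⁻¹ * y₁) = v * y₂ := by rw [← hay2, ← hax]; group
      refine hy12 ?_
      have hy : y₁⁻¹ * y₂ = v⁻¹ * (a * v * a⁻¹ * (a * v₂⁻¹ * a⁻¹)) := by
        have e2 : y₂ = v⁻¹ * (a * v * a⁻¹ * (a * v₂⁻¹ * a⁻¹)) * y₁ := by
          rw [mul_assoc, mul_assoc (a * v * a⁻¹), e, inv_mul_cancel_left]
        rw [e2, setLike_mul_comm (s := U)
          (hVU _ (mul_mem (inv_mem hv) (mul_mem hav' (haV _ (inv_mem hv₂))))) hy1U, inv_mul_cancel_left]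
      rw [hy]
      exact mul_mem (inv_mem hv) (mul_mem hav' (haV _ (inv_mem hv₂)))
    · exact ⟨v, hv, Or.inr rfl⟩
  have hinter : ∀ x ∈ A0 ⊓ U, a * x * a⁻¹ = x := fun x hx => by
    rw [setLike_mul_comm (s := A) haA hx.1.1.1, mul_inv_cancel_right]
  have hprodcard : Nat.card A0 * Nat.card U ≤ Nat.card A * Nat.card ↥(A0 ⊓ U) := by
    refine (H34.card_mul_card_le A0 U).trans (Nat.mul_le_mul_right _ ?_)
    exact hA.2.2 _ (sup_le (inf_le_left.trans (inf_le_left.trans hA.1)) (hUR.trans hRT))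
      (H34.isElementaryAbelian_sup (H34.isElementaryAbelian_mono hA.2.1 (inf_le_left.trans inf_le_left)) hUe hA0U)
  have hmem : ∀ x ∈ A0 ⊓ U, x ∈ V → x ∈ CV := fun x hx hv =>
    ⟨hv, mem_centralizer_singleton_iff.mpr (mul_inv_eq_iff_eq_mul.mp (hinter x hx)).symm⟩
  have hA0pos : 0 < Nat.card A0 := Nat.card_pos
  have hCVpos : 0 < Nat.card CV := Nat.card_pos
  by_cases hall : A1 ≤ centralizer ({y₁} : Set G)
  · have he : A0 = A1 := inf_eq_left.mpr hall
    have hI : Nat.card ↥(A0 ⊓ U) ≤ 2 * Nat.card CV := by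
      classical
      by_cases hex : ∃ x ∈ A0 ⊓ U, x ∉ V
      · obtain ⟨x₀, hx₀, hx₀V⟩ := hex
        rw [mul_comm, ← show Nat.card Bool = 2 by simp, ← Nat.card_prod]
        have hdiff : ∀ x : ↥(A0 ⊓ U), (x : G) ∉ V → x₀ * (x : G) ∈ V := by
          intro x hxV
          obtain ⟨v, hv, hc | hc⟩ := hfixU x x.2.2 (hinter x x.2)
          · exact absurd (hc ▸ hv) hxV
          obtain ⟨v', hv', hc' | hc'⟩ := hfixU x₀ hx₀.2 (hinter x₀ hx₀)
          · exact absurd (hc' ▸ hv') hx₀V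
          rw [hc, hc']
          have hyy : y₁ * y₂ * (y₁ * y₂) = 1 := by rw [← pow_two]; exact hUe.2 _ (mul_mem hy1U hy2U)
          rw [setLike_mul_comm (s := U) (hVU v hv) (mul_mem hy1U hy2U), mul_assoc v',
                  ← mul_assoc (y₁ * y₂) (y₁ * y₂) v, hyy, one_mul]
          exact mul_mem hv' hv
        refine Nat.card_le_card_of_injective (fun x => if hx : (x : G) ∈ V then ((⟨x, hmem x x.2 hx⟩ : ↥CV), true)
          else ((⟨x₀ * x, hmem _ (mul_mem hx₀ x.2) (hdiff x hx)⟩ : ↥CV), false)) fun x x' e => ?_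
        simp only at e
        split_ifs at e with h1 h1
        · exact Subtype.ext (congrArg (fun p : ↥CV × Bool => (p.1 : G)) e)
        · simp at e
        · simp at e
        · exact Subtype.ext (mul_left_cancel (congrArg (fun p : ↥CV × Bool => (p.1 : G)) e))
      · push Not at hex
        exact (card_le_of_le fun x hx => hmem x hx (hex x hx)).trans (by omega)
    rw [he] at hprodcard hI hA0pos
    have h1 : Nat.card A1 * (4 * Nat.card V) ≤ Nat.card A1 * (2 * Nat.card V) :=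
      calc Nat.card A1 * (4 * Nat.card V) ≤ Nat.card A1 * Nat.card U := Nat.mul_le_mul_left _ hUcard
        _ ≤ Nat.card A * Nat.card ↥(A1 ⊓ U) := hprodcard
        _ ≤ (2 * Nat.card A1) * Nat.card V := Nat.mul_le_mul hA1idx (hI.trans hCV2)
        _ = _ := by ring
    have := Nat.le_of_mul_le_mul_left h1 hA0pos
    omega
  · obtain ⟨b, hb, hbC⟩ := SetLike.not_le_iff_exists.mp hall
    have hby : b * y₁ * b⁻¹ = u₁ * y₁ := (hcase1 b hb.2).resolve_left fun e =>
      hbC (mem_centralizer_singleton_iff.mpr (mul_inv_eq_iff_eq_mul.mp e))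
    have hA0idx : Nat.card A1 ≤ 2 * Nat.card A0 := by
      classical
      have hmul : ∀ x ∈ A1, x ∉ A0 → b * x ∈ A0 := by
        intro x hx hxn
        refine ⟨mul_mem hb hx, mem_centralizer_singleton_iff.mpr (mul_inv_eq_iff_eq_mul.mp ?_)⟩
        have hxy : x * y₁ * x⁻¹ = u₁ * y₁ := (hcase1 x hx.2).resolve_left fun e =>
          hxn ⟨hx, mem_centralizer_singleton_iff.mpr (mul_inv_eq_iff_eq_mul.mp e)⟩
        calc b * x * y₁ * (b * x)⁻¹ = b * (x * y₁ * x⁻¹) * b⁻¹ := by group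
          _ = (b * u₁ * b⁻¹) * (b * y₁ * b⁻¹) := by rw [hxy]; group
          _ = u₁ * u₁ * y₁ := by rw [hVc b hb.2 u₁ hu₁V, hby]; exact (mul_assoc _ _ _).symm
          _ = _ := by rw [← pow_two, hVe.2 u₁ hu₁V, one_mul]
      rw [mul_comm, ← show Nat.card Bool = 2 by simp, ← Nat.card_prod]
      refine Nat.card_le_card_of_injective (fun x : ↥A1 => if hx : (x : G) ∈ A0 then ((⟨x, hx⟩ : ↥A0), true)
        else ((⟨b * x, hmul x x.2 hx⟩ : ↥A0), false)) fun x x' e => ?_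
      simp only at e
      split_ifs at e with h1 h1
      · exact Subtype.ext (congrArg (fun p : ↥A0 × Bool => (p.1 : G)) e)
      · simp at e
      · simp at e
      · exact Subtype.ext (mul_left_cancel (congrArg (fun p : ↥A0 × Bool => (p.1 : G)) e))
    have hI : A0 ⊓ U ≤ CV := by
      intro x hx
      obtain ⟨v, hv, hc | hc⟩ := hfixU x hx.2 (hinter x hx)
      · exact hmem x hx (hc ▸ hv)
      exfalso
      have hcomm : b * x * b⁻¹ = x := by rw [setLike_mul_comm (s := A) hb.1 hx.1.1.1, mul_inv_cancel_right]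
      rw [hc] at hcomm
      rcases hcase2 b hb.2 with e | e
      · have h5 : b * (v * (y₁ * y₂)) * b⁻¹ = v * (u₁ * (y₁ * y₂)) := by
          calc b * (v * (y₁ * y₂)) * b⁻¹ = (b * v * b⁻¹) * ((b * y₁ * b⁻¹) * (b * y₂ * b⁻¹)) := by group
            _ = _ := by rw [hVc b hb.2 v hv, hby, e, mul_assoc u₁]
        rw [hcomm] at h5
        exact hu1' (mul_right_cancel ((mul_left_cancel h5).symm.trans (one_mul _).symm))
      · have h5 : b * (v * (y₁ * y₂)) * b⁻¹ = v * (u₁ * u₂ * (y₁ * y₂)) := by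
          calc b * (v * (y₁ * y₂)) * b⁻¹ = (b * v * b⁻¹) * ((b * y₁ * b⁻¹) * (b * y₂ * b⁻¹)) := by group
            _ = v * (u₁ * (y₁ * u₂) * y₂) := by rw [hVc b hb.2 v hv, hby, e]; group
            _ = _ := by rw [setLike_mul_comm (s := U) hy1U (hVU _ hu₂V)]; group
        rw [hcomm] at h5
        have h6 := mul_right_cancel ((mul_left_cancel h5).symm.trans (one_mul (y₁ * y₂)).symm)
        refine hu12 ?_
        rw [eq_inv_of_mul_eq_one_right h6]
        exact inv_eq_of_mul_eq_one_left (by rw [← pow_two]; exact hVe.2 u₁ hu₁V)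
    have h1 : Nat.card A0 * (4 * Nat.card V) ≤ Nat.card A0 * (2 * Nat.card V) :=
      calc Nat.card A0 * (4 * Nat.card V) ≤ Nat.card A0 * Nat.card U := Nat.mul_le_mul_left _ hUcard
        _ ≤ Nat.card A * Nat.card ↥(A0 ⊓ U) := hprodcard
        _ ≤ (4 * Nat.card A0) * Nat.card CV := Nat.mul_le_mul (by omega) (card_le_of_le hI)
        _ = Nat.card A0 * (2 * (2 * Nat.card CV)) := by ring
        _ ≤ _ := Nat.mul_le_mul_left _ (Nat.mul_le_mul_left 2 hCV2)
    have := Nat.le_of_mul_le_mul_left h1 hA0pos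
    have hVpos : 0 < Nat.card V := Nat.card_pos
    omega

end Cfsg.Agent.H74.JB
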