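import Cfsg.Agent.H74.JOutsideR
import Cfsg.Agent.H74.JCompBasic
import Cfsg.Agent.H50.StronglyEmbedded
import Cfsg.Agent.H28.StronglyEmbedded

/-!
A second component with a different container.
-/

set_option autoImplicit false

namespace Cfsg.Agent.H74.JB

open Subgroup Cfsg
open scoped commutatorElement Pointwise

variable {G : Type*} [Group G] [Finite G]

/-- A normal four-group of `S` in which the element off the centre has centralizer inside the container. -/
theorem exists_four (hZN : ZN G) (S : Sylow 2 G) {K L : Subgroup G} (hS1 : (S : Subgroup G) ≠ ⊥)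
    (hK : IsJComponent (S : Subgroup G) K) (h : IsContainer (S : Subgroup G) K L)
    (hLS : L ∈ jOvergroups (S : Subgroup G)) {z : G} (hz : z ∈ omegaCenterOf (S : Subgroup G)) (hz1 : z ≠ 1)
    (hZz : omegaCenterOf (S : Subgroup G) ≤ zpowers z) (hCz : centralizer ({z} : Set G) ≤ L)
    (hzK : z ∉ cZero (S : Subgroup G) K) :
    ∃ y ∈ (S : Subgroup G), y * y = 1 ∧ y ≠ 1 ∧ y ≠ z ∧
      (∀ s ∈ (S : Subgroup G), s * y * s⁻¹ = y ∨ s * y * s⁻¹ = z * y) ∧ centralizer ({y} : Set G) ≤ L := by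
  haveI : Fact (Nat.Prime 2) := ⟨Nat.prime_two⟩
  have hS2 : IsPGroup 2 (S : Subgroup G) := S.isPGroup'
  obtain ⟨hzS, hzc, hzz⟩ := omega_mem hz
  set Z := omegaCenterOf (thompsonSubgroupOf 2 (S : Subgroup G)) with hZ
  have hzZ : z ∈ Z := omega_le_z0 _ hz
  have hzfix : ∀ s ∈ (S : Subgroup G), s * z * s⁻¹ = z := fun s hs => by rw [hzc s hs, mul_inv_cancel_right]
  obtain ⟨hW2, -, -, hcard⟩ := z0_split hS2 hK
  by_cases h2 : Nat.card Z ≤ 2
  · -- `z` lies in `W_K`
    have hZW : Z ⊓ wOf K = Z := eq_of_le_of_card_ge inf_le_left (hW2 ▸ h2)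
    have hzW : z ∈ wOf K := (hZW.ge hzZ).2
    have hKL : K ≤ L := le_sup_left.trans h.le
    have hN := normalizes_of_meets_center hZN hS1 hLS hK hKL (fun h0 => hz1 (mem_bot.mp (h0 ▸
      (⟨⟨hzS, hzc⟩, hzW⟩ : z ∈ (S : Subgroup G) ⊓ centralizer ((S : Subgroup G) : Set G) ⊓ wOf K))))
    obtain ⟨hW2', -, hWQ, -⟩ := wOf_facts hK
    obtain ⟨d, hd, -, -, -, -, hfpf⟩ := exists_generator hK
    set y := d * z * d⁻¹ with hy
    have hKW : K ≤ normalizer (wOf K : Set G) := le_normalizer.trans (normalizer_le_normalizer_wOf K)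
    have hyW : y ∈ wOf K := (mem_normalizer_iff.mp (hKW hd) z).mp hzW
    have hyz : y ≠ z := fun e => hz1 (hfpf z hzW e)
    have hy1 : y ≠ 1 := fun e => hz1 (conj_eq_one_iff.mp e)
    refine ⟨y, comp_core_le hZN hS1 hLS hK hKL (hWQ hyW), hK.2.2.2.2.2 y hyW, hy1, hyz, fun s hs => ?_, ?_⟩
    · have hsy : s * y * s⁻¹ ∈ wOf K :=
        (mem_normalizer_iff.mp (normalizer_le_normalizer_wOf K (hN hs)) y).mp hyW
      rcases four_cases hK.2.2.2.2.1.le hzW hyW hz1 hy1 hyz.symm hzz hsy with e | e | e | e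
      · exact absurd (conj_eq_one_iff.mp e) hy1
      · exact absurd (mul_left_cancel (mul_right_cancel (e.trans (hzfix s hs).symm))) hyz
      · exact Or.inl e
      · exact Or.inr e
    · intro x hx
      have hxy : x * y = y * x := mem_centralizer_singleton_iff.mp hx
      have hdL : d ∈ L := hKL hd
      have hmem : d⁻¹ * x * d ∈ centralizer ({z} : Set G) := by
        refine mem_centralizer_singleton_iff.mpr ?_
        calc d⁻¹ * x * d * z = d⁻¹ * (x * y) * d := by rw [hy]; group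
          _ = d⁻¹ * (y * x) * d := by rw [hxy]
          _ = _ := by rw [hy]; group
      have := mul_mem (mul_mem hdL (hCz hmem)) (inv_mem hdL)
      rwa [show d * (d⁻¹ * x * d) * d⁻¹ = x by group] at this
  · -- `Y` inside `Z₀(S)`
    have hSJ : (S : Subgroup G) ≤ normalizer (thompsonSubgroupOf 2 (S : Subgroup G) : Set G) :=
      le_normalizer.trans (H34.normalizer_le_normalizer_thompson _)
    have hZS : Z ≤ (S : Subgroup G) := fun x hx => H34.thompsonSubgroupOf_le _ (omega_mem hx).1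
    have hSZ : (S : Subgroup G) ≤ normalizer (Z : Set G) := fun s hs => by
      rw [mem_normalizer_iff_map_conj_eq]
      exact (map_omegaCenterOf (MulAut.conj s).injective _).trans
        (congrArg omegaCenterOf (mem_normalizer_iff_map_conj_eq.mp (hSJ hs)))
    have hzS' : zpowers z ≤ (S : Subgroup G) := zpowers_le.mpr hzS
    haveI : ((zpowers z).subgroupOf (S : Subgroup G)).Normal := normal_subgroupOf_of_le_normalizer fun s hs => by
      refine mem_normalizer_of_conj_mem fun x hx => ?_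
      rcases eq_of_mem_zpowers hzz hx with e | e <;> rw [e]
      · rw [mul_one, mul_inv_cancel]; exact one_mem _
      · rw [hzfix s hs]; exact mem_zpowers z
    set q := QuotientGroup.mk' ((zpowers z).subgroupOf (S : Subgroup G)) with hq
    haveI : (Z.subgroupOf (S : Subgroup G)).Normal := normal_subgroupOf_of_le_normalizer hSZ
    haveI : ((Z.subgroupOf (S : Subgroup G)).map q).Normal :=
      Subgroup.Normal.map inferInstance q (QuotientGroup.mk'_surjective _)
    have hne : (Z.subgroupOf (S : Subgroup G)).map q ≠ ⊥ := by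
      intro h0
      rw [Subgroup.map_eq_bot_iff, hq, QuotientGroup.ker_mk'] at h0
      have hle : Z ≤ zpowers z := fun x hx => h0 (show (⟨x, hZS hx⟩ : ↥(S : Subgroup G)) ∈ _ from hx)
      exact h2 ((card_le_of_le hle).trans_eq (by rw [Nat.card_zpowers, orderOf_eq_prime (by rwa [pow_two]) hz1]))
    obtain ⟨yb, hyb, hyb1⟩ : ∃ yb ∈ (Z.subgroupOf (S : Subgroup G)).map q ⊓ center _, yb ≠ 1 := by
      by_contra hh
      push Not at hh
      exact H24.inf_center_ne_bot (hS2.to_quotient _) hne ((eq_bot_iff_forall _).mpr hh)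
    obtain ⟨y₀, hy₀, rfl⟩ := hyb.1
    have hy₀Z : (y₀ : G) ∈ Z := hy₀
    have hy₀z : (y₀ : G) ∉ zpowers z := fun hh => hyb1 ((QuotientGroup.eq_one_iff _).mpr hh)
    have hy₀c : ∀ s ∈ (S : Subgroup G), s * (y₀ : G) * s⁻¹ = y₀ ∨ s * (y₀ : G) * s⁻¹ = z * y₀ := by
      intro s hs
      have h1 : q ⟨s, hs⟩ * q y₀ = q y₀ * q ⟨s, hs⟩ := mem_center_iff.mp hyb.2 _
      have h2 : q (⟨s, hs⟩ * y₀ * ⟨s, hs⟩⁻¹ * y₀⁻¹) = 1 := by
        rw [map_mul, map_mul, map_mul, map_inv, map_inv, h1, mul_inv_cancel_right, mul_inv_cancel]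
      have h3' := (QuotientGroup.eq_one_iff _).mp h2
      have h3 : s * (y₀ : G) * s⁻¹ * (y₀ : G)⁻¹ ∈ zpowers z := h3'
      rcases eq_of_mem_zpowers hzz h3 with e | e
      · exact Or.inl (mul_inv_eq_one.mp e)
      · exact Or.inr (mul_inv_eq_iff_eq_mul.mp e)
    obtain ⟨y, hyZ, hyz, hyc, hyC⟩ : ∃ y ∈ Z, y ∉ zpowers z ∧
        (∀ s ∈ (S : Subgroup G), s * y * s⁻¹ = y ∨ s * y * s⁻¹ = z * y) ∧ y ∈ cZero (S : Subgroup G) K := by
      by_cases hc : (y₀ : G) ∈ cZero (S : Subgroup G) K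
      · exact ⟨y₀, hy₀Z, hy₀z, hy₀c, hc⟩
      · refine ⟨z * y₀, mul_mem hzZ hy₀Z, fun hh => hy₀z ?_, fun s hs => ?_, z0_mul_mem hS2 hK hzZ hy₀Z hzK hc⟩
        · have := mul_mem (inv_mem (mem_zpowers z)) hh
          rwa [inv_mul_cancel_left] at this
        · have e : s * (z * y₀) * s⁻¹ = z * (s * (y₀ : G) * s⁻¹) := by
            calc s * (z * y₀) * s⁻¹ = (s * z * s⁻¹) * (s * (y₀ : G) * s⁻¹) := by group
              _ = _ := by rw [hzfix s hs]
          rcases hy₀c s hs with e' | e' <;> rw [e, e']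
          · exact Or.inl rfl
          · exact Or.inr rfl
    have hy1 : y ≠ 1 := fun e => hyz (e ▸ one_mem _)
    refine ⟨y, hZS hyZ, (omega_mem hyZ).2.2, hy1, fun e => hyz (e ▸ mem_zpowers z), hyc, ?_⟩
    exact h.univ _ (centralizer_local ((z0_elem _).2 y hyZ) hy1) (cZero_centralizer hyC)

/-- If all two-local overgroups of `S` lie in `L`, nothing maximal straddles `L` inside `S`. -/
theorem straddle_absurd (hZN : ZN G) (S : Sylow 2 G) {K L : Subgroup G}
    (hK : IsJComponent (S : Subgroup G) K) (h : IsContainer (S : Subgroup G) K L)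
    (hLS : L ∈ jOvergroups (S : Subgroup G))
    (hNJ : normalizer (thompsonSubgroupOf 2 (S : Subgroup G) : Set G) ≤ L)
    (hno : ∀ V : Subgroup G, IsTwoLocal V → (S : Subgroup G) ≤ V → V ≤ L)
    {T' : Subgroup G} (hT' : T' ∈ maxStraddlingTwoSubgroups L) (hT'S : T' ≤ (S : Subgroup G)) : False := by
  haveI : Fact (Nat.Prime 2) := ⟨Nat.prime_two⟩
  obtain ⟨hT2, hT1, -, V, hV, hT'V, hVL⟩ := hT'.1
  have hS2 : IsPGroup 2 (S : Subgroup G) := S.isPGroup'
  have hS1 : (S : Subgroup G) ≠ ⊥ := fun e => hT1 (le_bot_iff.mp (e ▸ hT'S))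
  obtain ⟨K', hK', -⟩ := exists_outside hZN S hNJ hT' hV hVL hT'V
  obtain ⟨L', hL'max, hK'L', hL'L, hL'univ, -, -, hL'T⟩ := unique_local hZN S hNJ hT' hK'
  have h' : IsContainer T' K' L' := ⟨hL'max, hK'L', hL'univ, T', rfl, hT1, hL'T⟩
  have hne : T' ≠ (S : Subgroup G) := fun e => hVL (hno V hV (e ▸ hT'V))
  obtain ⟨g, hg, hgT⟩ := SetLike.exists_of_lt (H22.lt_inf_normalizer_of_lt hS2 (lt_of_le_of_ne hT'S hne))
  have hgL' : g ∉ L' := fun hh => hgT (by
    have hX := sylow_max hL'T.1 (X := (S : Subgroup G) ⊓ normalizer (T' : Set G) ⊓ L')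
      (hS2.to_le (inf_le_left.trans inf_le_left)) (le_inf (le_inf hT'S le_normalizer) hL'T.1.1) inf_le_right
    exact hX.le ⟨hg, hh⟩)
  obtain ⟨hK₂, hcont₂, -, hne₂⟩ := conj_second hK'.1.1 h' hL'T hg.2 hgL'
  obtain ⟨hP, hZ4⟩ := plane_of_two hZN hT2 hT1 hK'.1.1 hK₂ h' hcont₂ hne₂ hL'T
  obtain ⟨-, -, hC2, -⟩ := container_bound hT2 hK'.1.1 hK₂ h' hcont₂ hne₂
  have hgS := hg.1
  have hgL : g ∈ L := hLS.1.1 hgS
  have hKL' : ¬ K' ≤ L := hK'.2.1
  -- the central involution
  obtain ⟨z, hz, hz1⟩ : ∃ z ∈ omegaCenterOf (S : Subgroup G), z ≠ 1 := by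
    by_contra hh
    push Not at hh
    exact omega_ne_bot hS2 hS1 ((eq_bot_iff_forall _).mpr hh)
  have hCx : ∀ x ∈ omegaCenterOf (S : Subgroup G), x ≠ 1 →
      centralizer ({x} : Set G) ≤ L ∧ x ∉ cZero T' K' := by
    intro x hx hx1
    have hC := hno _ (centralizer_local (by rw [pow_two]; exact (omega_mem hx).2.2) hx1)
      (fun s hs => mem_centralizer_singleton_iff.mpr ((omega_mem hx).2.1 s hs))
    exact ⟨hC, fun hh => hKL' ((le_sup_left.trans (cZero_centralizer hh)).trans hC)⟩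
  obtain ⟨hzS, hzc, hzz⟩ := omega_mem hz
  obtain ⟨hCz, hzC⟩ := hCx z hz hz1
  obtain ⟨hzT, hzZ⟩ := center_mem_z0 hT1 hL'T hT'S hz
  have hZz : omegaCenterOf (S : Subgroup G) ≤ zpowers z := by
    intro x hx
    by_cases hx1 : x = 1
    · rw [hx1]; exact one_mem _
    by_cases hxz : x * z = 1
    · rw [mul_eq_one_iff_eq_inv.mp hxz]; exact inv_mem (mem_zpowers z)
    exact absurd (z0_mul_mem hT2 hK'.1.1 (center_mem_z0 hT1 hL'T hT'S hx).2 hzZ (hCx x hx hx1).2 hzC)
      (hCx _ (mul_mem hx hz) hxz).2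
  have hzK : z ∉ cZero (S : Subgroup G) K := by
    intro hh
    refine not_two_closed hS2 hK S ((cZero_centralizer hh).trans (le_trans ?_ (hZN.zn S)))
    intro x hx t ht
    rcases eq_of_mem_zpowers hzz (hZz ht) with rfl | rfl
    · rw [one_mul, mul_one]
    · exact (mem_centralizer_singleton_iff.mp hx).symm
  obtain ⟨y, hyS, hyy, hy1, hyz, hty, hCy⟩ := exists_four hZN S hS1 hK h hLS hz hz1 hZz hCz hzK
  have hgz : g * z * g⁻¹ = z := by rw [hzc g hgS, mul_inv_cancel_right]
  have hzz' : z ∈ omegaCenterOf (thompsonSubgroupOf 2 T') := hzZ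
  -- `y ∉ Z₀(T')`
  have hyZ : y ∉ omegaCenterOf (thompsonSubgroupOf 2 T') := by
    intro hyZ
    obtain ⟨c, hc, hc1⟩ : ∃ c ∈ cZero T' K', c ≠ 1 := by
      by_cases hh : y ∈ cZero T' K'
      · exact ⟨y, hh, hy1⟩
      · exact ⟨y * z, z0_mul_mem hT2 hK'.1.1 hyZ hzZ hh hzC, fun e => hyz (by
          rw [mul_eq_one_iff_eq_inv.mp e, inv_eq_of_mul_eq_one_left hzz])⟩
    have hcc : c * c = 1 := (omega_mem hc.1).2.2
    have hcz : c ≠ z := fun e => hzC (e ▸ hc)
    set c₂ := g * c * g⁻¹ with hc₂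
    have hc₂Z : c₂ ∈ omegaCenterOf (thompsonSubgroupOf 2 T') := by
      have hJ : (thompsonSubgroupOf 2 T').map (MulAut.conj g).toMonoidHom = thompsonSubgroupOf 2 T' :=
        mem_normalizer_iff_map_conj_eq.mp (H34.normalizer_le_normalizer_thompson T' hg.2)
      have h1 : (omegaCenterOf (thompsonSubgroupOf 2 T')).map (MulAut.conj g).toMonoidHom =
          omegaCenterOf (thompsonSubgroupOf 2 T') := by
        rw [map_omegaCenterOf (MulAut.conj g).injective, hJ]
      exact h1.le ⟨c, hc.1, rfl⟩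
    have hloc := centralizer_local ((z0_elem T').2 c hc.1) hc1
    have hCc : ¬ centralizer ({c} : Set G) ≤ L := fun hle => hKL' ((le_sup_left.trans (cZero_centralizer hc)).trans hle)
    have hc₂c : c₂ ≠ c := fun e => hgL' (h'.univ _ hloc (cZero_centralizer hc)
      (mem_centralizer_singleton_iff.mpr (mul_inv_eq_iff_eq_mul.mp e)))
    have hc₂z : c₂ ≠ z := fun e => hcz (mul_left_cancel (mul_right_cancel (e.trans hgz.symm)))
    have hc₂1 : c₂ ≠ 1 := fun e => hc1 (conj_eq_one_iff.mp e)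
    have hcy : y = c ∨ y = c₂ := by
      rcases four_cases hZ4 hzZ hc.1 hz1 hc1 hcz.symm hzz hyZ with e | e | e | e
      · exact absurd e hy1
      · exact absurd e hyz
      · exact Or.inl e
      · rcases four_cases hZ4 hzZ hc.1 hz1 hc1 hcz.symm hzz hc₂Z with e' | e' | e' | e'
        · exact absurd e' hc₂1
        · exact absurd e' hc₂z
        · exact absurd e' hc₂c
        · exact Or.inr (e.trans e'.symm)
    rcases hcy with e | e
    · exact hCc (e ▸ hCy)
    · refine hCc fun x hx => ?_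
      have hmem : g * x * g⁻¹ ∈ centralizer ({y} : Set G) := by
        refine mem_centralizer_singleton_iff.mpr ?_
        rw [e, hc₂]
        calc g * x * g⁻¹ * (g * c * g⁻¹) = g * (x * c) * g⁻¹ := by group
          _ = g * (c * x) * g⁻¹ := by rw [mem_centralizer_singleton_iff.mp hx]
          _ = _ := by group
      have := mul_mem (mul_mem (inv_mem hgL) (hCy hmem)) hgL
      rwa [show g⁻¹ * (g * x * g⁻¹) * g = x by group] at this
  obtain ⟨-, -, hVR, hPV, hRV, hZV⟩ := Plane.module hZN hP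
  obtain ⟨-, -, -, -, -, hRT, -, hPR, -, hprod, -, -, -, -⟩ := Plane.facts hZN hP
  -- `y ∈ T'`
  have hyT : y ∈ T' := by
    have hyN : y ∈ normalizer (pV T' K' : Set G) := mem_normalizer_of_conj_mem fun v hv => by
      have hvS : v ∈ (S : Subgroup G) := hT'S (hRT (hVR hv))
      rcases hty v hvS with e | e
      · rw [mul_inv_eq_iff_eq_mul.mpr (mul_inv_eq_iff_eq_mul.mp e).symm]; exact hv
      · have e1 : v * y = z * y * v := mul_inv_eq_iff_eq_mul.mp e
        have e2 : y * v * y⁻¹ = z * v := by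
          refine mul_inv_eq_iff_eq_mul.mpr ?_
          calc y * v = (z * z) * (y * v) := by rw [hzz, one_mul]
            _ = z * (z * y * v) := by group
            _ = z * (v * y) := by rw [e1]
            _ = _ := by group
        rw [e2]
        exact mul_mem (hZV hzZ) hv
    have hVne : pV T' K' ≠ ⊥ := fun h0 => hz1 (mem_bot.mp (h0 ▸ hZV hzZ))
    have hyL' : y ∈ L' := Plane.normalizer_le hZN hP (hT2.to_le (hVR.trans hRT)) hVne (le_sup_left.trans hPV)
      (le_sup_right.trans hPV) hyN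
    have hX := sylow_max hL'T.1 (X := T' ⊔ zpowers y) (hS2.to_le (sup_le hT'S (zpowers_le.mpr hyS))) le_sup_left
      (sup_le hL'T.1.1 (zpowers_le.mpr hyL'))
    exact hX.le (mem_sup_right (mem_zpowers y))
  have hgy := hty g hgS
  by_cases hyR : y ∈ pR T' K'
  swap
  · exact Plane.outside_absurd hZN hP hC2 hg.2 hgL' hzZ hzC hgz hyT hyR hyy (fun t ht => hty t (hT'S ht)) hgy
  -- `R` centralizes `y`
  have hRy : ∀ r ∈ pR T' K', r * y = y * r := by
    by_cases hyV : y ∈ pV T' K'
    · exact fun r hr => (mem_centralizer_iff.mp (hRV hr) y hyV).symm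
    have hcom : zpowers z ≤ centralizer (zpowers y : Set G) := zpowers_le.mpr fun x hx => by
      rcases eq_of_mem_zpowers hyy hx with rfl | rfl
      · rw [one_mul, mul_one]
      · exact hzc _ hyS
    have hYe := H34.isElementaryAbelian_sup (elem_zpowers hzz) (elem_zpowers hyy) hcom
    have hzY : z ∈ zpowers z ⊔ zpowers y := mem_sup_left (mem_zpowers z)
    have hyY : y ∈ zpowers z ⊔ zpowers y := mem_sup_right (mem_zpowers y)
    have hY4 : Nat.card ↥(zpowers z ⊔ zpowers y) ≤ 4 := by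
      have hsub : ∀ x : ↥(zpowers z ⊔ zpowers y), ∃ p : ↥(zpowers z) × ↥(zpowers y), (p.1 : G) * p.2 = x := fun x => by
        have hx : (x : G) ∈ ((zpowers z ⊔ zpowers y : Subgroup G) : Set G) := x.2
        rw [coe_mul_of_left_le_normalizer_right _ _ (hcom.trans (centralizer_le_normalizer _))] at hx
        obtain ⟨a, ha, b, hb, hab⟩ := hx
        exact ⟨(⟨a, ha⟩, ⟨b, hb⟩), hab⟩
      choose f hf using hsub
      refine (Nat.card_le_card_of_injective f fun x x' e => Subtype.ext (by rw [← hf x, ← hf x', e])).trans ?_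
      rw [Nat.card_prod, Nat.card_zpowers, Nat.card_zpowers, orderOf_eq_prime (by rwa [pow_two]) hz1,
        orderOf_eq_prime (by rwa [pow_two]) hy1]
    have hY4' : Nat.card ↥(zpowers z ⊔ zpowers y) = 4 := by
      refine le_antisymm hY4 ?_
      have h1 := H34.card_mul_card_le (zpowers z) (zpowers y)
      have hbot : zpowers z ⊓ zpowers y = ⊥ := (eq_bot_iff_forall _).mpr fun x hx => by
        rcases eq_of_mem_zpowers hzz hx.1 with rfl | rfl
        · rfl
        · exact (eq_of_mem_zpowers hyy hx.2).resolve_right hyz.symm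
      rw [hbot, card_bot, mul_one, Nat.card_zpowers, Nat.card_zpowers, orderOf_eq_prime (by rwa [pow_two]) hz1,
        orderOf_eq_prime (by rwa [pow_two]) hy1] at h1
      exact h1
    have hTY : T' ≤ normalizer ((zpowers z ⊔ zpowers y : Subgroup G) : Set G) := fun t ht =>
      mem_normalizer_of_conj_mem fun x hx => by
        have hle : zpowers z ⊔ zpowers y ≤ (zpowers z ⊔ zpowers y).comap (MulAut.conj t).toMonoidHom :=
          sup_le (zpowers_le.mpr (by
              rw [mem_comap]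
              show t * z * t⁻¹ ∈ _
              rw [hzc t (hT'S ht), mul_inv_cancel_right]; exact hzY))
            (zpowers_le.mpr (by
              rw [mem_comap]
              show t * y * t⁻¹ ∈ _
              rcases hty t (hT'S ht) with e | e <;> rw [e]
              · exact hyY
              · exact mul_mem hzY hyY))
        exact hle hx
    have hRY := Plane.four_group hZN hP hYe hY4' (sup_le (zpowers_le.mpr (hVR (hZV hzZ))) (zpowers_le.mpr hyR)) hTY
      hzY hzZ hzC (fun x hx hxV => by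
        rcases four_cases hY4 hzY hyY hz1 hy1 hyz.symm hzz hx with rfl | rfl | rfl | rfl
        · exact Or.inl rfl
        · exact Or.inr rfl
        · exact absurd hxV hyV
        · exact absurd (by simpa using mul_mem (inv_mem (hZV hzZ)) hxV) hyV)
    exact fun r hr => (mem_centralizer_iff.mp (hRY hr) y hyY).symm
  have hCR : ∀ t ∈ T', t * y = y * t → t ∈ pR T' K' := by
    intro t ht hty'
    by_contra htR
    refine hyZ (mem_z0_of_central hyT hyy fun t' ht' => ?_)
    by_cases ht'R : t' ∈ pR T' K'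
    · exact hRy t' ht'R
    · have c1 : Commute (t * t') y := hRy _ (hprod t ht t' ht' htR ht'R)
      have c3 := ((show Commute t y from hty').inv_left.mul_left c1).eq
      rwa [inv_mul_cancel_left] at c3
  have hgR : g ∈ normalizer (pR T' K' : Set G) := mem_normalizer_of_conj_mem fun r hr => by
    have hrT := (mem_normalizer_iff.mp hg.2 r).mp (hRT hr)
    refine hCR _ hrT ?_
    have e1 : (g * r * g⁻¹) * (g * y * g⁻¹) = (g * y * g⁻¹) * (g * r * g⁻¹) := by
      calc (g * r * g⁻¹) * (g * y * g⁻¹) = g * (r * y) * g⁻¹ := by group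
        _ = g * (y * r) * g⁻¹ := by rw [hRy r hr]
        _ = _ := by group
    rcases hgy with e | e <;> rw [e] at e1
    · exact e1
    · refine mul_left_cancel (a := z) ?_
      rw [← mul_assoc z, ← hzc _ (hT'S hrT), mul_assoc _ z y, e1, mul_assoc]
  exact hgL' (Plane.normalizer_le hZN hP (hT2.to_le hRT) (fun h0 => hz1 (mem_bot.mp (h0 ▸ hVR (hZV hzZ))))
    (le_sup_left.trans hPR) (le_sup_right.trans hPR) hgR)

/-- Two components with different containers for a maximal straddling subgroup below `S`. -/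
theorem second_component (hZN : ZN G) (hO : pCore 2 G = ⊥) (S : Sylow 2 G) {M T : Subgroup G}
    (hMJ : normalizer (thompsonSubgroupOf 2 (S : Subgroup G) : Set G) ≤ M) (hT : T ∈ maxStraddlingTwoSubgroups M)
    (hTS : T ≤ (S : Subgroup G)) {K L : Subgroup G} (hK : IsJComponent T K) (h : IsContainer T K L)
    (hLT : L ∈ jOvergroups T) :
    ∃ K' L', IsJComponent T K' ∧ IsContainer T K' L' ∧ L' ∈ jOvergroups T ∧ L ≠ L' := by
  haveI : Fact (Nat.Prime 2) := ⟨Nat.prime_two⟩
  obtain ⟨hT2, hT1, -, -⟩ := hT.1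
  have hS2 : IsPGroup 2 (S : Subgroup G) := S.isPGroup'
  have hKL : K ≤ L := le_sup_left.trans h.le
  by_cases hg : ∃ g ∈ normalizer (T : Set G), g ∉ L
  · obtain ⟨g, hg, hgL⟩ := hg
    obtain ⟨a, b, c, d⟩ := conj_second hK h hLT hg hgL
    exact ⟨_, _, a, b, c, d⟩
  push Not at hg
  have hTS' : T = (S : Subgroup G) := by
    by_contra hne
    obtain ⟨g, hgN, hgT⟩ := SetLike.exists_of_lt (H22.lt_inf_normalizer_of_lt hS2 (lt_of_le_of_ne hTS hne))
    have hX := sylow_max hLT.1 (X := (S : Subgroup G) ⊓ normalizer (T : Set G)) (hS2.to_le inf_le_left)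
      (le_inf hTS le_normalizer) (fun x hx => hg x hx.2)
    exact hgT (hX.le hgN)
  subst hTS'
  by_cases hNJ : normalizer (thompsonSubgroupOf 2 (S : Subgroup G) : Set G) ≤ L
  swap
  · -- a second component inside `N(J(S))`-conjugates
    obtain ⟨g, hgJ, hgL⟩ := SetLike.not_le_iff_exists.mp hNJ
    have hK' := isJComponent_conj_of_normalizes hK hgJ
    have h' := h.conj hgJ
    have hne : L ≠ L.map (MulAut.conj g).toMonoidHom :=
      fun e => hgL (normalizer_maximal h.max (mem_normalizer_iff_map_conj_eq.mpr e.symm))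
    obtain ⟨hP, -⟩ := plane_of_two hZN hT2 hT1 hK hK' h h' hne hLT
    exfalso
    have hZS : omegaCenterOf (thompsonSubgroupOf 2 (S : Subgroup G)) = omegaCenterOf (S : Subgroup G) := by
      refine le_antisymm (fun x hx => ?_) (omega_le_z0 _)
      have hxS := H34.thompsonSubgroupOf_le _ (omega_mem hx).1
      exact H34.mem_omegaOne ⟨hxS, fun s hs => (mem_centralizer_iff.mp (hP.cen hs) x hx).symm⟩
        (by rw [pow_two]; exact (omega_mem hx).2.2)
    have hgZ : (omegaCenterOf (S : Subgroup G)).map (MulAut.conj g).toMonoidHom = omegaCenterOf (S : Subgroup G) := by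
      rw [← hZS, map_omegaCenterOf (MulAut.conj g).injective]
      exact congrArg omegaCenterOf (mem_normalizer_iff_map_conj_eq.mp hgJ)
    have hle : (S : Subgroup G).map (MulAut.conj g).toMonoidHom ≤ normalizer ((S : Subgroup G) : Set G) := by
      refine le_trans ?_ (hZN.zn S)
      rintro _ ⟨s, hs, rfl⟩ x hx
      obtain ⟨w, hw, rfl⟩ := hgZ.ge hx
      show g * w * g⁻¹ * (g * s * g⁻¹) = g * s * g⁻¹ * (g * w * g⁻¹)
      calc g * w * g⁻¹ * (g * s * g⁻¹) = g * (w * s) * g⁻¹ := by group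
        _ = g * (s * w) * g⁻¹ := by rw [(omega_mem hw).2.1 s hs]
        _ = _ := by group
    have hp : IsPGroup 2 ↥((S : Subgroup G).map (MulAut.conj g).toMonoidHom) := hS2.map _
    have hle' : (S : Subgroup G).map (MulAut.conj g).toMonoidHom ≤ (S : Subgroup G) := by
      rw [← inf_eq_left, ← hp.inf_normalizer_sylow S, inf_eq_left]
      exact hle
    exact hgL (hg g (mem_normalizer_iff_map_conj_eq.mpr
      (eq_of_le_of_card_ge hle' (le_of_eq (card_map_of_injective (MulAut.conj g).injective).symm))))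
  -- now `N(J(S)) ≤ L`
  have hLloc := h.max.1
  by_cases hno : ∀ V : Subgroup G, IsTwoLocal V → (S : Subgroup G) ≤ V → V ≤ L
  swap
  · push Not at hno
    obtain ⟨V, hV, hSV, hVL⟩ := hno
    have hmax := max_of_sylow S (M := L) ⟨hS2, hT1, hLT.1.1, V, hV, hSV, hVL⟩
    obtain ⟨K', hK', -⟩ := exists_outside hZN S hNJ hmax hV hVL hSV
    obtain ⟨L', h1, h2, h3, h4, -, -, h7⟩ := unique_local hZN S hNJ hmax hK'
    exact ⟨K', L', hK'.1.1, ⟨h1, h2, h4, _, rfl, hT1, h7⟩, h7, fun e => h3 e.ge⟩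
  exfalso
  rcases (straddlingTwoSubgroups L).eq_empty_or_nonempty with hemp | hne
  · -- `L` would be strongly embedded
    have hse := (stronglyEmbedded_iff_no_straddling hO S L hLloc hNJ).mpr hemp
    have hfus := ((H28.isStronglyEmbedded_iff_centralizer_fusion hse.1 hse.2.1).mp hse).2
    obtain ⟨z, hz, hz1⟩ : ∃ z ∈ omegaCenterOf (S : Subgroup G), z ≠ 1 := by
      by_contra hh
      push Not at hh
      exact omega_ne_bot hS2 hT1 ((eq_bot_iff_forall _).mpr hh)
    obtain ⟨hzS, hzc, hzz⟩ := omega_mem hz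
    have hOS := (overgroup_facts hT1 hLT).2.1
    have hzO : z ∈ pCoreOf 2 L := hLT.2.2 fun o ho => hzc o (hOS ho)
    refine hLT.2.1 ?_
    rw [H34.thompsonSubgroupOf_eq]
    refine sSup_le fun A hA x hx => ?_
    by_cases hx1 : x = 1
    · rw [hx1]; exact one_mem _
    have hxL : x ∈ L := hLT.1.1 (hA.1 hx)
    have ox : orderOf x = 2 := orderOf_eq_prime (hA.2.1.2 x hx) hx1
    have oz : orderOf z = 2 := orderOf_eq_prime (by rwa [pow_two]) hz1
    obtain ⟨l, hl, rfl⟩ := hfus z (hLT.1.1 hzS) x hxL oz ox (H50.se_isConj hse oz ox)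
    exact (mem_normalizer_iff.mp (H72.le_normalizer_pCoreOf 2 L hl) z).mp hzO
  · obtain ⟨T', hT'⟩ : (maxStraddlingTwoSubgroups L).Nonempty := by
      obtain ⟨T₀, hT₀, hm⟩ := Set.exists_max_image (straddlingTwoSubgroups L)
        (fun X => toLex (maxElemAbelianOrder X, toLex (Nat.card ↥(thompsonSubgroupOf 2 X), Nat.card ↥X)))
        (Set.toFinite _) hne
      refine ⟨T₀, hT₀, fun X hX => ?_⟩
      have h1 := hm X hX
      rw [Prod.Lex.toLex_le_toLex] at h1
      rcases h1 with h1 | ⟨e1, h1⟩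
      · exact ⟨le_of_lt h1, fun e => absurd e (ne_of_lt h1)⟩
      · rw [Prod.Lex.toLex_le_toLex] at h1
        refine ⟨le_of_eq e1, fun _ => ?_⟩
        rcases h1 with h1 | ⟨e2, h1⟩
        · exact ⟨le_of_lt h1, fun e => absurd e (ne_of_lt h1)⟩
        · exact ⟨le_of_eq e2, fun _ => h1⟩
    obtain ⟨l, hl, hle⟩ := exists_le_conj hLT.1 hT'.1.1 hT'.1.2.2.1
    refine straddle_absurd hZN S hK h hLT hNJ hno (max_straddling_conj hT' (inv_mem hl)) ?_
    rintro _ ⟨x, hx, rfl⟩
    obtain ⟨s, hs, rfl⟩ := hle hx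
    show l⁻¹ * (l * s * l⁻¹) * l⁻¹⁻¹ ∈ (S : Subgroup G)
    rwa [show l⁻¹ * (l * s * l⁻¹) * l⁻¹⁻¹ = s by group]

end Cfsg.Agent.H74.JB
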