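import Cfsg.Agent.H74.JPlane

/-!
Preliminaries for the second component: central involutions, conjugation of maximal straddling subgroups.
-/

set_option autoImplicit false

namespace Cfsg.Agent.H74.JB

open Subgroup Cfsg
open scoped commutatorElement Pointwise

variable {G : Type*} [Group G] [Finite G]

omit [Finite G] in
/-- The subgroup generated by an element squaring to `1`. -/
theorem elem_zpowers {z : G} (hz : z * z = 1) : IsElementaryAbelian 2 (zpowers z) :=
  ⟨inferInstance, fun x hx => by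
    obtain ⟨i, rfl⟩ := mem_zpowers_iff.mp hx
    rw [← zpow_natCast, ← zpow_mul, mul_comm, zpow_mul, zpow_natCast, pow_two, hz, one_zpow]⟩

omit [Finite G] in
/-- The members of the subgroup generated by an involution. -/
theorem eq_of_mem_zpowers {z x : G} (hz : z * z = 1) (hx : x ∈ zpowers z) : x = 1 ∨ x = z := by
  obtain ⟨i, rfl⟩ := mem_zpowers_iff.mp hx
  have hsq : z ^ (2 : ℤ) = 1 := by rw [zpow_ofNat, pow_two]; exact hz
  obtain ⟨j, rfl | rfl⟩ := Int.even_or_odd' i
  · exact Or.inl (by rw [zpow_mul, hsq, one_zpow])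
  · exact Or.inr (by rw [zpow_add, zpow_mul, hsq, one_zpow, one_mul, zpow_one])

/-- A subgroup of order at most four consists of `1, a, b, ab`. -/
theorem four_cases {H : Subgroup G} (h4 : Nat.card H ≤ 4) {a b : G} (ha : a ∈ H) (hb : b ∈ H) (ha1 : a ≠ 1)
    (hb1 : b ≠ 1) (hab : a ≠ b) (haa : a * a = 1) {x : G} (hx : x ∈ H) :
    x = 1 ∨ x = a ∨ x = b ∨ x = a * b := by
  by_contra hh
  push Not at hh
  obtain ⟨n1, n2, n3, n4⟩ := hh
  classical
  haveI : Fintype ↥H := Fintype.ofFinite _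
  have hfive := Finset.card_le_univ ({⟨1, one_mem H⟩, ⟨x, hx⟩, ⟨a, ha⟩, ⟨b, hb⟩, ⟨a * b, mul_mem ha hb⟩} : Finset ↥H)
  rw [← Nat.card_eq_fintype_card] at hfive
  have m1 : a * b ≠ 1 := fun e => hab (mul_left_cancel (haa.trans e.symm))
  have m2 : a * b ≠ a := fun e => hb1 (mul_left_cancel (e.trans (mul_one a).symm))
  have m3 : a * b ≠ b := fun e => ha1 (mul_right_cancel (e.trans (one_mul b).symm))
  rw [Finset.card_insert_of_notMem (by simp [Subtype.ext_iff, Ne.symm n1, Ne.symm ha1, Ne.symm hb1, Ne.symm m1]),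
    Finset.card_insert_of_notMem (by simp [Subtype.ext_iff, n2, n3, n4]),
    Finset.card_insert_of_notMem (by simp [Subtype.ext_iff, hab, Ne.symm m2]),
    Finset.card_pair (by simpa [Subtype.ext_iff] using Ne.symm m3)] at hfive
  omega

omit [Finite G] in
/-- `Ω₁(Z(X))` is elementary abelian. -/
theorem omega_elem (X : Subgroup G) : IsElementaryAbelian 2 (omegaCenterOf X) := by
  haveI : IsMulCommutative ↥(X ⊓ centralizer (X : Set G)) :=
    le_centralizer_iff_isMulCommutative.mp fun x hx y hy => hx.2 y hy.1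
  exact H34.omegaOne_isElementaryAbelian

omit [Finite G] in
/-- Members of `Ω₁(Z(X))`. -/
theorem omega_mem {X : Subgroup G} {z : G} (hz : z ∈ omegaCenterOf X) :
    z ∈ X ∧ (∀ t ∈ X, t * z = z * t) ∧ z * z = 1 :=
  ⟨(H34.omegaOne_le _ hz).1, (H34.omegaOne_le _ hz).2, by rw [← pow_two]; exact (omega_elem X).2 z hz⟩

/-- `Ω₁(Z(X))` of a nontrivial two-group is nontrivial. -/
theorem omega_ne_bot {X : Subgroup G} (hX : IsPGroup 2 X) (h1 : X ≠ ⊥) : omegaCenterOf X ≠ ⊥ := by
  haveI : Fact (Nat.Prime 2) := ⟨Nat.prime_two⟩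
  haveI := nontrivial_iff_ne_bot X |>.mpr h1
  haveI := hX.center_nontrivial
  obtain ⟨z, hz⟩ := exists_prime_orderOf_dvd_card' (G := ↥(center ↥X)) 2
    ((hX.to_subgroup (center ↥X)).card_eq_or_dvd.resolve_left Finite.one_lt_card.ne')
  intro h0
  have hmem : ((z : ↥X) : G) ∈ omegaCenterOf X := by
    refine H34.mem_omegaOne ⟨(z : ↥X).2, fun t ht => ?_⟩ ?_
    · exact congrArg Subtype.val (mem_center_iff.mp z.2 ⟨t, ht⟩)
    · have h2 : z ^ 2 = 1 := hz ▸ pow_orderOf_eq_one z
      simpa using congrArg (fun y : ↥(center ↥X) => ((y : ↥X) : G)) h2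
  rw [h0, mem_bot] at hmem
  have : z = 1 := Subtype.ext (Subtype.ext hmem)
  rw [this, orderOf_one] at hz
  omega

/-- Involutions central in `T` lie in `Z₀(T)`. -/
theorem mem_z0_of_central {T : Subgroup G} {x : G} (hx : x ∈ T) (h2 : x * x = 1) (hc : ∀ t ∈ T, t * x = x * t) :
    x ∈ omegaCenterOf (thompsonSubgroupOf 2 T) := by
  obtain ⟨A, hA1, hA2, -, hA4⟩ := exists_a T
  have hle : A ≤ centralizer (zpowers x : Set G) := le_centralizer_iff.mp
    (zpowers_le.mpr (fun a ha => hc a (hA1 ha)))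
  have he := H34.isElementaryAbelian_sup hA2 (elem_zpowers h2) hle
  have hxA : x ∈ A := by
    have h := eq_of_le_of_card_ge le_sup_left (hA4 _ (sup_le hA1 (zpowers_le.mpr hx)) he)
    exact h.ge (mem_sup_right (mem_zpowers x))
  refine H34.mem_omegaOne ⟨?_, fun j hj => hc j (H34.thompsonSubgroupOf_le _ hj)⟩ (by rwa [pow_two])
  have hAJ : A ≤ thompsonSubgroupOf 2 T := by
    rw [H34.thompsonSubgroupOf_eq]
    exact le_sSup ⟨hA1, hA2, hA4⟩
  exact hAJ hxA

/-- `Ω₁(Z(T)) ≤ Z₀(T)`. -/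
theorem omega_le_z0 (T : Subgroup G) : omegaCenterOf T ≤ omegaCenterOf (thompsonSubgroupOf 2 T) := fun _ hx =>
  mem_z0_of_central (omega_mem hx).1 (omega_mem hx).2.2 (omega_mem hx).2.1

/-- `C₀(K)` has index two in `Z₀(T)`. -/
theorem z0_mul_mem {T K : Subgroup G} (hT : IsPGroup 2 T) (hK : IsJComponent T K) {x y : G}
    (hx : x ∈ omegaCenterOf (thompsonSubgroupOf 2 T)) (hy : y ∈ omegaCenterOf (thompsonSubgroupOf 2 T))
    (hx' : x ∉ cZero T K) (hy' : y ∉ cZero T K) : x * y ∈ cZero T K := by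
  obtain ⟨-, -, -, hc⟩ := z0_split hT hK
  set Z := omegaCenterOf (thompsonSubgroupOf 2 T)
  have hi : ((cZero T K).subgroupOf Z).index = 2 := by
    have h1 := ((cZero T K).subgroupOf Z).card_mul_index
    rw [Nat.card_congr (subgroupOfEquivOfLe (H := cZero T K) (K := Z) inf_le_left).toEquiv, hc] at h1
    exact Nat.eq_of_mul_eq_mul_left Nat.card_pos h1
  exact (mul_mem_iff_of_index_two hi (a := ⟨x, hx⟩) (b := ⟨y, hy⟩)).mpr (iff_of_false hx' hy')

/-- A two-subgroup containing a Sylow subgroup equals it. -/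
theorem sylow_max {T L X : Subgroup G} (h : IsSylowTwoIn T L) (hX : IsPGroup 2 X) (hTX : T ≤ X) (hXL : X ≤ L) :
    X = T := by
  obtain ⟨l, -, hl⟩ := exists_le_conj h hX hXL
  exact (eq_of_le_of_card_ge hTX ((card_le_of_le hl).trans_eq (card_map_of_injective (MulAut.conj l).injective))).symm

/-- The two-core of a component lies in `T`. -/
theorem comp_core_le (hZN : ZN G) {T K L : Subgroup G} (hT1 : T ≠ ⊥) (hLT : L ∈ jOvergroups T)
    (hK : IsJComponent T K) (hKL : K ≤ L) : pCoreOf 2 K ≤ T := by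
  haveI : Fact (Nat.Prime 2) := ⟨Nat.prime_two⟩
  have hsn := comp_subnormal hZN hT1 hLT hK hKL
  have hn : (((pCoreOf 2 K).subgroupOf L).subgroupOf (K.subgroupOf L)).Normal :=
    normal_subgroupOf_of_le_normalizer fun x hx => mem_normalizer_iff.mpr fun y => by
      simpa [mem_subgroupOf] using mem_normalizer_iff.mp (H72.le_normalizer_pCoreOf 2 K hx) (y : G)
  have hle : (pCoreOf 2 K).subgroupOf L ≤ K.subgroupOf L := comap_mono (H72.pCoreOf_le 2 K)
  have hsn2 : ((pCoreOf 2 K).subgroupOf L).IsSubnormal := by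
    rw [← inf_eq_left.mpr hle, ← subgroupOf_map_subtype]
    exact hn.isSubnormal.trans' hsn
  have hO := H72.le_pCore_of_isSubnormal hsn2
    ((H72.pCoreOf_isPGroup 2 K).comap_of_injective _ L.subtype_injective)
  intro q hq
  exact (overgroup_facts hT1 hLT).2.1 ⟨⟨q, hKL (H72.pCoreOf_le 2 K hq)⟩, hO hq, rfl⟩

/-- No component normalizes a Sylow subgroup containing `J(T)`. -/
theorem not_two_closed {T K : Subgroup G} (hT : IsPGroup 2 T) (hK : IsJComponent T K) (Q : Sylow 2 G)
    (h : K ⊔ thompsonSubgroupOf 2 T ≤ normalizer ((Q : Subgroup G) : Set G)) : False := by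
  haveI : Fact (Nat.Prime 2) := ⟨Nat.prime_two⟩
  set J := thompsonSubgroupOf 2 T with hJ
  have hJ2 : IsPGroup 2 J := hT.to_le (H34.thompsonSubgroupOf_le _)
  have hJQ : J ≤ (Q : Subgroup G) := by
    rw [← inf_eq_left, ← hJ2.inf_normalizer_sylow Q, inf_eq_left]
    exact le_sup_right.trans h
  refine not_two_group hK.2.2.1 (Q.isPGroup'.to_le ?_)
  rw [← hK.2.1]
  refine commutator_le.mpr fun k hk j hj => ?_
  rw [commutatorElement_def]
  exact mul_mem ((mem_normalizer_iff.mp (h (mem_sup_left hk)) j).mp (hJQ hj)) (inv_mem (hJQ hj))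

/-- Central involutions of a Sylow subgroup above `T` lie in `Z₀(T)`. -/
theorem center_mem_z0 {T L : Subgroup G} (hT1 : T ≠ ⊥) (hLT : L ∈ jOvergroups T) {S : Subgroup G} (hTS : T ≤ S)
    {z : G} (hz : z ∈ omegaCenterOf S) : z ∈ omegaCenterOf T ∧ z ∈ omegaCenterOf (thompsonSubgroupOf 2 T) := by
  obtain ⟨-, hc, h2⟩ := omega_mem hz
  have hOT := (overgroup_facts hT1 hLT).2.1
  have hzT : z ∈ T := hOT (hLT.2.2 fun o ho => hc o (hTS (hOT ho)))
  exact ⟨H34.mem_omegaOne ⟨hzT, fun t ht => hc t (hTS ht)⟩ (by rwa [pow_two]),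
    mem_z0_of_central hzT h2 fun t ht => hc t (hTS ht)⟩

/-- `a` of a conjugate. -/
theorem a_map (X : Subgroup G) (g : G) :
    maxElemAbelianOrder (X.map (MulAut.conj g).toMonoidHom) = maxElemAbelianOrder X := by
  set e := MulAut.conj g
  obtain ⟨A, hA1, hA2, hA3, hA4⟩ := exists_a X
  obtain ⟨B, hB1, hB2, hB3, hB4⟩ := exists_a (X.map e.toMonoidHom)
  rw [← hA3, ← hB3]
  refine le_antisymm ?_ ?_
  · have hback : (X.map e.toMonoidHom).map e.symm.toMonoidHom = X := by
      rw [map_map]; conv_rhs => rw [← map_id X]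
      congr 1; ext y; simp
    rw [← (card_map_of_injective e.symm.injective : Nat.card ↥(B.map e.symm.toMonoidHom) = Nat.card B)]
    exact hA4 _ ((map_mono hB1).trans hback.le) (H34.isElementaryAbelian_map hB2 _)
  · rw [← (card_map_of_injective e.injective : Nat.card ↥(A.map e.toMonoidHom) = Nat.card A)]
    exact hB4 _ (map_mono hA1) (H34.isElementaryAbelian_map hA2 _)

/-- The order of `J` of a conjugate. -/
theorem card_j_map (X : Subgroup G) (g : G) :
    Nat.card ↥(thompsonSubgroupOf 2 (X.map (MulAut.conj g).toMonoidHom)) = Nat.card ↥(thompsonSubgroupOf 2 X) := by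
  rw [← H34.map_thompsonSubgroupOf]
  exact card_map_of_injective (MulAut.conj g).injective

/-- A straddling Sylow subgroup is maximal straddling. -/
theorem max_of_sylow {M : Subgroup G} (S : Sylow 2 G) (h : (S : Subgroup G) ∈ straddlingTwoSubgroups M) :
    (S : Subgroup G) ∈ maxStraddlingTwoSubgroups M := by
  haveI : Fact (Nat.Prime 2) := ⟨Nat.prime_two⟩
  refine ⟨h, fun X hX => ?_⟩
  obtain ⟨Q, hQ⟩ := hX.1.exists_le_sylow
  obtain ⟨g, hg⟩ := MulAction.exists_smul_eq G S Q
  have hQe : (Q : Subgroup G) = (S : Subgroup G).map (MulAut.conj g).toMonoidHom := by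
    rw [← hg]; rfl
  rw [hQe] at hQ
  refine ⟨(a_mono hQ).trans_eq (a_map _ g), fun he => ⟨?_, fun _ =>
    (card_le_of_le hQ).trans_eq (card_map_of_injective (MulAut.conj g).injective)⟩⟩
  refine le_trans (card_le_of_le ?_) (card_j_map _ g).le
  rw [H34.thompsonSubgroupOf_eq, H34.thompsonSubgroupOf_eq]
  refine sSup_le fun A hA => le_sSup ⟨hA.1.trans hQ, hA.2.1, fun B hB hB2 => ?_⟩
  obtain ⟨A', hA'1, hA'2, hA'3, -⟩ := exists_a X
  obtain ⟨B', -, -, hB'3, hB'4⟩ := exists_a ((S : Subgroup G).map (MulAut.conj g).toMonoidHom)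
  have h1 := hA.2.2 A' hA'1 hA'2
  have h2 := hB'4 B hB hB2
  rw [a_map] at hB'3
  omega

/-- Conjugation by `M` preserves maximal straddling subgroups. -/
theorem max_straddling_conj {M T : Subgroup G} (hT : T ∈ maxStraddlingTwoSubgroups M) {l : G} (hl : l ∈ M) :
    T.map (MulAut.conj l).toMonoidHom ∈ maxStraddlingTwoSubgroups M := by
  obtain ⟨⟨h2, h1, hTM, V, hV, hTV, hVM⟩, hmax⟩ := hT
  have hMl : M.map (MulAut.conj l).toMonoidHom = M := mem_normalizer_iff_map_conj_eq.mp (le_normalizer hl)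
  refine ⟨⟨h2.map _, fun h0 => h1 ((map_eq_bot_iff_of_injective T (MulAut.conj l).injective).mp h0),
    (map_mono hTM).trans hMl.le, _, isTwoLocal_map hV l, map_mono hTV,
    fun hle => hVM ((map_le_map_iff_of_injective (MulAut.conj l).injective).mp (hle.trans hMl.ge))⟩, fun X hX => ?_⟩
  rw [a_map, card_j_map, card_map_of_injective (MulAut.conj l).injective]
  exact hmax X hX

/-- Two components with different containers give a plane. -/
theorem plane_of_two (hZN : ZN G) {T K K' L L' : Subgroup G} (hT : IsPGroup 2 T) (hT1 : T ≠ ⊥)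
    (hK : IsJComponent T K) (hK' : IsJComponent T K') (h : IsContainer T K L) (h' : IsContainer T K' L')
    (hne : L ≠ L') (hLT : L ∈ jOvergroups T) :
    Plane T K L ∧ Nat.card ↥(omegaCenterOf (thompsonSubgroupOf 2 T)) ≤ 4 := by
  have hN := normalizes_of_two hZN hT hT1 hK hK' h h' hne hLT
  obtain ⟨-, h4, hc2, -⟩ := container_bound hT hK hK' h h' hne
  refine ⟨⟨hT, hT1, hK, h, hLT, hN, ?_⟩, h4⟩
  obtain ⟨hW2, hs, -, -⟩ := z0_split hT hK
  set Z := omegaCenterOf (thompsonSubgroupOf 2 T) with hZ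
  have hTJ : T ≤ normalizer (thompsonSubgroupOf 2 T : Set G) :=
    le_normalizer.trans (H34.normalizer_le_normalizer_thompson T)
  have hTZ : ∀ t ∈ T, Z.map (MulAut.conj t).toMonoidHom = Z := fun t ht => by
    rw [hZ, map_omegaCenterOf (MulAut.conj t).injective]
    exact congrArg omegaCenterOf (mem_normalizer_iff_map_conj_eq.mp (hTJ ht))
  have fix2 : ∀ H : Subgroup G, Nat.card H ≤ 2 → ∀ t : G, (∀ x ∈ H, t * x * t⁻¹ ∈ H) → ∀ x ∈ H, x * t = t * x := by
    intro H hH t htH x hx
    by_cases hx1 : x = 1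
    · rw [hx1]; group
    have hxx : t * x * t⁻¹ = x := by
      by_contra hne'
      classical
      haveI : Fintype ↥H := Fintype.ofFinite _
      have h3 := Finset.card_le_univ ({⟨1, one_mem H⟩, ⟨x, hx⟩, ⟨_, htH x hx⟩} : Finset ↥H)
      rw [← Nat.card_eq_fintype_card] at h3
      have hn1 : t * x * t⁻¹ ≠ 1 := fun e => hx1 (conj_eq_one_iff.mp e)
      rw [Finset.card_insert_of_notMem (by simp [Subtype.ext_iff, Ne.symm hx1, Ne.symm hn1]),
        Finset.card_pair (by simpa [Subtype.ext_iff] using Ne.symm hne')] at h3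
      omega
    exact (mul_inv_eq_iff_eq_mul.mp hxx).symm
  intro t ht
  have htK := mem_normalizer_iff_map_conj_eq.mp (hN ht)
  have hle : Z ≤ centralizer ({t} : Set G) := by
    rw [← hs]
    refine sup_le (fun x hx => mem_centralizer_singleton_iff.mpr (fix2 _ hc2 t ?_ x hx))
      (fun x hx => mem_centralizer_singleton_iff.mpr (fix2 _ hW2.le t ?_ x hx))
    · intro c hc
      refine ⟨(hTZ t ht).le ⟨c, hc.1, rfl⟩, ?_, fun y hy => ?_⟩
      · have hX : (K ⊔ thompsonSubgroupOf 2 T).map (MulAut.conj t).toMonoidHom = K ⊔ thompsonSubgroupOf 2 T := by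
          exact (Subgroup.map_sup _ _ _).trans (congrArg₂ (· ⊔ ·) htK (mem_normalizer_iff_map_conj_eq.mp (hTJ ht)))
        exact hX.le ⟨c, hc.2.1, rfl⟩
      · have hX : (K ⊔ thompsonSubgroupOf 2 T).map (MulAut.conj t).toMonoidHom = K ⊔ thompsonSubgroupOf 2 T := by
          exact (Subgroup.map_sup _ _ _).trans (congrArg₂ (· ⊔ ·) htK (mem_normalizer_iff_map_conj_eq.mp (hTJ ht)))
        obtain ⟨y', hy', rfl⟩ := hX.ge hy
        show t * y' * t⁻¹ * (t * c * t⁻¹) = t * c * t⁻¹ * (t * y' * t⁻¹)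
        calc t * y' * t⁻¹ * (t * c * t⁻¹) = t * (y' * c) * t⁻¹ := by group
          _ = t * (c * y') * t⁻¹ := by rw [hc.2.2 y' hy']
          _ = _ := by group
    · intro w hw
      refine ⟨(hTZ t ht).le ⟨w, hw.1, rfl⟩, ?_⟩
      have hW : (wOf K).map (MulAut.conj t).toMonoidHom = wOf K :=
        mem_normalizer_iff_map_conj_eq.mp (normalizer_le_normalizer_wOf K (hN ht))
      exact hW.le ⟨w, hw.2, rfl⟩
  exact fun x hx => mem_centralizer_singleton_iff.mp (hle hx)

/-- A conjugate under `N(T)` outside the container gives a second component. -/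
theorem conj_second {T K L : Subgroup G} (hK : IsJComponent T K) (h : IsContainer T K L)
    (hLT : L ∈ jOvergroups T) {g : G} (hg : g ∈ normalizer (T : Set G)) (hgL : g ∉ L) :
    IsJComponent T (K.map (MulAut.conj g).toMonoidHom) ∧
      IsContainer T (K.map (MulAut.conj g).toMonoidHom) (L.map (MulAut.conj g).toMonoidHom) ∧
      L.map (MulAut.conj g).toMonoidHom ∈ jOvergroups T ∧ L ≠ L.map (MulAut.conj g).toMonoidHom := by
  have hgJ := H34.normalizer_le_normalizer_thompson (p := 2) T hg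
  refine ⟨isJComponent_conj_of_normalizes hK hgJ, h.conj hgJ, ?_,
    fun e => hgL (normalizer_maximal h.max (mem_normalizer_iff_map_conj_eq.mpr e.symm))⟩
  have := jOvergroups_map hLT g
  have e : T.map (MulAut.conj g).toMonoidHom = T := mem_normalizer_iff_map_conj_eq.mp hg
  rwa [e] at this

end Cfsg.Agent.H74.JB
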