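import Cfsg.Agent.H74.JLocal
import Cfsg.Agent.H24.PGroupBasic

/-!
A subnormal component of another conjugate of `T` is normalized by `J(T)`.
-/

set_option autoImplicit false

namespace Cfsg.Agent.H74

open Subgroup Cfsg
open scoped commutatorElement Pointwise

section Abstract

variable {X : Type*} [Group X] [Finite X]

/-- If `K` is subnormal with two-core of index three, commutators with it are three-elements modulo `O₂`. -/
theorem comm_pow_mem {K : Subgroup X} (hK : K.IsSubnormal) (hidx : (pCoreOf 2 K).relIndex K = 3) :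
    pCoreOf 2 K ≤ pCore 2 X ∧
    ∀ (b : X) {g : X}, g ∈ K → ∃ n : ℕ, (b * g * b⁻¹ * g⁻¹) ^ 3 ^ n ∈ pCore 2 X := by
  haveI : Fact (Nat.Prime 3) := ⟨Nat.prime_three⟩
  haveI : Fact (Nat.Prime 2) := ⟨Nat.prime_two⟩
  have hQsn : (pCoreOf 2 K).IsSubnormal := by
    have hn : ((pCoreOf 2 K).subgroupOf K).Normal :=
      normal_subgroupOf_of_le_normalizer (H72.le_normalizer_pCoreOf 2 K)
    rw [← inf_eq_left.mpr (H72.pCoreOf_le 2 K), ← subgroupOf_map_subtype]
    exact hn.isSubnormal.trans' hK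
  have hQ : pCoreOf 2 K ≤ pCore 2 X := H72.le_pCore_of_isSubnormal hQsn (H72.pCoreOf_isPGroup 2 K)
  refine ⟨hQ, fun b g hg => ?_⟩
  haveI : (pCore 2 X).Normal := H19.pCore_normal 2 X
  set φ := QuotientGroup.mk' (pCore 2 X) with hφ
  haveI : (pCore 3 (X ⧸ pCore 2 X)).Normal := H19.pCore_normal 3 _
  have h3 : IsPGroup 3 ↥(K.map φ) := by
    have hdvd : Nat.card ↥(K.map φ) ∣ 3 := by
      rw [← relIndex_ker, hφ, QuotientGroup.ker_mk', ← hidx]
      exact relIndex_dvd_of_le_left K hQ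
    rcases (Nat.dvd_prime Nat.prime_three).mp hdvd with h | h
    · exact IsPGroup.of_card (n := 0) (by rw [h, pow_zero])
    · exact IsPGroup.of_card (n := 1) (by rw [h, pow_one])
  have hle : K.map φ ≤ pCore 3 (X ⧸ pCore 2 X) :=
    H72.le_pCore_of_isSubnormal (hK.map (QuotientGroup.mk'_surjective _)) h3
  have hg' : φ g ∈ pCore 3 (X ⧸ pCore 2 X) := hle ⟨g, hg, rfl⟩
  have hz : φ (b * g * b⁻¹ * g⁻¹) ∈ pCore 3 (X ⧸ pCore 2 X) := by
    rw [map_mul, map_mul, map_mul, map_inv, map_inv]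
    exact mul_mem (Subgroup.Normal.conj_mem inferInstance _ hg' _) (inv_mem hg')
  obtain ⟨n, hn⟩ := H19.pCore_isPGroup 3 ⟨_, hz⟩
  refine ⟨n, (QuotientGroup.eq_one_iff _).mp ?_⟩
  have := congrArg Subtype.val hn
  simpa [hφ] using this

/-- Subnormal subgroups of two-power index contain all elements of odd order. -/
theorem odd_mem_of_subnormal {R : Subgroup X} [R.Normal] (hR : IsPGroup 2 R) {K : Subgroup X}
    (hK : K.IsSubnormal) (hsup : K ⊔ R = ⊤) : ∀ g : X, Odd (orderOf g) → g ∈ K := by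
  induction hK with
  | top => exact fun g _ => mem_top g
  | step H K hHK hKsn hn ih =>
    intro g hg
    have hgK := ih (eq_top_iff.mpr (hsup.ge.trans (sup_le_sup_right hHK R))) g hg
    have hNK : K ≤ normalizer (H : Set X) := (normal_subgroupOf_iff_le_normalizer hHK).mp hn
    have hm : g ∈ H ⊔ R := hsup.ge (mem_top g)
    rw [← SetLike.mem_coe, coe_mul_of_left_le_normalizer_right H R le_normalizer_of_normal] at hm
    obtain ⟨a, ha, r, hr, har⟩ := hm
    have hrK : r ∈ K := by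
      have : r = a⁻¹ * g := by rw [← show a * r = g from har, inv_mul_cancel_left]
      rw [this]
      exact mul_mem (inv_mem (hHK ha)) hgK
    have hsup' : g ∈ H ⊔ (R ⊓ K) := by
      rw [← show a * r = g from har]
      exact mul_mem (mem_sup_left ha) (mem_sup_right ⟨hr, hrK⟩)
    exact JC.odd_mem_of_mem_sup (hR.to_le inf_le_left) (inf_le_right.trans hNK) hsup' hg

end Abstract

namespace JC

variable {Γ : Type*} [Group Γ] [Finite Γ] [h2 : Fact (Nat.Prime 2)]

set_option quotPrecheck false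
local notation "gV" => H34.omegaZ 2 Γ
local notation "gC" => centralizer ((H34.omegaZ 2 Γ : Subgroup Γ) : Set Γ)
local notation "gM" => thompsonSubgroup 2 Γ
local notation "gO" => pCore 2 Γ
local notation "cW" A:max => ⁅(H34.holV gV).range, H34.compOf 2 ((gM).map (H34.holHom gV)) A⁆
local notation "cD" A:max => ⁅H34.coreOf 2 ((gM).map (H34.holHom gV)), A⁆

variable {T : Sylow 2 Γ} (h : JHyp T)
include h

/-- A two-subgroup normalized by an odd element moving a plane centralizes that plane. -/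
theorem two_trivial {A : Subgroup (H34.Hol gV)}
    (hA : H34.IsTransvectionGroup 2 (H34.holV gV).range ((gM).map (H34.holHom gV)) A)
    {R : Subgroup Γ} (hR : IsPGroup 2 R) (hRM : R ≤ gM) {y : Γ} (hy : y ∈ gM) (hyR : y ∈ normalizer (R : Set Γ))
    (hyo : Odd (orderOf y)) (hyA : H34.holHom gV y ∉ centralizer ((cW A : Subgroup _) : Set _)) :
    ∀ q ∈ R, H34.holHom gV q ∈ centralizer ((cW A : Subgroup _) : Set _) := by
  set f := H34.holHom gV with hf
  have S := setup h
  have hgen := gen h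
  intro q hq
  obtain ⟨e, heE, hec, hecm, hodd⟩ := ff_proj S hgen hA (x := f y) ⟨y, hy, rfl⟩
  have heD : e ∈ (cD A) := hodd _ hyo (by rw [← map_pow, pow_orderOf_eq_one, map_one])
  have he1 : e ≠ 1 := fun h1 => hyA (by simpa [h1] using hec.2)
  obtain ⟨eq', heqE, heqc, heqcm, -⟩ := ff_proj S hgen hA (x := f q) ⟨q, hRM hq, rfl⟩
  obtain ⟨hcom, hinf, -, -⟩ := S.comp_direct_factor hgen hA
  have hce : ∀ a ∈ H34.compOf 2 ((gM).map f) A, ∀ c ∈ (gM).map f ⊓ centralizer ((cW A : Subgroup _) : Set _),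
      Commute a c := fun a ha c hc =>
    commutatorElement_eq_one_iff_mul_comm.mp (mem_bot.mp (hcom ▸ commutator_mem_commutator ha hc))
  set c := e⁻¹ * f y with hc
  set cq := eq'⁻¹ * f q with hcq
  have hz : ∀ {p : Γ}, p ∈ R → ∀ {a b : H34.Hol gV}, a ∈ H34.compOf 2 ((gM).map f) A →
      b ∈ (gM).map f ⊓ centralizer ((cW A : Subgroup _) : Set _) → f p = a * b → a ∈ (cD A) → a = 1 := by
    intro p hp a b ha hb hpab haD
    obtain ⟨i, hi⟩ := hR ⟨p, hp⟩
    have hp2 : p ^ 2 ^ i = 1 := by simpa using congrArg Subtype.val hi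
    have h1 : a ^ 2 ^ i * b ^ 2 ^ i = 1 := by rw [← (hce a ha b hb).mul_pow, ← hpab, ← map_pow, hp2, map_one]
    have hm : a ^ 2 ^ i ∈ H34.compOf 2 ((gM).map f) A ⊓ ((gM).map f ⊓ centralizer ((cW A : Subgroup _) : Set _)) :=
      ⟨pow_mem ha _, by rw [eq_inv_of_mul_eq_one_left h1]; exact Subgroup.inv_mem _ (pow_mem hb _)⟩
    rw [hinf, mem_bot] at hm
    have hd3 : a ^ 3 = 1 := by
      have := pow_card_eq_one' (x := (⟨a, haD⟩ : ↥(cD A)))
      rw [(ff_card S hA).2.1] at this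
      simpa using congrArg Subtype.val this
    exact orderOf_eq_one_iff.mp (Nat.eq_one_of_dvd_coprimes
      (Nat.Coprime.pow_left i (by decide : Nat.Coprime 2 3)) (orderOf_dvd_of_pow_eq_one hm) (orderOf_dvd_of_pow_eq_one hd3))
  suffices heq : eq' ∈ (cD A) by
    have h1 := hz hq heqE heqc (by rw [hcq, mul_inv_cancel_left]) heq
    have h2' : f q = cq := by rw [hcq, h1, inv_one, one_mul]
    rw [h2']
    exact heqc.2
  by_contra heqD
  -- the commutator with `y` lies in the two-group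
  have hp : q * y * q⁻¹ * y⁻¹ ∈ R := by
    have := (mem_normalizer_iff.mp hyR q⁻¹).mp (inv_mem hq)
    rw [mul_assoc q, mul_assoc q]
    exact mul_mem hq this
  have hfp : f (q * y * q⁻¹ * y⁻¹) = (eq' * e * eq'⁻¹ * e⁻¹) * (cq * c * cq⁻¹ * c⁻¹) := by
    rw [map_mul, map_mul, map_mul, map_inv, map_inv, show f q = eq' * cq by rw [hcq, mul_inv_cancel_left],
      show f y = e * c by rw [hc, mul_inv_cancel_left]]
    have k1 : Commute cq e := (hce e heE cq heqc).symm
    have k2 : Commute (cq * c * cq⁻¹) eq' := (hce eq' heqE _ (mul_mem (mul_mem heqc hec) (inv_mem heqc))).symm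
    have k3 : Commute (cq * c * cq⁻¹ * c⁻¹) e :=
      (hce e heE _ (mul_mem (mul_mem (mul_mem heqc hec) (inv_mem heqc)) (inv_mem hec))).symm
    calc eq' * cq * (e * c) * (eq' * cq)⁻¹ * (e * c)⁻¹
        = eq' * (cq * e) * c * cq⁻¹ * eq'⁻¹ * c⁻¹ * e⁻¹ := by group
      _ = eq' * e * ((cq * c * cq⁻¹) * eq'⁻¹) * c⁻¹ * e⁻¹ := by rw [k1.eq]; group
      _ = eq' * e * eq'⁻¹ * ((cq * c * cq⁻¹ * c⁻¹) * e⁻¹) := by rw [(k2.inv_right).eq]; group
      _ = _ := by rw [(k3.inv_right).eq]; group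
  have hconjD : eq' * e * eq'⁻¹ ∈ (cD A) := by
    refine ff_odd_mem S hA (mul_mem (mul_mem heqE heE) (inv_mem heqE)) (by decide : Odd 3) ?_
    have he3 : e ^ 3 = 1 := by
      have := pow_card_eq_one' (x := (⟨e, heD⟩ : ↥(cD A)))
      rw [(ff_card S hA).2.1] at this
      simpa using congrArg Subtype.val this
    rw [conj_pow, he3]
    group
  have h1 := hz hp (mul_mem (mul_mem (mul_mem heqE heE) (inv_mem heqE)) (inv_mem heE))
    (mul_mem (mul_mem (mul_mem heqc hec) (inv_mem heqc)) (inv_mem hec)) hfp (mul_mem hconjD (inv_mem heD))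
  -- so the transvection part would centralize the odd part
  obtain ⟨a, ha, ha1⟩ : ∃ a ∈ A, a ≠ 1 := by
    by_contra hh
    push Not at hh
    have := hA.2.1
    rw [(eq_bot_iff_forall A).mpr hh, card_bot] at this
    omega
  have haD : a ∉ (cD A) := by
    intro haD
    have ha2 : a ^ 2 = 1 := (S.transvection_facts hA).2.2 a ha
    have hd3 : a ^ 3 = 1 := by
      have := pow_card_eq_one' (x := (⟨a, haD⟩ : ↥(cD A)))
      rw [(ff_card S hA).2.1] at this
      simpa using congrArg Subtype.val this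
    exact ha1 (orderOf_eq_one_iff.mp (Nat.eq_one_of_dvd_coprimes (by decide : Nat.Coprime 2 3)
      (orderOf_dvd_of_pow_eq_one ha2) (orderOf_dvd_of_pow_eq_one hd3)))
  have hidx : ((cD A).subgroupOf (H34.compOf 2 ((gM).map f) A)).index = 2 := by
    have := ((cD A).subgroupOf (H34.compOf 2 ((gM).map f) A)).card_mul_index
    rw [Nat.card_congr (subgroupOfEquivOfLe (le_sup_left : (cD A) ≤ H34.compOf 2 ((gM).map f) A)).toEquiv,
      (ff_card S hA).2.1, (ff_card S hA).1] at this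
    omega
  have haE : a ∈ H34.compOf 2 ((gM).map f) A := mem_sup_right ha
  have hd : eq' * a ∈ (cD A) := by
    have := (mul_mem_iff_of_index_two hidx (a := ⟨eq', heqE⟩) (b := ⟨a, haE⟩)).mpr
      (by simp [mem_subgroupOf, heqD, haD])
    simpa [mem_subgroupOf] using this
  have hgenD := zpowers_eq_of_card3 (ff_card S hA).2.1 heD he1
  rw [← hgenD] at hd
  obtain ⟨j, hj⟩ := mem_zpowers_iff.mp hd
  have hcomm : Commute eq' e := mul_inv_eq_iff_eq_mul.mp (mul_inv_eq_one.mp h1)
  have hac : Commute a e := by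
    have : a = eq'⁻¹ * e ^ j := by rw [hj, inv_mul_cancel_left]
    rw [this]
    exact (hcomm.inv_left).mul_left ((Commute.refl e).zpow_left j)
  have hinv := ff_invert S hgen hA hA rfl ha ha1 heD
  rw [hac.eq, mul_inv_cancel_right] at hinv
  have he3 : e ^ 3 = 1 := by
    have := pow_card_eq_one' (x := (⟨e, heD⟩ : ↥(cD A)))
    rw [(ff_card S hA).2.1] at this
    simpa using congrArg Subtype.val this
  exact he1 (orderOf_eq_one_iff.mp (Nat.eq_one_of_dvd_coprimes (by decide : Nat.Coprime 2 3)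
    (orderOf_dvd_of_pow_eq_one (by rw [pow_two, mul_eq_one_iff_eq_inv]; exact hinv)) (orderOf_dvd_of_pow_eq_one he3)))

/-- Commutation in `Γ` read in the holomorph. -/
theorem comm_iff {w : Γ} (hw : w ∈ gV) (k : Γ) :
    Commute (H34.holV gV ⟨w, hw⟩) (H34.holHom gV k) ↔ Commute w k := by
  have hcj : H34.holHom gV k * H34.holV gV ⟨w, hw⟩ * (H34.holHom gV k)⁻¹ =
      H34.holV gV ⟨k * w * k⁻¹, omegaZNormal.conj_mem _ hw k⟩ := H34.hol_conj gV k ⟨w, hw⟩
  constructor
  · intro hc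
    rw [← hc.eq, mul_inv_cancel_right] at hcj
    exact (mul_inv_eq_iff_eq_mul.mp (congrArg Subtype.val (SemidirectProduct.inl_injective hcj)).symm).symm
  · intro hc
    have e : (⟨k * w * k⁻¹, omegaZNormal.conj_mem _ hw k⟩ : ↥gV) = ⟨w, hw⟩ :=
      Subtype.ext (by show k * w * k⁻¹ = w; rw [← hc.eq, mul_inv_cancel_right])
    rw [e] at hcj
    exact (mul_inv_eq_iff_eq_mul.mp hcj).symm

/-- A subgroup of `X = ⟨K, J(T)⟩` with `K` subnormal: the plane of `W_K`, or `J(T)` is normal. -/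
theorem wOf_normalized {K : Subgroup Γ} (hgenK : closure {g : Γ | g ∈ K ∧ Odd (orderOf g)} = K)
    (hidx : (pCoreOf 2 K).relIndex K = 3) (hcard : Nat.card ↥(wOf K) = 4)
    (hsn : (K.subgroupOf (K ⊔ thompsonSubgroupOf 2 (T : Subgroup Γ))).IsSubnormal) :
    thompsonSubgroupOf 2 (T : Subgroup Γ) ≤ normalizer (wOf K : Set Γ) := by
  set J := thompsonSubgroupOf 2 (T : Subgroup Γ) with hJ
  set X := K ⊔ J with hX
  have hKX : K ≤ X := le_sup_left
  have hJM : J ≤ gM := by simpa using j_le_m (T := T) 1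
  set f := H34.holHom gV with hf
  have S := setup h
  have hgen := gen h
  set Y := X ⊓ gM with hY
  have hJ2 : IsPGroup 2 J := T.isPGroup'.to_le (H34.thompsonSubgroupOf_le _)
  -- if `J(T)` is normal in `X` then it normalizes `K`
  have hcase : X ≤ normalizer (J : Set Γ) → J ≤ normalizer (wOf K : Set Γ) := by
    intro hXJ
    refine le_trans ?_ (JB.normalizer_le_normalizer_wOf K)
    haveI : (J.subgroupOf X).Normal := normal_subgroupOf_of_le_normalizer hXJ
    have hsup : K.subgroupOf X ⊔ J.subgroupOf X = ⊤ := by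
      rw [← subgroupOf_sup le_sup_left le_sup_right, subgroupOf_self]
    have hodd := odd_mem_of_subnormal (R := J.subgroupOf X) (hJ2.comap_of_injective X.subtype X.subtype_injective) hsn hsup
    intro j hj
    refine mem_normalizer_of_conj_mem fun g hg => ?_
    have hle : K ≤ K.comap (MulAut.conj j).toMonoidHom := by
      conv_lhs => rw [← hgenK]
      rw [closure_le]
      rintro w ⟨hw, hwo⟩
      show j * w * j⁻¹ ∈ K
      have hm : j * w * j⁻¹ ∈ X := mul_mem (mul_mem (mem_sup_right hj) (hKX hw)) (inv_mem (mem_sup_right hj))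
      exact mem_subgroupOf.mp (hodd ⟨_, hm⟩ (by
        rw [Subgroup.orderOf_mk]; exact (MulEquiv.orderOf_eq (MulAut.conj j) w).symm ▸ hwo))
    exact hle hg
  by_cases hodd : ∀ y ∈ Y, Odd (orderOf y) → f y = 1
  · -- `Y` has a normal Sylow subgroup
    refine hcase ?_
    obtain ⟨SY, hSY, hJS⟩ := JB.exists_sylowTwoIn_ge hJ2 (le_inf le_sup_right hJM : J ≤ Y)
    haveI : (gC : Subgroup Γ).Normal := normal_centralizer
    haveI : (gO).Normal := H19.pCore_normal 2 Γ
    have hOY : Y ⊓ gO ≤ SY := by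
      obtain ⟨P', hP'⟩ := JB.exists_sylow_map hSY
      rw [← hP']
      intro z hz
      refine ⟨⟨z, hz.1⟩, ?_, rfl⟩
      have hle : (gO).subgroupOf Y ≤ pCore 2 ↥Y :=
        H19.le_pCore (normal_subgroupOf_of_le_normalizer le_normalizer_of_normal)
          ((H19.pCore_isPGroup (G := Γ) 2).comap_of_injective _ Y.subtype_injective)
      exact H19.pCore_le_sylow P' (hle hz.2)
    have hgenY : ∀ y ∈ Y, f y ∈ SY.map f := by
      intro y hy
      -- split `y` into its two-part and its odd part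
      obtain ⟨i, m, hm, hord⟩ := Nat.exists_eq_two_pow_mul_odd (orderOf_pos y).ne'
      have h1 : f (y ^ 2 ^ i) = 1 := by
        refine hodd _ (pow_mem hy _) ?_
        rw [orderOf_pow' _ (pow_ne_zero _ two_ne_zero), hord, Nat.gcd_eq_right (dvd_mul_right _ _),
          Nat.mul_div_cancel_left _ (pow_pos two_pos i)]
        exact hm
      have h2'' : IsPGroup 2 ↥(zpowers (f y)) := by
        obtain ⟨k, -, hk⟩ := (Nat.dvd_prime_pow Nat.prime_two).mp
          (orderOf_dvd_of_pow_eq_one (show f y ^ 2 ^ i = 1 by rw [← map_pow, h1]))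
        exact IsPGroup.of_card (n := k) (by rw [Nat.card_zpowers, hk])
      have hYf : IsPGroup 2 ↥(Y.map f) := by
        rintro ⟨z, w, hw, rfl⟩
        obtain ⟨i', m', hm', hord'⟩ := Nat.exists_eq_two_pow_mul_odd (orderOf_pos w).ne'
        refine ⟨i', Subtype.ext ?_⟩
        show f w ^ 2 ^ i' = 1
        rw [← map_pow]
        refine hodd _ (pow_mem hw _) ?_
        rw [orderOf_pow' _ (pow_ne_zero _ two_ne_zero), hord', Nat.gcd_eq_right (dvd_mul_right _ _),
          Nat.mul_div_cancel_left _ (pow_pos two_pos i')]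
        exact hm'
      have hdvd : (SY.map f).relIndex (Y.map f) ∣ SY.relIndex Y := by
        have e : (SY.map f).subgroupOf (Y.map f) = (SY.subgroupOf Y).map (f.subgroupMap Y) := by
          ext ⟨z, hz⟩
          constructor
          · rintro ⟨a, ha, rfl⟩
            exact ⟨⟨a, hSY.1 ha⟩, ha, rfl⟩
          · rintro ⟨⟨a, haY⟩, ha, he⟩
            exact ⟨a, ha, congrArg Subtype.val he⟩
        rw [relIndex, relIndex, e]
        exact index_map_dvd (SY.subgroupOf Y) (f.subgroupMap_surjective Y)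
      have h1' : (SY.map f).relIndex (Y.map f) = 1 := by
        obtain ⟨k, hk⟩ := hYf.index ((SY.map f).subgroupOf (Y.map f))
        rcases Nat.eq_zero_or_pos k with rfl | hk'
        · rw [relIndex, hk, pow_zero]
        · exfalso
          have : 2 ∣ SY.relIndex Y := dvd_trans (by rw [relIndex, hk]; exact dvd_pow_self 2 hk'.ne') hdvd
          exact Nat.two_dvd_ne_zero.mpr (Nat.odd_iff.mp hSY.2.2) this
      exact relIndex_eq_one.mp h1' ⟨y, hy, rfl⟩
    have hYN : Y ≤ normalizer (SY : Set Γ) := by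
      intro y hy
      obtain ⟨s, hs, hsy⟩ := hgenY y hy
      have hc : s⁻¹ * y ∈ (gC : Subgroup Γ) := by
        rw [← H34.holHom_ker gV, MonoidHom.mem_ker, map_mul, map_inv, hsy, inv_mul_cancel]
      have hcN : s⁻¹ * y ∈ normalizer (SY : Set Γ) := by
        refine mem_normalizer_of_conj_mem fun t ht => ?_
        have hcom : ⁅s⁻¹ * y, t⁆ ∈ gO :=
          comm_c_m h (commutator_mem_commutator hc ((hSY.1 ht).2))
        have hcY : s⁻¹ * y ∈ Y := mul_mem (inv_mem (hSY.1 hs)) hy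
        have hcm' : ⁅s⁻¹ * y, t⁆ ∈ Y := by
          rw [commutatorElement_def]
          exact mul_mem (mul_mem (mul_mem hcY (hSY.1 ht)) (inv_mem hcY)) (inv_mem (hSY.1 ht))
        have hcm : ⁅s⁻¹ * y, t⁆ ∈ SY := hOY ⟨hcm', hcom⟩
        rw [commutatorElement_def] at hcm
        simpa using mul_mem hcm ht
      have : y = s * (s⁻¹ * y) := by group
      rw [this]
      exact mul_mem (le_normalizer hs) hcN
    intro x hx
    have hYx : x ∈ normalizer (Y : Set Γ) := by
      refine inf_normalizer_le_normalizer_inf ⟨le_normalizer hx, ?_⟩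
      exact le_normalizer_of_normal (mem_top x)
    obtain ⟨l, hl, hle⟩ := JB.exists_le_conj hSY ((hSY.2.1).map (MulAut.conj x).toMonoidHom)
      ((map_mono hSY.1).trans (mem_normalizer_iff_map_conj_eq.mp hYx).le)
    have hsl : SY.map (MulAut.conj l).toMonoidHom = SY := mem_normalizer_iff_map_conj_eq.mp (hYN hl)
    rw [hsl] at hle
    have hxS : x ∈ normalizer (SY : Set Γ) := by
      rw [mem_normalizer_iff_map_conj_eq]
      exact eq_of_le_of_card_ge hle (card_map_of_injective (MulAut.conj x).injective).ge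
    have hJeq : thompsonSubgroupOf 2 SY = J := by
      have hT : IsSylowTwoIn (T : Subgroup Γ) ⊤ := by
        refine ⟨le_top, T.isPGroup', ?_⟩
        rw [relIndex_top_right]
        exact Nat.odd_iff.mpr (Nat.two_dvd_ne_zero.mp T.not_dvd_index)
      exact JB.j_eq hT hSY.2.1 le_top hJS
    rw [← hJeq]
    exact H34.normalizer_le_normalizer_thompson SY hxS
  -- a plane on which `Y` induces an element of order three
  push Not at hodd
  obtain ⟨y, hy, hyo, hy1⟩ := hodd
  obtain ⟨A, hA, hyA⟩ : ∃ A, H34.IsTransvectionGroup 2 (H34.holV gV).range ((gM).map f) A ∧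
      f y ∉ centralizer ((cW A : Subgroup _) : Set _) := by
    by_contra hno
    push Not at hno
    exact hy1 (ff_inter S hgen ⟨y, hy.2, rfl⟩ hno)
  obtain ⟨K₀, hK₀, -, hmap₀⟩ := comp_exists h hA
  obtain ⟨-, -, -, hwK₀, hW4, A₀, hA₀, hmap₀', hAW⟩ := comp_basic h hK₀
  have hWW : (cW A₀) = (cW A) := by
    by_contra hne
    have h1 := (ff_cross S hgen hA hA₀ (Ne.symm hne)).trans inf_le_right
    obtain ⟨d, hd, hd1⟩ : ∃ d ∈ (cD A₀), d ≠ 1 := by
      by_contra hh
      push Not at hh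
      have := (ff_card S hA₀).2.1
      rw [(eq_bot_iff_forall _).mpr hh, card_bot] at this
      omega
    obtain ⟨w, hw, hw1⟩ : ∃ w ∈ (cW A), w ≠ 1 := by
      by_contra hh
      push Not at hh
      have := (ff_card S hA).2.2.2
      rw [(eq_bot_iff_forall _).mpr hh, card_bot] at this
      omega
    have hd' : d ∈ (cD A) := by rw [← hmap₀, hmap₀']; exact hd
    exact hw1 (ff_fpf S hA hd' hd1 hw (mem_centralizer_iff.mp (h1 (mem_sup_left hd)) w hw).symm)
  rw [hWW, ← hwK₀] at hAW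
  set W := wOf K₀ with hW
  have hWV : W ≤ gV := hwK₀ ▸ commutator_le_left gV K₀
  have hcentW : ∀ k : Γ, (∀ w ∈ W, Commute w k) ↔ f k ∈ centralizer ((cW A : Subgroup _) : Set _) := by
    intro k
    rw [← hAW]
    constructor
    · rintro hk _ ⟨w, hw, rfl⟩
      exact ((comm_iff h w.2 k).mpr (hk w hw)).eq
    · intro hk w hw
      exact (comm_iff h (hWV hw) k).mp (hk _ ⟨⟨w, hWV hw⟩, hw, rfl⟩)
  have hMW : gM ≤ normalizer (W : Set Γ) := (comp_normal h hK₀).trans (JB.normalizer_le_normalizer_wOf K₀)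
  -- the two-core of `X` centralizes the plane
  set R := pCoreOf 2 X ⊓ gM with hR
  have hRW : ∀ q ∈ R, ∀ w ∈ W, Commute w q := by
    intro q hq
    rw [hcentW]
    refine two_trivial h hA ((H72.pCoreOf_isPGroup 2 X).to_le inf_le_left) inf_le_right hy.2 ?_ hyo hyA q hq
    exact inf_normalizer_le_normalizer_inf ⟨H72.le_normalizer_pCoreOf 2 X hy.1, le_normalizer hy.2⟩
  obtain ⟨b, hbJ, B, hB, hbB, hb1, hWB⟩ := exists_transvection h 1 hA
  rw [one_smul] at hbJ
  have hbM : b ∈ gM := hJM hbJ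
  have hbnc : ¬ ∀ w ∈ W, Commute w b := by
    rw [hcentW]
    intro hbc
    have hbE : f b ∈ H34.compOf 2 ((gM).map f) A := (S.comp_eq_or_disjoint hA hB).1 hWB ▸ mem_sup_right hbB
    have h1 : f b ∈ H34.compOf 2 ((gM).map f) A ⊓ centralizer ((cW A : Subgroup _) : Set _) := ⟨hbE, hbc⟩
    rw [(S.compFacts hA).faithful] at h1
    exact hb1 (mem_bot.mp h1)
  have hbC : b ^ 2 ∈ (gC : Subgroup Γ) := by
    rw [← H34.holHom_ker gV, MonoidHom.mem_ker, map_pow]
    exact (S.transvection_facts hB).2.2 _ hbB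
  -- each element of `K` of odd order fixes the plane
  have hKW : K ≤ normalizer (W : Set Γ) := by
    rw [← hgenK, closure_le]
    rintro g ⟨hg, -⟩
    rw [SetLike.mem_coe]
    by_contra hgW
    set K₁ := K₀.map (MulAut.conj g⁻¹).toMonoidHom with hK₁def
    obtain ⟨hK₁, hW₁⟩ := comp_conj hK₀ g⁻¹
    obtain ⟨-, -, -, hwK₁, -, A₁, hA₁, -, hAW₁⟩ := comp_basic h hK₁
    have hne : (cW A) ≠ (cW A₁) := by
      intro he
      rw [← hAW, ← hAW₁] at he
      have he' := map_injective SemidirectProduct.inl_injective he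
      have hle1 : wOf K₁ ≤ gV := hwK₁ ▸ commutator_le_left gV K₁
      have h1 := congrArg (Subgroup.map (gV).subtype) he'
      rw [subgroupOf_map_subtype, subgroupOf_map_subtype, inf_eq_left.mpr hWV, ← hwK₁,
        inf_eq_left.mpr hle1, hW₁, ← hW] at h1
      exact hgW (inv_inv g ▸ inv_mem (mem_normalizer_iff_map_conj_eq.mpr h1.symm))
    -- `b` centralizes the other plane
    have hb₁ : ∀ u ∈ wOf K₁, Commute u b := by
      intro u hu
      have huV : u ∈ gV := (hwK₁ ▸ commutator_le_left gV K₁ : wOf K₁ ≤ gV) hu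
      refine (comm_iff h huV b).mp ?_
      have hbE : f b ∈ H34.compOf 2 ((gM).map f) A := (S.comp_eq_or_disjoint hA hB).1 hWB ▸ mem_sup_right hbB
      have hc := (ff_cross S hgen hA₁ hA hne.symm hbE).2
      rw [← hAW₁, ← hwK₁] at hc
      exact mem_centralizer_iff.mp hc _ ⟨⟨u, huV⟩, hu, rfl⟩
    have hcg : ∀ w ∈ W, Commute w (g * b⁻¹ * g⁻¹) := by
      intro w hw
      have hu : g⁻¹ * w * g ∈ wOf K₁ := by
        rw [hW₁]
        exact ⟨w, hw, by simp [mul_assoc]⟩
      have hc := (hb₁ _ hu).inv_right.map (MulAut.conj g).toMonoidHom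
      simpa [mul_assoc] using hc
    set z := b * g * b⁻¹ * g⁻¹ with hz
    have hbX : b ∈ X := mem_sup_right hbJ
    have hzX : z ∈ X := mul_mem (mul_mem (mul_mem hbX (hKX hg)) (inv_mem hbX)) (inv_mem (hKX hg))
    have hzM : z ∈ gM := by
      have : g * b⁻¹ * g⁻¹ ∈ gM := thompsonNormal.conj_mem _ (inv_mem hbM) g
      rw [hz, mul_assoc b, mul_assoc b]
      exact mul_mem hbM this
    have hidx' : (pCoreOf 2 (K.subgroupOf X)).relIndex (K.subgroupOf X) = 3 := by
      rw [← relIndex_map_map_of_injective _ _ X.subtype_injective, JB.map_pCoreOf X.subtype_injective,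
        subgroupOf_map_subtype, inf_eq_left.mpr hKX]
      exact hidx
    obtain ⟨n, hn⟩ := (comm_pow_mem hsn hidx').2 ⟨b, hbX⟩ (g := ⟨g, hKX hg⟩) hg
    have hzn : z ^ 3 ^ n ∈ pCoreOf 2 X := ⟨_, hn, by simp [hz]⟩
    have hzact : ∀ w ∈ W, z * w * z⁻¹ = b * w * b⁻¹ := by
      intro w hw
      have e : z * w * z⁻¹ = b * ((g * b⁻¹ * g⁻¹) * w * (g * b⁻¹ * g⁻¹)⁻¹) * b⁻¹ := by rw [hz]; group
      rw [e, ← (hcg w hw).eq, mul_inv_cancel_right]
    have hbb : ∀ w ∈ W, b * (b * w * b⁻¹) * b⁻¹ = w := by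
      intro w hw
      have := mem_centralizer_iff.mp hbC w (hWV hw)
      calc b * (b * w * b⁻¹) * b⁻¹ = b ^ 2 * w * (b ^ 2)⁻¹ := by rw [pow_two]; group
        _ = _ := by rw [← this, mul_inv_cancel_right]
    have hpow : ∀ k : ℕ, ∀ w ∈ W, z ^ (2 * k + 1) * w * (z ^ (2 * k + 1))⁻¹ = b * w * b⁻¹ := by
      intro k
      induction k with
      | zero => intro w hw; simpa using hzact w hw
      | succ k ih =>
        intro w hw
        have hw1 := (mem_normalizer_iff.mp (hMW hbM) w).mp hw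
        have hw2 := (mem_normalizer_iff.mp (hMW hbM) _).mp hw1
        have e : z ^ (2 * (k + 1) + 1) = z ^ (2 * k + 1) * z * z := by
          rw [show 2 * (k + 1) + 1 = 2 * k + 1 + 1 + 1 by ring, pow_succ, pow_succ]
        rw [e]
        calc z ^ (2 * k + 1) * z * z * w * (z ^ (2 * k + 1) * z * z)⁻¹
            = z ^ (2 * k + 1) * (z * (z * w * z⁻¹) * z⁻¹) * (z ^ (2 * k + 1))⁻¹ := by group
          _ = z ^ (2 * k + 1) * w * (z ^ (2 * k + 1))⁻¹ := by rw [hzact w hw, hzact _ hw1, hbb w hw]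
          _ = _ := ih w hw
    obtain ⟨k, hk⟩ : Odd (3 ^ n) := (by decide : Odd 3).pow
    refine hbnc fun w hw => ?_
    have h1 := hRW _ ⟨hzn, pow_mem hzM _⟩ w hw
    have h2'' := hpow k w hw
    rw [← hk, ← h1.eq, mul_inv_cancel_right] at h2''
    exact (mul_inv_eq_iff_eq_mul.mp h2''.symm).symm
  -- some element of `K` of odd order moves the plane
  obtain ⟨g, hg, hgo, hgW⟩ : ∃ g, g ∈ K ∧ Odd (orderOf g) ∧ ¬ ∀ w ∈ W, Commute w g := by
    by_contra hno
    push Not at hno
    have hKC : K ≤ centralizer (W : Set Γ) := by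
      rw [← hgenK, closure_le]
      exact fun g hg w hw => (hno g hg.1 hg.2 w hw).eq
    set N := normalizer (W : Set Γ) with hN
    have hXN : X ≤ N := sup_le hKW (hJM.trans hMW)
    haveI hCn : ((centralizer (W : Set Γ)).subgroupOf N).Normal :=
      normal_subgroupOf_of_le_normalizer (H20.le_normalizer_centralizer le_rfl)
    set φ := QuotientGroup.mk' ((centralizer (W : Set Γ)).subgroupOf N) with hφ
    have h1 : (X.subgroupOf N).map φ ≤ (J.subgroupOf N).map φ := by
      rw [map_le_iff_le_comap, hX, subgroupOf_sup hKW (hJM.trans hMW), sup_le_iff]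
      refine ⟨fun k hk => ?_, le_comap_map _ _⟩
      have : φ k = 1 := (QuotientGroup.eq_one_iff _).mpr (hKC hk)
      show φ k ∈ (J.subgroupOf N).map φ
      rw [this]
      exact one_mem _
    have h2'' : IsPGroup 2 ↥((J.subgroupOf N).map φ) :=
      (hJ2.comap_of_injective N.subtype N.subtype_injective).map φ
    obtain ⟨i, hi⟩ := h2'' ⟨_, h1 ⟨⟨y, hXN hy.1⟩, hy.1, rfl⟩⟩
    have hyi : φ (⟨y, hXN hy.1⟩ ^ 2 ^ i) = 1 := by
      rw [map_pow]
      exact congrArg Subtype.val hi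
    have hyC : ∀ w ∈ W, Commute w (y ^ 2 ^ i) := fun w hw =>
      ((QuotientGroup.eq_one_iff _).mp hyi) w hw
    obtain ⟨m, hm⟩ := exists_pow_eq_self_of_coprime
      (Nat.Coprime.pow_left i hyo.coprime_two_left : Nat.Coprime (2 ^ i) (orderOf y))
    exact hyA ((hcentW y).mp fun w hw => by rw [← hm]; exact (hyC w hw).pow_right m)
  have hg3 : g ^ 3 = 1 := by
    haveI : ((pCoreOf 2 K).subgroupOf K).Normal :=
      normal_subgroupOf_of_le_normalizer (H72.le_normalizer_pCoreOf 2 K)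
    have h1 := ((pCoreOf 2 K).subgroupOf K).pow_index_mem ⟨g, hg⟩
    rw [show ((pCoreOf 2 K).subgroupOf K).index = 3 from hidx, mem_subgroupOf] at h1
    exact odd_pow_three (H72.pCoreOf_isPGroup 2 K) hgo (by simpa using h1)
  have hgN := hKW hg
  -- `g` acts without fixed points
  have hfpf : ∀ w ∈ W, g * w * g⁻¹ = w → w = 1 := by
    intro w hw hfix
    by_contra hw1
    obtain ⟨v, hv, hvg⟩ : ∃ v ∈ W, ¬ Commute v g := by push Not at hgW; exact hgW
    have hv0 : g * v * g⁻¹ ≠ v := fun e => hvg (mul_inv_eq_iff_eq_mul.mp e).symm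
    have hinj : ∀ x y : Γ, g * x * g⁻¹ = g * y * g⁻¹ → x = y := fun x y e =>
      mul_left_cancel (mul_right_cancel e)
    have hv2 : g * (g * v * g⁻¹) * g⁻¹ ≠ g * v * g⁻¹ := fun e => hv0 (hinj _ _ e)
    have hv3 : g * (g * v * g⁻¹) * g⁻¹ ≠ v := fun e => hv0 (by
      conv_lhs => rw [← e]
      calc g * (g * (g * v * g⁻¹) * g⁻¹) * g⁻¹ = g ^ 3 * v * (g ^ 3)⁻¹ := by rw [pow_three']; group
        _ = v := by rw [hg3]; group)
    have hvw : v ≠ w := fun e => hv0 (e.symm ▸ hfix)
    have hgv1 : g * v * g⁻¹ ≠ w := fun e => hvw (hinj _ _ (e.trans hfix.symm))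
    have hgv2 : g * (g * v * g⁻¹) * g⁻¹ ≠ w := fun e => hgv1 (hinj _ _ (e.trans hfix.symm))
    have hv1 : v ≠ 1 := fun e => hv0 (by rw [e]; group)
    have hgv1' : g * v * g⁻¹ ≠ 1 := fun e => hv1 (conj_eq_one_iff.mp e)
    have hgv2' : g * (g * v * g⁻¹) * g⁻¹ ≠ 1 := fun e => hgv1' (conj_eq_one_iff.mp e)
    have hm1 := (mem_normalizer_iff.mp hgN v).mp hv
    have hm2 := (mem_normalizer_iff.mp hgN _).mp hm1
    classical
    haveI : Fintype ↥W := Fintype.ofFinite _
    have hfive := Finset.card_le_univ ({⟨1, one_mem W⟩, ⟨w, hw⟩, ⟨v, hv⟩, ⟨_, hm1⟩, ⟨_, hm2⟩} : Finset ↥W)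
    rw [← Nat.card_eq_fintype_card, hW4] at hfive
    simp [Subtype.ext_iff, hv1, hgv1', hgv2', hw1, Ne.symm hv1, Ne.symm hgv1', Ne.symm hgv2', Ne.symm hw1,
      hvw.symm, hgv1.symm, hgv2.symm, hv2.symm, hv3.symm, Ne.symm hv0] at hfive
  haveI := (v_elem h).1
  have hcomW : ∀ w ∈ W, ∃ u ∈ W, w = ⁅u, g⁆ := by
    let ψ : ↥W → ↥W := fun u => ⟨⁅(u : Γ), g⁆, by
      rw [commutatorElement_def, mul_assoc (u : Γ), mul_assoc (u : Γ)]
      exact mul_mem u.2 ((mem_normalizer_iff.mp hgN _).mp (inv_mem u.2))⟩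
    have hinj : Function.Injective ψ := by
      intro u v huv
      have h1 : (u : Γ) * (g * (u : Γ)⁻¹ * g⁻¹) = (v : Γ) * (g * (v : Γ)⁻¹ * g⁻¹) := by
        have := congrArg Subtype.val huv
        simpa [ψ, commutatorElement_def, mul_assoc] using this
      have h3 : g * ((v : Γ)⁻¹ * u) * g⁻¹ = (v : Γ)⁻¹ * u := by
        calc g * ((v : Γ)⁻¹ * u) * g⁻¹
            = (v : Γ)⁻¹ * ((v : Γ) * (g * (v : Γ)⁻¹ * g⁻¹)) * (g * (u : Γ) * g⁻¹) := by group
          _ = _ := by rw [← h1]; group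
      exact Subtype.ext (inv_mul_eq_one.mp (hfpf _ (mul_mem (inv_mem v.2) u.2) h3)).symm
    intro w hw
    obtain ⟨u, hu⟩ := Finite.injective_iff_surjective.mp hinj ⟨w, hw⟩
    exact ⟨u, u.2, (congrArg Subtype.val hu).symm⟩
  have hVX : gV ≤ X := (by simpa using v_le_j h (1 : Γ) : gV ≤ J).trans le_sup_right
  have hWK : W ≤ K := by
    have main : ∀ K' : Subgroup ↥X, K'.IsSubnormal → K.subgroupOf X ≤ K' → W ≤ K'.map X.subtype := by
      intro K' hK'
      induction hK' with
      | top => intro _; rw [← MonoidHom.range_eq_map, range_subtype]; exact hWV.trans hVX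
      | step H K' hHK hKsn hn ih =>
        intro hKH w hw
        obtain ⟨u, hu, rfl⟩ := hcomW w hw
        obtain ⟨u', hu', hue⟩ := ih (hKH.trans hHK) hu
        refine ⟨⁅u', ⟨g, hKX hg⟩⁆, ?_, by rw [map_commutatorElement, hue]; rfl⟩
        have hgH : (⟨g, hKX hg⟩ : ↥X) ∈ H := hKH hg
        have hNK : K' ≤ normalizer (H : Set ↥X) := (normal_subgroupOf_iff_le_normalizer hHK).mp hn
        rw [commutatorElement_def]
        exact mul_mem ((mem_normalizer_iff.mp (hNK hu') _).mp hgH) (inv_mem hgH)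
    refine (main _ hsn le_rfl).trans ?_
    rw [subgroupOf_map_subtype]
    exact inf_le_left
  have hWe : IsElementaryAbelian 2 W := H34.isElementaryAbelian_mono (v_elem h) hWV
  have hWQ : W ≤ pCoreOf 2 K := H72.le_pCoreOf hWK hKW (H34.IsPGroup_of_isElementaryAbelian hWe)
  -- the plane is central in the two-core
  set Q := pCoreOf 2 K with hQ
  have hZ : W ≤ centralizer (Q : Set Γ) := by
    have hQW : Q ≤ normalizer (W : Set Γ) := (H72.pCoreOf_le 2 K).trans hKW
    haveI : (W.subgroupOf Q).Normal := normal_subgroupOf_of_le_normalizer hQW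
    have hne : W.subgroupOf Q ≠ ⊥ := by
      intro h0
      have := Nat.card_congr (subgroupOfEquivOfLe hWQ).toEquiv
      rw [h0, card_bot, hW4] at this
      omega
    obtain ⟨s, hs, hs1⟩ : ∃ s ∈ W ⊓ centralizer (Q : Set Γ), s ≠ 1 := by
      by_contra hh
      push Not at hh
      refine H24.inf_center_ne_bot (H72.pCoreOf_isPGroup 2 K) hne ((eq_bot_iff_forall _).mpr fun z hz => ?_)
      exact Subtype.ext (hh z ⟨hz.1, fun q hq => congrArg Subtype.val (mem_center_iff.mp hz.2 ⟨q, hq⟩)⟩)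
    have hfix : ∀ v ∈ W ⊓ centralizer (Q : Set Γ), g * v * g⁻¹ ∈ W ⊓ centralizer (Q : Set Γ) := fun v hv =>
      ⟨(mem_normalizer_iff.mp hgN v).mp hv.1, (mem_normalizer_iff.mp
        (H20.le_normalizer_centralizer (H72.le_normalizer_pCoreOf 2 K) hg) v).mp hv.2⟩
    set U := W ⊓ centralizer (Q : Set Γ) with hU
    have h3 : 3 ≤ Nat.card ↥U := by
      classical
      haveI : Fintype ↥U := Fintype.ofFinite _
      rw [Nat.card_eq_fintype_card]
      refine le_trans ?_ (Finset.card_le_univ ({⟨1, one_mem U⟩, ⟨s, hs⟩, ⟨_, hfix s hs⟩} : Finset ↥U))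
      have hne1 : g * s * g⁻¹ ≠ 1 := fun e => hs1 (conj_eq_one_iff.mp e)
      have hne2 : g * s * g⁻¹ ≠ s := fun e => hs1 (hfpf s hs.1 e)
      rw [Finset.card_insert_of_notMem (by simp [Subtype.ext_iff, Ne.symm hs1, Ne.symm hne1]),
        Finset.card_pair (by simpa [Subtype.ext_iff] using Ne.symm hne2)]
    have hdvd := card_dvd_of_le (inf_le_left : U ≤ W)
    rw [hW4] at hdvd
    have hle := Nat.le_of_dvd (by norm_num) hdvd
    have : U = W := eq_of_le_of_card_ge inf_le_left (by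
      rw [hW4]
      interval_cases hc : Nat.card ↥U <;> omega)
    exact this ▸ inf_le_right
  have hWle : W ≤ wOf K := by
    intro w hw
    obtain ⟨u, hu, rfl⟩ := hcomW w hw
    exact commutator_mem_commutator (H34.mem_omegaOne ⟨hWQ hu, hZ hu⟩ (hWe.2 u hu)) hg
  rw [← eq_of_le_of_card_ge hWle (hcard.trans hW4.symm).le]
  exact hJM.trans hMW

end JC

end Cfsg.Agent.H74
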