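import Cfsg.Agent.H74.JLocal
import Cfsg.Agent.H74.JSubnormal
import Cfsg.Agent.S0540
import Cfsg.Agent.S2945

/-!
Maximal straddling subgroups and the unique maximal two-local overgroup of an outside component.
-/

set_option autoImplicit false

namespace Cfsg.Agent.H74.JB

open Subgroup Cfsg
open scoped commutatorElement Pointwise

variable {G : Type*} [Group G] [Finite G]

/-- Some elementary abelian subgroup realizes `a(X)`. -/
theorem exists_a (X : Subgroup G) :
    ∃ A, A ≤ X ∧ IsElementaryAbelian 2 A ∧ Nat.card A = maxElemAbelianOrder X ∧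
      ∀ B ≤ X, IsElementaryAbelian 2 B → Nat.card B ≤ Nat.card A := by
  obtain ⟨A, ⟨hA1, hA2⟩, hmax⟩ := Set.exists_max_image
    {A : Subgroup G | A ≤ X ∧ IsElementaryAbelian 2 A} (fun A => Nat.card A) (Set.toFinite _) ⟨⊥, bot_le, elem_bot⟩
  refine ⟨A, hA1, hA2, ?_, fun B h1 h2 => hmax B ⟨h1, h2⟩⟩
  have hc : ∀ B : Subgroup ↥X, Nat.card B = Nat.card (B.map X.subtype) := fun B =>
    (card_map_of_injective X.subtype_injective).symm
  have hAX : (A.subgroupOf X).map X.subtype = A := by rw [subgroupOf_map_subtype, inf_eq_left.mpr hA1]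
  have hAe : IsElementaryAbelian 2 (A.subgroupOf X) := by
    haveI := hA2.1
    refine ⟨le_centralizer_iff_isMulCommutative.mp fun x hx y hy =>
      Subtype.ext (setLike_mul_comm (s := A) hy hx), fun a ha => Subtype.ext ?_⟩
    simpa using hA2.2 a ha
  have hmem : A.subgroupOf X ∈ maxElementaryAbelianSubgroups 2 ↥X := by
    refine ⟨hAe, fun B hB => ?_⟩
    rw [hc, hc (A.subgroupOf X), hAX]
    exact hmax _ ⟨map_subtype_le B, H34.isElementaryAbelian_map hB _⟩
  have himg : (fun B : Subgroup ↥X => Nat.card ↥B) '' maxElementaryAbelianSubgroups 2 ↥X = {Nat.card ↥A} := by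
    ext n
    constructor
    · rintro ⟨B, hB, rfl⟩
      rw [Set.mem_singleton_iff]
      refine le_antisymm ?_ ?_
      · show Nat.card ↥B ≤ _
        rw [hc]
        exact hmax _ ⟨map_subtype_le B, H34.isElementaryAbelian_map hB.1 _⟩
      · have h1 := hB.2 _ hAe
        rw [hc (A.subgroupOf X), hAX] at h1
        exact h1
    · rintro rfl
      exact ⟨_, hmem, by show Nat.card ↥(A.subgroupOf X) = _; rw [hc, hAX]⟩
  rw [maxElemAbelianOrder, himg, csSup_singleton]

/-- `a` is monotone. -/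
theorem a_mono {X Y : Subgroup G} (h : X ≤ Y) : maxElemAbelianOrder X ≤ maxElemAbelianOrder Y := by
  obtain ⟨A, hA1, hA2, hA3, -⟩ := exists_a X
  obtain ⟨B, -, -, hB3, hB4⟩ := exists_a Y
  rw [← hA3, ← hB3]
  exact hB4 A (hA1.trans h) hA2

/-- A subgroup containing `J(T)` has at least the same `a`, and, in case of equality, at least `J(T)`. -/
theorem a_le_of_thompson_le {T X : Subgroup G} (h : thompsonSubgroupOf 2 T ≤ X) :
    maxElemAbelianOrder T ≤ maxElemAbelianOrder X ∧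
      (maxElemAbelianOrder X = maxElemAbelianOrder T → thompsonSubgroupOf 2 T ≤ thompsonSubgroupOf 2 X) := by
  obtain ⟨A, hA1, hA2, hA3, hA4⟩ := exists_a T
  obtain ⟨B, -, -, hB3, hB4⟩ := exists_a X
  have hA : A ≤ X := by
    refine le_trans ?_ h
    rw [H34.thompsonSubgroupOf_eq]
    exact le_sSup ⟨hA1, hA2, hA4⟩
  refine ⟨hA3 ▸ hB3 ▸ hB4 A hA hA2, fun he => ?_⟩
  rw [H34.thompsonSubgroupOf_eq, H34.thompsonSubgroupOf_eq]
  refine sSup_le fun C hC => le_sSup ⟨le_trans ?_ h, hC.2.1, fun D hD hD2 => ?_⟩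
  · rw [H34.thompsonSubgroupOf_eq]; exact le_sSup hC
  · have h1 := hC.2.2 A hA1 hA2
    have h2 := hB4 D hD hD2
    omega

variable {M T : Subgroup G}

/-- Maximality of `T` applied to a straddling subgroup containing `J(T)`. -/
theorem max_straddling_eq (hT : T ∈ maxStraddlingTwoSubgroups M) {X : Subgroup G}
    (hX : X ∈ straddlingTwoSubgroups M) (h : thompsonSubgroupOf 2 T ≤ X) :
    thompsonSubgroupOf 2 X = thompsonSubgroupOf 2 T ∧ Nat.card X ≤ Nat.card T := by
  obtain ⟨h1, h2⟩ := hT.2 X hX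
  obtain ⟨h3, h4⟩ := a_le_of_thompson_le h
  have he : maxElemAbelianOrder X = maxElemAbelianOrder T := le_antisymm h1 h3
  obtain ⟨h5, h6⟩ := h2 he
  have hJ : thompsonSubgroupOf 2 T = thompsonSubgroupOf 2 X := eq_of_le_of_card_ge (h4 he) h5
  exact ⟨hJ.symm, h6 (by rw [hJ])⟩

omit [Finite G] in
/-- `J` of a nontrivial finite two-group is nontrivial. -/
theorem thompson_ne_bot [Finite G] {X : Subgroup G} (hX : IsPGroup 2 X) (h1 : X ≠ ⊥) :
    thompsonSubgroupOf 2 X ≠ ⊥ := by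
  haveI : Fact (Nat.Prime 2) := ⟨Nat.prime_two⟩
  intro h0
  haveI := nontrivial_iff_ne_bot X |>.mpr h1
  obtain ⟨z, hz⟩ := exists_prime_orderOf_dvd_card' (G := ↥X) 2
    (hX.card_eq_or_dvd.resolve_left Finite.one_lt_card.ne')
  obtain ⟨A, hA1, hA2, -, hA4⟩ := exists_a X
  have hle : A ≤ thompsonSubgroupOf 2 X := by rw [H34.thompsonSubgroupOf_eq]; exact le_sSup ⟨hA1, hA2, hA4⟩
  rw [h0] at hle
  have hz2 : (z : G) ^ 2 = 1 := by rw [← hz, ← Subgroup.coe_pow, pow_orderOf_eq_one, Subgroup.coe_one]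
  have hze : IsElementaryAbelian 2 (zpowers (z : G)) := ⟨inferInstance, fun a ha => by
    obtain ⟨i, rfl⟩ := mem_zpowers_iff.mp ha
    rw [← zpow_natCast, ← zpow_mul, mul_comm, zpow_mul, zpow_natCast, hz2, one_zpow]⟩
  have h3 := hA4 _ (zpowers_le.mpr z.2) hze
  rw [Nat.card_zpowers, orderOf_coe, hz, le_bot_iff.mp hle, card_bot] at h3
  omega

section

variable (hM : IsTwoLocal M) (S : Sylow 2 G)
  (hMJ : normalizer (thompsonSubgroupOf 2 (S : Subgroup G) : Set G) ≤ M)
  (hT : T ∈ maxStraddlingTwoSubgroups M)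
include hMJ hT

/-- `N(J(T)) ≤ M`. -/
theorem normalizer_j_le : normalizer (thompsonSubgroupOf 2 T : Set G) ≤ M := by
  haveI : Fact (Nat.Prime 2) := ⟨Nat.prime_two⟩
  obtain ⟨hT2, hT1, hTM, -⟩ := hT.1
  set R := normalizer (thompsonSubgroupOf 2 T : Set G) with hR
  by_contra hRM
  have hRloc : IsTwoLocal R := ⟨_, hT2.to_le (H34.thompsonSubgroupOf_le _), thompson_ne_bot hT2 hT1, rfl⟩
  have hTR : T ≤ R := le_normalizer.trans (H34.normalizer_le_normalizer_thompson T)
  -- `T` is a Sylow two-subgroup of `R ∩ M`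
  obtain ⟨T₁, hT₁, hTT₁⟩ := exists_sylowTwoIn_ge hT2 (le_inf hTR hTM : T ≤ R ⊓ M)
  have hT₁s : T₁ ∈ straddlingTwoSubgroups M :=
    ⟨hT₁.2.1, fun h => hT1 (le_bot_iff.mp (h ▸ hTT₁)), hT₁.1.trans inf_le_right, R, hRloc, hT₁.1.trans inf_le_left, hRM⟩
  have hTe : T = T₁ :=
    eq_of_le_of_card_ge hTT₁ (max_straddling_eq hT hT₁s ((H34.thompsonSubgroupOf_le _).trans hTT₁)).2
  -- so it is a Sylow subgroup of `M`
  obtain ⟨T₂, hT₂, hTT₂⟩ := exists_sylowTwoIn_ge hT2 hTM
  have hTe₂ : T = T₂ := by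
    by_contra hne
    have hlt : T < T₂ := lt_of_le_of_ne hTT₂ hne
    obtain ⟨n, hn, hnT⟩ := SetLike.exists_of_lt (H22.lt_inf_normalizer_of_lt hT₂.2.1 hlt)
    have hN2 : IsPGroup 2 ↥(T₂ ⊓ normalizer (T : Set G)) := hT₂.2.1.to_le inf_le_left
    have hle : T₂ ⊓ normalizer (T : Set G) ≤ R ⊓ M :=
      le_inf (inf_le_right.trans (H34.normalizer_le_normalizer_thompson T)) (inf_le_left.trans hT₂.1)
    obtain ⟨l, hl, hle'⟩ := exists_le_conj hT₁ hN2 hle
    have hc : Nat.card ↥(T₂ ⊓ normalizer (T : Set G)) ≤ Nat.card T := by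
      refine (card_le_of_le hle').trans (le_of_eq ?_)
      rw [card_map_of_injective (MulAut.conj l).injective, ← hTe]
    exact hnT ((eq_of_le_of_card_ge (le_inf hTT₂ le_normalizer) hc).ge hn)
  rw [← hTe₂] at hT₂
  have hSM : (S : Subgroup G) ≤ M := (le_normalizer.trans (H34.normalizer_le_normalizer_thompson _)).trans hMJ
  obtain ⟨m, hm, hSm⟩ := exists_le_conj hT₂ S.isPGroup' hSM
  have hSe : T.map (MulAut.conj m).toMonoidHom = (S : Subgroup G) :=
    S.is_maximal' (hT2.map _) hSm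
  refine hRM fun x hx => ?_
  have h1 : MulAut.conj m x ∈ M := hMJ (by
    rw [← hSe, ← H34.map_thompsonSubgroupOf]
    exact le_normalizer_map (MulAut.conj m).toMonoidHom ⟨x, hx, rfl⟩)
  have := mul_mem (mul_mem (inv_mem hm) h1) hm
  simpa [mul_assoc] using this

variable {L T₀ : Subgroup G} (hZN : ZN G) (hL2 : IsTwoLocal L) (hLM : ¬ L ≤ M) (hT₀ : IsSylowTwoIn T₀ L)
  (hJT₀ : thompsonSubgroupOf 2 T ≤ T₀)
include hZN hL2 hLM hT₀ hJT₀

/-- A two-local overgroup outside `M`. -/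
theorem straddle_overgroup :
    thompsonSubgroupOf 2 T₀ = thompsonSubgroupOf 2 T ∧ T₀ ∈ straddlingTwoSubgroups M ∧ L ∈ jOvergroups T₀ ∧
      (T ≤ L → L ∈ jOvergroups T ∧ ∃ K : Subgroup G, IsJComponent T K ∧ K ≤ L) := by
  haveI : Fact (Nat.Prime 2) := ⟨Nat.prime_two⟩
  obtain ⟨hT2, hT1, hTM, -⟩ := hT.1
  set J := thompsonSubgroupOf 2 T with hJ
  have hJ1 : J ≠ ⊥ := thompson_ne_bot hT2 hT1
  have hJN := normalizer_j_le S hMJ hT
  have key : ∀ T' : Subgroup G, IsSylowTwoIn T' L → J ≤ T' →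
      thompsonSubgroupOf 2 T' = J ∧ T' ∈ straddlingTwoSubgroups M ∧ L ∈ jOvergroups T' := by
    intro T' hT' hJT'
    set T₁ := T' ⊓ M with hT₁def
    have hJT₁ : J ≤ T₁ := le_inf hJT' ((H34.thompsonSubgroupOf_le _).trans hTM)
    have hs : T₁ ∈ straddlingTwoSubgroups M := ⟨hT'.2.1.to_le inf_le_left, fun h => hJ1 (le_bot_iff.mp (h ▸ hJT₁)),
      inf_le_right, L, hL2, inf_le_left.trans hT'.1, hLM⟩
    have hJ₁ := (max_straddling_eq hT hs hJT₁).1
    have hle : T' ≤ M := by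
      by_contra hnle
      have hlt : T₁ < T' := lt_of_le_of_ne inf_le_left fun h => hnle (h ▸ inf_le_right)
      obtain ⟨n, hn, hnT⟩ := SetLike.exists_of_lt (H22.lt_inf_normalizer_of_lt hT'.2.1 hlt)
      exact hnT ⟨hn.1, hJN (hJ₁ ▸ H34.normalizer_le_normalizer_thompson T₁ hn.2)⟩
    have hs' : T' ∈ straddlingTwoSubgroups M :=
      ⟨hT'.2.1, fun h => hJ1 (le_bot_iff.mp (h ▸ hJT')), hle, L, hL2, hT'.1, hLM⟩
    have hJ' := (max_straddling_eq hT hs' hJT').1
    obtain ⟨D, hD, hD1, rfl⟩ := hL2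
    have hDle : D ≤ pCoreOf 2 (normalizer (D : Set G)) := H72.le_pCoreOf le_normalizer le_rfl hD
    refine ⟨hJ', hs', hT', ?_, fun x hx => ?_⟩
    · intro hle2
      refine hLM ((H72.le_normalizer_pCoreOf 2 _).trans ?_)
      obtain ⟨P, hP⟩ := exists_sylow_map hT'
      have hOT : pCoreOf 2 (normalizer (D : Set G)) ≤ T' := hP ▸ map_mono (H19.pCore_le_sylow P)
      refine (H34.normalizer_le_normalizer_thompson (p := 2) _).trans ?_
      rw [H34.thompsonSubgroupOf_eq_of_le hle2 hOT, hJ']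
      exact hJN
    · have hxN : x ∈ normalizer (D : Set G) := centralizer_le_normalizer _ (centralizer_le hDle hx)
      exact H72.mem_pCoreOf.mpr ⟨hxN, hZN.char.2 _ hD hD1
        fun y hy => Subtype.ext (hx (y : G) ⟨y, hy, rfl⟩)⟩
  obtain ⟨h1, h2, h3⟩ := key T₀ hT₀ hJT₀
  refine ⟨h1, h2, h3, fun hTL => ?_⟩
  obtain ⟨T', hT', hTT'⟩ := exists_sylowTwoIn_ge hT2 hTL
  obtain ⟨-, hs', h3'⟩ := key T' hT' ((H34.thompsonSubgroupOf_le _).trans hTT')
  have hTe : T = T' := eq_of_le_of_card_ge hTT' (max_straddling_eq hT hs' ((H34.thompsonSubgroupOf_le _).trans hTT')).2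
  rw [← hTe] at h3'
  refine ⟨h3', ?_⟩
  obtain ⟨P, hP⟩ := exists_sylow_map h3'.1
  have h := jHyp hZN hT1 h3' hP
  obtain ⟨A, hA⟩ : ∃ A, H34.IsTransvectionGroup 2 (H34.holV (H34.omegaZ 2 ↥L)).range
      ((thompsonSubgroup 2 ↥L).map (H34.holHom (H34.omegaZ 2 ↥L))) A := by
    by_contra hno
    push Not at hno
    have S' := JC.setup h
    have hbot : (thompsonSubgroup 2 ↥L).map (H34.holHom (H34.omegaZ 2 ↥L)) = ⊥ :=
      le_bot_iff.mp ((S'.le_sSup_transvections (JC.gen h)).trans (sSup_le fun B hB => absurd hB (hno B)))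
    rw [Subgroup.map_eq_bot_iff, H34.holHom_ker] at hbot
    exact h.nle (JC.two_le_o h (P.isPGroup'.to_le (H34.thompsonSubgroupOf_le _))
      ((by simpa using JC.j_le_m (T := P) 1 : thompsonSubgroupOf 2 (P : Subgroup ↥L) ≤ thompsonSubgroup 2 ↥L).trans hbot))
  obtain ⟨K, hK, -, -⟩ := JC.comp_exists h hA
  exact ⟨_, isJComponent_of hZN hT1 h3' hP hK, map_subtype_le _⟩

end

variable (hZN : ZN G) (S : Sylow 2 G) (hMJ : normalizer (thompsonSubgroupOf 2 (S : Subgroup G) : Set G) ≤ M)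
  (hT : T ∈ maxStraddlingTwoSubgroups M)
include hZN hMJ hT

/-- A component outside `M` lies in the subfamily `Zero`. -/
theorem zero_of_outside {K : Subgroup G} (hK : IsJComponent T K) (hKM : ¬ K ≤ M) : K ∈ jComponentsZero T := by
  refine ⟨hK, fun S₁ hJS hS₁ => ?_⟩
  obtain ⟨hW2, hW1, -, hN⟩ := wOf_facts hK
  exact (straddle_overgroup S hMJ hT hZN ⟨_, hW2, hW1, rfl⟩
    (fun hle => hKM ((le_sup_left.trans hN).trans hle)) hS₁ hJS).1

/-- An overgroup of a maximal straddling subgroup contains a component outside `M`. -/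
theorem exists_outside {L : Subgroup G} (hL2 : IsTwoLocal L) (hLM : ¬ L ≤ M) (hTL : T ≤ L) :
    ∃ K, K ∈ jComponentsOutside M T ∧ K ≤ L := by
  haveI : Fact (Nat.Prime 2) := ⟨Nat.prime_two⟩
  obtain ⟨hT2, hT1, hTM, -⟩ := hT.1
  obtain ⟨T', hT', hTT'⟩ := exists_sylowTwoIn_ge hT2 hTL
  obtain ⟨-, -, -, hc⟩ := straddle_overgroup S hMJ hT hZN hL2 hLM hT' ((H34.thompsonSubgroupOf_le _).trans hTT')
  obtain ⟨hLT, -⟩ := hc hTL
  obtain ⟨P, hP⟩ := exists_sylow_map hLT.1
  have h := jHyp hZN hT1 hLT hP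
  obtain ⟨K, hK, hKM⟩ : ∃ K, JC.IsComp P K ∧ ¬ K.map L.subtype ≤ M := by
    by_contra hno
    push Not at hno
    refine hLM fun x hx => ?_
    have hJN := normalizer_j_le S hMJ hT
    have hle : (thompsonSubgroup 2 ↥L).map L.subtype ≤ M := by
      refine (map_mono (JC.gm_le h)).trans ?_
      rw [Subgroup.map_sup, Subgroup.map_sup, Subgroup.map_iSup]
      refine sup_le (sup_le ?_ (iSup_le fun K => hno K.1 K.2)) ?_
      · rw [map_thompson, hP]
        exact (H34.thompsonSubgroupOf_le _).trans hTM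
      · refine ((map_mono ((JC.c_le_normalizer h).trans (H34.normalizer_le_normalizer_thompson (p := 2) _))).trans
          (le_normalizer_map L.subtype)).trans ?_
        rw [map_thompson, hP]
        exact hJN
    obtain ⟨m, hm, hJm⟩ := JC.conj_j h (⟨x, hx⟩ : ↥L)
    rw [Sylow.coe_subgroup_smul] at hJm
    set J := thompsonSubgroupOf 2 T with hJ
    have hn : (m : G)⁻¹ * x ∈ normalizer (J : Set G) := by
      have e1 : thompsonSubgroupOf 2 (T.map (MulAut.conj x).toMonoidHom) = J.map (MulAut.conj (m : G)).toMonoidHom := by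
        have eT : T.map (MulAut.conj x).toMonoidHom = Subgroup.map L.subtype
            (MulAut.conj (⟨x, hx⟩ : ↥L) • (P : Subgroup ↥L)) := by
          rw [← hP, map_map]
          show _ = ((P : Subgroup ↥L).map (MulAut.conj (⟨x, hx⟩ : ↥L)).toMonoidHom).map L.subtype
          rw [map_map]
          rfl
        rw [eT, ← map_thompson, hJm, hJ, ← hP, ← map_thompson, map_map, map_map]
        rfl
      rw [← H34.map_thompsonSubgroupOf] at e1
      rw [mem_normalizer_iff_map_conj_eq]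
      calc J.map (MulAut.conj ((m : G)⁻¹ * x) : G →* G)
          = (J.map (MulAut.conj x).toMonoidHom).map (MulAut.conj (m : G)⁻¹).toMonoidHom := by
            rw [map_map]; congr 1; ext y; simp [mul_assoc]
        _ = (J.map (MulAut.conj (m : G)).toMonoidHom).map (MulAut.conj (m : G)⁻¹).toMonoidHom := by rw [e1]
        _ = J.map (MonoidHom.id G) := by rw [map_map]; congr 1; ext y; simp [mul_assoc]
        _ = J := map_id J
    have := mul_mem (hle ⟨m, hm, rfl⟩) (hJN hn)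
    simpa using this
  have hKc := isJComponent_of hZN hT1 hLT hP hK
  refine ⟨_, ⟨zero_of_outside hZN S hMJ hT hKc hKM, hKM, fun h0 => (overgroup_facts hT1 hLT).1 ?_⟩, map_subtype_le _⟩
  rw [eq_bot_iff, ← h0]
  exact H72.le_pCoreOf ((overgroup_facts hT1 hLT).2.1.trans le_sup_right)
    ((sup_le (map_subtype_le K) hTL).trans (H72.le_normalizer_pCoreOf 2 L)) (H72.pCoreOf_isPGroup 2 L)

omit [Finite G] hZN hMJ hT in
/-- Subnormality passes to intermediate subgroups. -/
theorem subnormal_restrict {B D V : Subgroup G} (hDV : D ≤ V) (h : (B.subgroupOf V).IsSubnormal) :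
    (B.subgroupOf D).IsSubnormal := by
  have h1 := (h.subgroupOf (K := D.subgroupOf V)).map (f := (subgroupOfEquivOfLe hDV).toMonoidHom)
    (MulEquiv.surjective _)
  convert h1 using 1
  ext z
  constructor
  · intro hz
    exact ⟨(subgroupOfEquivOfLe hDV).symm z, hz, MulEquiv.apply_symm_apply _ z⟩
  · rintro ⟨y, hy, rfl⟩
    exact hy

/-- The unique maximal two-local overgroup. -/
theorem unique_local {K : Subgroup G} (hK : K ∈ jComponentsOutside M T) :
    ∃ L : Subgroup G, IsMaximalTwoLocal L ∧ K ⊔ thompsonSubgroupOf 2 T ≤ L ∧ ¬ L ≤ M ∧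
      (∀ V : Subgroup G, IsTwoLocal V → K ⊔ thompsonSubgroupOf 2 T ≤ V → V ≤ L) ∧
      (K.subgroupOf L).IsSubnormal ∧ IsSylowTwoIn T L ∧ L ∈ jOvergroups T := by
  haveI : Fact (Nat.Prime 2) := ⟨Nat.prime_two⟩
  obtain ⟨hT2, hT1, hTM, -⟩ := hT.1
  obtain ⟨hK0, hKM, hOne⟩ := hK
  set J := thompsonSubgroupOf 2 T with hJ
  have hJ2 : IsPGroup 2 J := hT2.to_le (H34.thompsonSubgroupOf_le _)
  let U : Set (Subgroup G) := {V | IsTwoLocal V ∧ K ⊔ J ≤ V}
  let SS : Subgroup G → Set (Subgroup G) := fun V =>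
    {B | (∃ g : G, B = MulAut.conj g • K) ∧ B ≤ V ∧ (B.subgroupOf V).IsSubnormal}
  have hVfacts : ∀ V ∈ U, ∃ T₀ : Subgroup G, T₀ ≠ ⊥ ∧ IsPGroup 2 T₀ ∧ thompsonSubgroupOf 2 T₀ = J ∧ V ∈ jOvergroups T₀ := by
    intro V hV
    obtain ⟨T₀, hT₀, hJT₀⟩ := exists_sylowTwoIn_ge hJ2 (le_sup_right.trans hV.2)
    obtain ⟨h1, h2, h3, -⟩ := straddle_overgroup S hMJ hT hZN hV.1
      (fun hle => hKM ((le_sup_left.trans hV.2).trans hle)) hT₀ hJT₀
    exact ⟨T₀, h2.2.1, h2.1, h1, h3⟩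
  have hcompT₀ : ∀ {B T₀ : Subgroup G}, thompsonSubgroupOf 2 T₀ = J → IsJComponent T B → IsJComponent T₀ B := by
    intro B T₀ he hB
    obtain ⟨a, b, c, d, e⟩ := hB
    exact ⟨a, by rw [he]; exact b, c, by rw [he]; exact d, e⟩
  have h1 : ∀ V ∈ U, K ∈ SS V := by
    intro V hV
    obtain ⟨T₀, h01, -, h03, h04⟩ := hVfacts V hV
    exact ⟨⟨1, by rw [map_one, one_smul]⟩, le_sup_left.trans hV.2,
      comp_subnormal hZN h01 h04 (hcompT₀ h03 hK0.1) (le_sup_left.trans hV.2)⟩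
  have hcomp : ∀ V ∈ U, ∀ W ∈ U, ∀ B ∈ SS W, B ≤ V → ∀ T₀ : Subgroup G, T₀ ≠ ⊥ → IsPGroup 2 T₀ →
      thompsonSubgroupOf 2 T₀ = J → V ∈ jOvergroups T₀ → IsJComponent T₀ B := by
    intro V hV W hW B hB hBV T₀ h01 h02 h03 h04
    obtain ⟨g, hg⟩ := hB.1
    have hBJW : B ⊔ J ≤ W := sup_le hB.2.1 (le_sup_right.trans hW.2)
    have hsn : (B.subgroupOf (B ⊔ thompsonSubgroupOf 2 T₀)).IsSubnormal := by
      rw [h03]; exact subnormal_restrict hBJW hB.2.2
    -- `B` is in the subfamily for a conjugate of `T₀`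
    obtain ⟨P, hP⟩ := exists_sylow_map h04.1
    have h := jHyp hZN h01 h04 hP
    have hBg : B = K.map (MulAut.conj g).toMonoidHom := by rw [hg, Subgroup.pointwise_smul_def]; rfl
    have hB' : B ∈ jComponentsZero (T₀.map (MulAut.conj g).toMonoidHom) := by
      have hJg : thompsonSubgroupOf 2 (T₀.map (MulAut.conj g).toMonoidHom) = J.map (MulAut.conj g).toMonoidHom := by
        rw [← H34.map_thompsonSubgroupOf, h03]
      have hTg : thompsonSubgroupOf 2 (T.map (MulAut.conj g).toMonoidHom) = J.map (MulAut.conj g).toMonoidHom := by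
        rw [← H34.map_thompsonSubgroupOf]
      have hinj : Function.Injective (MulAut.conj g).toMonoidHom := (MulAut.conj g).injective
      have hW : wOf B = (wOf K).map (MulAut.conj g).toMonoidHom := by rw [hBg, map_wOf hinj]
      refine ⟨⟨?_, ?_, ?_, ?_, ?_, ?_⟩, ?_⟩
      · rw [hBg]
        conv_rhs => rw [← hK0.1.1, MonoidHom.map_closure]
        congr 1
        ext z
        constructor
        · rintro ⟨⟨a, ha, rfl⟩, ho⟩
          exact ⟨a, ⟨ha, (orderOf_injective _ hinj a) ▸ ho⟩, rfl⟩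
        · rintro ⟨a, ⟨ha, ho⟩, rfl⟩
          exact ⟨⟨a, ha, rfl⟩, (orderOf_injective _ hinj a).symm ▸ ho⟩
      · rw [hJg, hBg, ← map_commutator, hK0.1.2.1]
      · rw [hBg, ← map_pCoreOf hinj, relIndex_map_map_of_injective _ _ hinj]
        exact hK0.1.2.2.1
      · intro S₁ hS₁ hJS₁
        rw [hJg] at hS₁ hJS₁ ⊢
        set e := MulAut.conj g with he
        have hback : ∀ X : Subgroup G, (X.map e.toMonoidHom).map e.symm.toMonoidHom = X := fun X => by
          rw [map_map]; conv_rhs => rw [← map_id X]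
          congr 1; ext y; simp
        have hfwd : ∀ X : Subgroup G, (X.map e.symm.toMonoidHom).map e.toMonoidHom = X := fun X => by
          rw [map_map]; conv_rhs => rw [← map_id X]
          congr 1; ext y; simp
        have h5 : IsSylowTwoIn (S₁.map e.symm.toMonoidHom) (K ⊔ J) := by
          have hXe : K ⊔ J = (B ⊔ J.map e.toMonoidHom).map e.symm.toMonoidHom := by
            rw [hBg, ← Subgroup.map_sup, hback]
          rw [hXe]
          refine ⟨map_mono hS₁.1, hS₁.2.1.map _, ?_⟩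
          rw [relIndex_map_map_of_injective _ _ e.symm.injective]
          exact hS₁.2.2
        have h6 := hK0.1.2.2.2.1 _ h5 (show J ≤ _ from (hback J).ge.trans (map_mono hJS₁))
        rw [← H34.map_thompsonSubgroupOf] at h6
        rw [← hfwd (thompsonSubgroupOf 2 S₁), h6]
      · rw [hW, card_map_of_injective hinj]; exact hK0.1.2.2.2.2.1
      · rw [hW]
        rintro _ ⟨w, hw, rfl⟩
        rw [← map_mul, hK0.1.2.2.2.2.2 w hw, map_one]
      · intro S₁ hJS₁ hS₁
        rw [hJg] at hJS₁ ⊢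
        set e := MulAut.conj g with he
        have hfwd : ∀ X : Subgroup G, (X.map e.symm.toMonoidHom).map e.toMonoidHom = X := fun X => by
          rw [map_map]; conv_rhs => rw [← map_id X]
          congr 1; ext y; simp
        have hback : ∀ X : Subgroup G, (X.map e.toMonoidHom).map e.symm.toMonoidHom = X := fun X => by
          rw [map_map]; conv_rhs => rw [← map_id X]
          congr 1; ext y; simp
        have hNe : normalizer (wOf B : Set G) = (normalizer (wOf K : Set G)).map e.toMonoidHom := by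
          rw [hW]
          exact (Subgroup.map_normalizer_eq_of_bijective _ (f := e.toMonoidHom) e.bijective).symm
        have h5 : IsSylowTwoIn (S₁.map e.symm.toMonoidHom) (normalizer (wOf K : Set G)) := by
          rw [← hback (normalizer (wOf K : Set G)), ← hNe]
          refine ⟨map_mono hS₁.1, hS₁.2.1.map _, ?_⟩
          rw [relIndex_map_map_of_injective _ _ e.symm.injective]
          exact hS₁.2.2
        have h6 := hK0.2 _ (show J ≤ _ from (hback J).ge.trans (map_mono hJS₁)) h5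
        rw [← H34.map_thompsonSubgroupOf] at h6
        rw [← hfwd (thompsonSubgroupOf 2 S₁), h6]
    exact S2945.result hZN.char hZN.solv hZN.zn T₀ h02 h01 V h04 B hBV hsn g hB'
  have h2 : ∀ V ∈ U, ∀ W ∈ U, ∀ B ∈ SS W, B ≤ V → B ∈ SS V := by
    intro V hV W hW B hB hBV
    obtain ⟨T₀, h01, h02, h03, h04⟩ := hVfacts V hV
    exact ⟨hB.1, hBV, comp_subnormal hZN h01 h04 (hcomp V hV W hW B hB hBV T₀ h01 h02 h03 h04) hBV⟩
  have h3 : ∀ V ∈ U, ∀ W ∈ U, ∃ X ∈ U, normalizer ((sSup (SS V ∩ SS W) : Subgroup G) : Set G) ≤ X := by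
    intro V hV W hW
    obtain ⟨T₀, h01, h02, h03, h04⟩ := hVfacts V hV
    set D := sSup (SS V ∩ SS W) with hD
    have hKD : K ≤ D := le_sSup ⟨h1 V hV, h1 W hW⟩
    have hDV : D ≤ V := sSup_le fun B hB => hB.1.2.1
    have hJD : J ≤ normalizer (D : Set G) := by
      intro j hj
      refine mem_normalizer_of_conj_mem fun d hd => ?_
      have hle : D ≤ D.comap (MulAut.conj j).toMonoidHom := by
        refine sSup_le fun B hB => ?_
        have hBc := hcomp V hV V hV B hB.1 hB.1.2.1 T₀ h01 h02 h03 h04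
        have hn : J ≤ normalizer (B : Set G) := by
          have h5 := normalizer_commutator_ge_right (H₁ := B) (H₂ := thompsonSubgroupOf 2 T₀)
          rw [hBc.2.1, h03] at h5
          exact h5
        intro b hb
        exact (le_sSup hB : B ≤ D) ((mem_normalizer_iff.mp (hn hj) b).mp hb)
      exact hle hd
    have hO : pCoreOf 2 D ≠ ⊥ := by
      obtain ⟨hW2, hW1, hWQ, -⟩ := wOf_facts hK0.1
      intro h0
      refine hW1 (le_bot_iff.mp (h0 ▸ ?_))
      have hsn : (K.subgroupOf D).IsSubnormal := subnormal_restrict hDV (h1 V hV).2.2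
      have hQ : (pCoreOf 2 K).subgroupOf D ≤ pCore 2 ↥D := by
        refine H72.le_pCore_of_isSubnormal ?_ ((H72.pCoreOf_isPGroup 2 K).comap_of_injective _ D.subtype_injective)
        have hn : (((pCoreOf 2 K).subgroupOf D).subgroupOf (K.subgroupOf D)).Normal :=
          normal_subgroupOf_of_le_normalizer fun x hx => mem_normalizer_iff.mpr fun y => by
            simpa [mem_subgroupOf] using mem_normalizer_iff.mp (H72.le_normalizer_pCoreOf 2 K hx) (y : G)
        have hle : (pCoreOf 2 K).subgroupOf D ≤ K.subgroupOf D := comap_mono (H72.pCoreOf_le 2 K)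
        rw [← inf_eq_left.mpr hle, ← subgroupOf_map_subtype]
        exact hn.isSubnormal.trans' hsn
      intro w hw
      exact ⟨⟨w, hKD (H72.pCoreOf_le 2 K (hWQ hw))⟩, hQ (hWQ hw), rfl⟩
    refine ⟨normalizer (pCoreOf 2 D : Set G), ⟨⟨_, H72.pCoreOf_isPGroup 2 D, hO, rfl⟩, ?_⟩, ?_⟩
    · refine sup_le (hKD.trans (H72.le_normalizer_pCoreOf 2 D)) (hJD.trans ?_)
      intro x hx
      rw [mem_normalizer_iff_map_conj_eq] at hx ⊢
      exact (map_pCoreOf (MulAut.conj x).injective D).trans (congrArg (pCoreOf 2) hx)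
    · intro x hx
      rw [mem_normalizer_iff_map_conj_eq] at hx ⊢
      exact (map_pCoreOf (MulAut.conj x).injective D).trans (congrArg (pCoreOf 2) hx)
  have hUne : U.Nonempty := by
    obtain ⟨hW2, hW1, -, hN⟩ := wOf_facts hK0.1
    exact ⟨_, ⟨_, hW2, hW1, rfl⟩, hN⟩
  obtain ⟨L, hLU, hLmax⟩ := S0540.result K U hUne SS (fun V B => Iff.rfl) h1 h2 h3
  have hLM : ¬ L ≤ M := fun hle => hKM ((le_sup_left.trans hLU.2).trans hle)
  have hTL : T ≤ L := by
    have hKT : K ⊔ T ≤ normalizer (pCoreOf 2 (K ⊔ T) : Set G) := H72.le_normalizer_pCoreOf 2 _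
    refine le_trans ?_ (hLmax _ ⟨⟨_, H72.pCoreOf_isPGroup 2 _, hOne, rfl⟩,
      (sup_le le_sup_left ((H34.thompsonSubgroupOf_le _).trans le_sup_right) : K ⊔ J ≤ K ⊔ T).trans hKT⟩)
    exact le_sup_right.trans hKT
  obtain ⟨T', hT', hTT'⟩ := exists_sylowTwoIn_ge hT2 hTL
  obtain ⟨-, -, -, hc⟩ := straddle_overgroup S hMJ hT hZN hLU.1 hLM hT' ((H34.thompsonSubgroupOf_le _).trans hTT')
  obtain ⟨hLT, -⟩ := hc hTL
  refine ⟨L, ⟨hLU.1, fun N hN hLN => le_antisymm (hLmax N ⟨hN, hLU.2.trans hLN⟩) hLN⟩, hLU.2, hLM,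
    fun V hV hle => hLmax V ⟨hV, hle⟩, (h1 L hLU).2.2, hLT.1, hLT⟩

end Cfsg.Agent.H74.JB
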