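import Cfsg.Prelude.Def_Classical
import Cfsg.Agent.H74.GaloisSmall
import Cfsg.Agent.H74.SixtyFour
import Cfsg.Agent.H3.Isotropic
import Cfsg.Agent.S0243
import Cfsg.Agent.S0280

/-!
Faithful copies of the two sets of relations in `PSL₃(4)` and `PSU₃(4)`.
-/

set_option autoImplicit false
set_option maxHeartbeats 2000000

open Matrix

namespace Cfsg.Agent.H74.Sixty

open Gal

abbrev SL34 := Matrix.SpecialLinearGroup (Fin 3) K4
abbrev SL316 := Matrix.SpecialLinearGroup (Fin 3) K16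

/-- Element of `K4` by number. -/
def k4 (n : Fin 4) : K4 := ⟨n⟩

/-- Upper unitriangular matrices. -/
def uMat (a b e : K4) : SL34 := ⟨!![1, a, e; 0, 1, b; 0, 0, 1], by simp [Matrix.det_fin_three]⟩

def xL : Fin 4 → SL34 :=
  ![uMat (k4 1) 0 0, uMat (k4 2) 0 0, uMat 0 (k4 1) 0, uMat 0 (k4 2) 0]

def cL : SL34 := uMat 0 0 (k4 1)
def dL : SL34 := uMat 0 0 (k4 3)
def witL : SL34 := ⟨!![1, 0, 0; 0, 1, 0; 1, 0, 1], by simp [Matrix.det_fin_three]⟩

lemma relsL : Rels false xL cL dL := by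
  refine ⟨?_, ?_, ?_, ?_, ?_, ?_, ?_, ?_, ?_, ?_, ?_, ?_, ?_, ?_, ?_⟩ <;> decide +kernel

lemma witL_c : witL * cL ≠ cL * witL := by decide +kernel
lemma witL_d : witL * dL ≠ dL * witL := by decide +kernel
lemma witL_cd : witL * (cL⁻¹ * dL) ≠ cL⁻¹ * dL * witL := by decide +kernel

/-- Element of `K16` by number. -/
def k16 (n : Fin 16) : K16 := ⟨n⟩

/-- A matrix from numbers. -/
def wMat (a b c d e f g h i : Fin 16) : Matrix (Fin 3) (Fin 3) K16 :=
  !![k16 a, k16 b, k16 c; k16 d, k16 e, k16 f; k16 g, k16 h, k16 i]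

def xU0 : SL316 := ⟨wMat 3 2 1 2 3 1 1 1 1, by rw [Matrix.det_fin_three]; decide +kernel⟩
def xU1 : SL316 := ⟨wMat 11 10 7 10 11 7 7 7 1, by rw [Matrix.det_fin_three]; decide +kernel⟩
def xU2 : SL316 := ⟨wMat 11 10 2 10 11 2 3 3 1, by rw [Matrix.det_fin_three]; decide +kernel⟩
def xU3 : SL316 := ⟨wMat 9 8 14 8 9 14 9 9 1, by rw [Matrix.det_fin_three]; decide +kernel⟩
def cU : SL316 := ⟨wMat 0 1 0 1 0 0 0 0 1, by rw [Matrix.det_fin_three]; decide +kernel⟩
def dU : SL316 := ⟨wMat 7 6 0 6 7 0 0 0 1, by rw [Matrix.det_fin_three]; decide +kernel⟩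

lemma frob : ∀ a b : K16, (a + b) ^ 4 = a ^ 4 + b ^ 4 := by decide +kernel

/-- The orthonormality conditions on columns suffice. -/
lemma mem_SU_of_cols (g : SL316)
    (h : ∀ j k : Fin 3, (g : Matrix (Fin 3) (Fin 3) K16) 0 j * (g : Matrix (Fin 3) (Fin 3) K16) 0 k ^ 4
      + (g : Matrix (Fin 3) (Fin 3) K16) 1 j * (g : Matrix (Fin 3) (Fin 3) K16) 1 k ^ 4
      + (g : Matrix (Fin 3) (Fin 3) K16) 2 j * (g : Matrix (Fin 3) (Fin 3) K16) 2 k ^ 4 =
        if j = k then 1 else 0) :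
    g ∈ Cfsg.SU 3 K16 4 := by
  intro u v
  show Cfsg.hermForm 3 K16 4 ((g : Matrix (Fin 3) (Fin 3) K16) *ᵥ u)
    ((g : Matrix (Fin 3) (Fin 3) K16) *ᵥ v) = Cfsg.hermForm 3 K16 4 u v
  set M := (g : Matrix (Fin 3) (Fin 3) K16)
  have h00 := h 0 0
  have h01 := h 0 1
  have h02 := h 0 2
  have h10 := h 1 0
  have h11 := h 1 1
  have h12 := h 1 2
  have h20 := h 2 0
  have h21 := h 2 1
  have h22 := h 2 2
  simp only [show ((0 : Fin 3) = 1) = False by simp, show ((0 : Fin 3) = 2) = False by simp,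
    show ((1 : Fin 3) = 0) = False by simp, show ((1 : Fin 3) = 2) = False by simp,
    show ((2 : Fin 3) = 0) = False by simp, show ((2 : Fin 3) = 1) = False by simp,
    if_true, if_false] at h00 h01 h02 h10 h11 h12 h20 h21 h22
  simp only [Cfsg.hermForm, Matrix.mulVec, dotProduct, Fin.sum_univ_three, frob, mul_pow]
  linear_combination (u 0 * v 0 ^ 4) * h00 + (u 0 * v 1 ^ 4) * h01 + (u 0 * v 2 ^ 4) * h02 +
    (u 1 * v 0 ^ 4) * h10 + (u 1 * v 1 ^ 4) * h11 + (u 1 * v 2 ^ 4) * h12 +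
    (u 2 * v 0 ^ 4) * h20 + (u 2 * v 1 ^ 4) * h21 + (u 2 * v 2 ^ 4) * h22

lemma memU0 : xU0 ∈ Cfsg.SU 3 K16 4 := mem_SU_of_cols _ (by decide +kernel)
lemma memU1 : xU1 ∈ Cfsg.SU 3 K16 4 := mem_SU_of_cols _ (by decide +kernel)
lemma memU2 : xU2 ∈ Cfsg.SU 3 K16 4 := mem_SU_of_cols _ (by decide +kernel)
lemma memU3 : xU3 ∈ Cfsg.SU 3 K16 4 := mem_SU_of_cols _ (by decide +kernel)
lemma memUc : cU ∈ Cfsg.SU 3 K16 4 := mem_SU_of_cols _ (by decide +kernel)
lemma memUd : dU ∈ Cfsg.SU 3 K16 4 := mem_SU_of_cols _ (by decide +kernel)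

lemma relsU0 : Rels true ![xU0, xU1, xU2, xU3] cU dU := by
  refine ⟨?_, ?_, ?_, ?_, ?_, ?_, ?_, ?_, ?_, ?_, ?_, ?_, ?_, ?_, ?_⟩ <;> decide +kernel

lemma cU_ne : cU ≠ 1 := by decide +kernel
lemma dU_ne : dU ≠ 1 := by decide +kernel
lemma cdU_ne : cU ≠ dU := by decide +kernel

theorem psl_iso {T : Type*} [Group T] [Finite T] {x : Fin 4 → T} {c d : T}
    (h : Rels false x c d) (hgen : Subgroup.closure (gens x c d) = ⊤) (hT : Nat.card T = 64)
    (hZ : ∀ z ∈ Subgroup.center T, z = 1 ∨ z = c ∨ z = d ∨ z = c * d)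
    (P : Sylow 2 (Matrix.ProjectiveSpecialLinearGroup (Fin 3) K4)) :
    Nonempty (T ≃* ↥(P : Subgroup (Matrix.ProjectiveSpecialLinearGroup (Fin 3) K4))) := by
  let π := QuotientGroup.mk' (Subgroup.center SL34)
  have k := relsL.map π
  have ne1 : ∀ g : SL34, witL * g ≠ g * witL → π g ≠ 1 := fun g hg e => hg
    (Subgroup.mem_center_iff.1 ((QuotientGroup.eq_one_iff g).1 e) witL)
  have hcard : Nat.card (Matrix.ProjectiveSpecialLinearGroup (Fin 3) K4) = 2 ^ 6 * 315 := by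
    have h := Cfsg.Agent.S0243.result K4.card 3 (by norm_num)
    rw [show (∏ i : Fin 3, (4 ^ 3 - 4 ^ (i : ℕ))) = 181440 by decide,
      show Nat.gcd 3 (4 - 1) = 3 by decide] at h
    show Nat.card (Matrix.ProjectiveSpecialLinearGroup (Fin 3) K4) = 20160
    omega
  refine iso_sylow h hgen hT hZ k (ne1 _ witL_c) (ne1 _ witL_d) (fun e => ?_) 315 hcard
    (by norm_num) P
  refine ne1 _ witL_cd ?_
  rw [map_mul, map_inv, ← e, inv_mul_cancel]

theorem psu_iso {T : Type*} [Group T] [Finite T] {x : Fin 4 → T} {c d : T}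
    (h : Rels true x c d) (hgen : Subgroup.closure (gens x c d) = ⊤) (hT : Nat.card T = 64)
    (hZ : ∀ z ∈ Subgroup.center T, z = 1 ∨ z = c ∨ z = d ∨ z = c * d)
    (P : Sylow 2 (Cfsg.PSU 3 K16 4)) :
    Nonempty (T ≃* ↥(P : Subgroup (Cfsg.PSU 3 K16 4))) := by
  have hF : Fintype.card K16 = 4 ^ 2 := by rw [K16.card]; norm_num
  let y : Fin 4 → Cfsg.SU 3 K16 4 := ![⟨xU0, memU0⟩, ⟨xU1, memU1⟩, ⟨xU2, memU2⟩, ⟨xU3, memU3⟩]
  let a : Cfsg.SU 3 K16 4 := ⟨cU, memUc⟩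
  let b : Cfsg.SU 3 K16 4 := ⟨dU, memUd⟩
  have k0 : Rels true y a b := by
    have e : (fun i => ((y i : Cfsg.SU 3 K16 4) : SL316)) = ![xU0, xU1, xU2, xU3] := by
      funext i; fin_cases i <;> rfl
    obtain ⟨a1, a2, a3, a4, a5, a6, a7, a8, a9, a10, a11, a12, a13, a14, a15⟩ := relsU0
    refine ⟨Subtype.ext a1, Subtype.ext a2, Subtype.ext a3, fun i => Subtype.ext ?_,
      fun i => Subtype.ext ?_, Subtype.ext a6, Subtype.ext a7, Subtype.ext a8, Subtype.ext a9,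
      Subtype.ext a10, Subtype.ext a11, Subtype.ext a12, Subtype.ext a13, Subtype.ext a14,
      Subtype.ext a15⟩
    · have := a4 i; rw [← e] at this; exact this
    · have := a5 i; rw [← e] at this; exact this
  have hcen : Subgroup.center (Cfsg.SU 3 K16 4) = ⊥ := by
    refine Subgroup.eq_bot_of_card_eq _ ?_
    rw [H3.card_center_SU hF (by norm_num)]
    rfl
  let π := QuotientGroup.mk' (Subgroup.center (Cfsg.SU 3 K16 4))
  have hinj : Function.Injective π := by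
    rw [← MonoidHom.ker_eq_bot_iff, QuotientGroup.ker_mk', hcen]
  have k := k0.map π
  have hcard : Nat.card (Cfsg.PSU 3 K16 4) = 2 ^ 6 * 975 := by
    have h := Cfsg.Agent.S0280.result (q := 4) hF 3 (by norm_num)
    simp only [Finset.prod_range_succ, Finset.prod_range_zero] at h
    norm_num [Nat.even_iff] at h
    omega
  refine iso_sylow h hgen hT hZ k (fun e => cU_ne ?_) (fun e => dU_ne ?_) (fun e => cdU_ne ?_) 975
    hcard (by norm_num) P
  · exact congrArg Subtype.val (hinj (e.trans (map_one π).symm))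
  · exact congrArg Subtype.val (hinj (e.trans (map_one π).symm))
  · exact congrArg Subtype.val (hinj e)

end Cfsg.Agent.H74.Sixty
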